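import Cfsg.Agent.H23.K0
import Cfsg.Agent.H21.JU1

/-! The crux of part Pa of S5569. -/

set_option autoImplicit false
set_option linter.unusedSectionVars false
set_option linter.unusedVariables false
open Cfsg BG Subgroup H01.XS H01.XF Cfsg.Agent.H06.J Cfsg.Agent.H23.K
open H01.XT hiding Hy QS

namespace H28.YC
universe u
variable {V : Type u} [AddCommGroup V] [Module (ZMod 2) V] [Finite V] {Γ : Type u} [Group Γ] [Finite Γ]
  {T : Γ → V →+ V} {d : Γ} {M K Y : Subgroup Γ} {β : V →+ V →+ ZMod 2} {q : V → ZMod 2} {B : AddSubgroup V}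

theorem cW (g : Gj T d M β q) {y : Γ} (h : {v | T y v = v}.ncard = 256) :
    Nat.card (AddMonoidHom.id V + T y).range = 16 := by
  have a1 := (AddMonoidHom.id V + T y).ker.card_mul_index
  have a2 : Nat.card (AddMonoidHom.id V + T y).ker = 256 := by
    rw [← h, ← Nat.card_coe_set_eq]
    refine congrArg (fun S : Set V => Nat.card S) (Set.ext fun v => ?_ :
      ((AddMonoidHom.id V + T y).ker : Set V) = {v | T y v = v})
    exact ⟨fun o => lc (show v + T y v = 0 from o), fun o => show v + T y v = 0 by rw [show T y v = v from o]; exact lc0⟩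
  rw [AddSubgroup.index_ker, a2, g.card] at a1
  omega

theorem cx (g : Gj T d M β q) (hx : Hx d K Y) (KM : K ≤ M) (pj : Pj T d K Y q B) (pi : Pi T Y B)
    (h256 : ∀ y ∈ Y, y ≠ 1 → {v | T y v = v}.ncard = 256) {y : Γ} (yY : y ∈ Y) (y1 : y ≠ 1) {u : V} (hu : T y u = u)
    (uB : u ∉ B) : ∃ y2 ∈ Y, ¬ ∃ v, v + T y v = u + T y2 u := by
  classical
  by_contra! H
  have dy : ∀ y ∈ Y, ∀ v, T d (T y v) = T y (T d v) := fun y i v => by
    rw [← g.mul, ← g.mul, g.Md y (KM (hx.YK i))]
  have ω2 : ∀ v, T d (T d v) = T d v + v := fun v => lc (g.hf v)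
  have ω0 : ∀ v, T d v = 0 → v = 0 := fun v e => by have := ω2 v; rw [e, map_zero, zero_add] at this; exact this.symm
  have ω1 : ∀ v, T d v = v → v = 0 := fun v e => by have := ω2 v; rw [e, e] at this; exact lc this
  have ad : ∀ a ∈ Y, ∀ b ∈ Y, u + T (a * b) u = (u + T a u) + (u + T b u) := fun a i b j => by
    have := (pj.mB _).1 (pj.cm b j u) a i
    rw [map_add, ← g.mul] at this
    exact lc this
  have k0 : ∀ a ∈ Y, u + T a u = 0 → a = 1 ∨ a = y := fun a i e => by
    by_contra! o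
    exact uB (pi.two a i y yY o.1 y1 o.2 u (lc e) hu)
  obtain ⟨a, aY, b, bY, x0, e⟩ : ∃ a ∈ Y, ∃ b ∈ Y, u + T a u ≠ 0 ∧ T d (u + T a u) = u + T b u := by
    by_contra! o
    let F : Y × Y → (AddMonoidHom.id V + T y).range := fun p => ⟨T d (u + T p.1 u) + (u + T p.2 u), add_mem (by
      obtain ⟨v, e⟩ := H _ p.1.2
      exact ⟨T d v, by rw [← e, map_add, dy y yY]; rfl⟩) (H _ p.2.2)⟩
    have := Fintype.ofFinite (Y × Y)
    have := Fintype.ofFinite (AddMonoidHom.id V + T y).range
    obtain ⟨w, hw⟩ := Fintype.exists_lt_card_fiber_of_mul_lt_card F (n := 4) (by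
      rw [← Nat.card_eq_fintype_card, ← Nat.card_eq_fintype_card, cW g (h256 y yY y1), Nat.card_prod, hx.cY]; norm_num)
    obtain ⟨p, hp⟩ := Finset.card_pos.1 (lt_of_le_of_lt (Nat.zero_le 4) hw)
    refine hw.not_ge ((Finset.card_le_card (t := ({p.1, p.1 * ⟨y, yY⟩} : Finset Y) ×ˢ ({p.2, p.2 * ⟨y, yY⟩} : Finset Y))
      fun r hr => ?_).trans ?_)
    · have e := congrArg Subtype.val (((Finset.mem_filter.1 hp).2).trans ((Finset.mem_filter.1 hr).2).symm)
      have e' : T d (u + T (p.1 * r.1) u) = u + T (p.2 * r.2) u := by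
        rw [ad _ p.1.2 _ r.1.2, ad _ p.2.2 _ r.2.2, map_add]; exact lc e
      have z1 : u + T (p.1 * r.1) u = 0 := by
        by_contra n; exact o _ (mul_mem p.1.2 r.1.2) _ (mul_mem p.2.2 r.2.2) n e'
      have z2 : u + T (p.2 * r.2) u = 0 := by rw [← e', z1, map_zero]
      have m : ∀ s t : Y, u + T (s * t) u = 0 → t = s ∨ t = s * ⟨y, yY⟩ := fun s t k =>
        (k0 _ (mul_mem s.2 t.2) k).imp
          (fun k => Subtype.ext (mul_left_cancel (a := (s : Γ)) (k.trans (hx.Y2 _ s.2).symm)))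
          fun k => Subtype.ext (mul_left_cancel (a := (s : Γ)) (by
            rw [k]; show y = s * (s * y); rw [← mul_assoc, hx.Y2 _ s.2, one_mul]))
      simpa using ⟨m _ _ z1, m _ _ z2⟩
    · rw [Finset.card_product]
      exact Nat.mul_le_mul Finset.card_le_two Finset.card_le_two
  set x := u + T a u with hxd
  let P : AddSubgroup V := AddSubgroup.closure {x, T d x}
  obtain ⟨k, k1, k2, k3⟩ := H21.JU1.cpp g.toQF P
  have c3 : 3 ≤ Nat.card P := by
    have := Set.ncard_le_ncard (s := {0, x, T d x}) (t := (P : Set V)) (by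
      rintro _ (rfl | rfl | rfl)
      exacts [P.zero_mem, AddSubgroup.subset_closure (.inl rfl), AddSubgroup.subset_closure (.inr rfl)])
    rwa [Set.ncard_eq_three.2 ⟨_, _, _, x0.symm, fun o => x0 (ω0 _ o.symm), fun o => x0 (ω1 _ o.symm), rfl⟩] at this
  have c4 : Nat.card (H21.JU1.pp β P) ≤ 1024 := by
    rw [k3]
    have : 2 ≤ k := by
      by_contra! o
      rw [k2] at c3
      interval_cases k <;> omega
    exact Nat.pow_le_pow_right (by norm_num) (show 12 - k ≤ 10 by omega)
  have pe : ∀ c ∈ Y, ∀ w v, T c v = v → β (w + T c w) v = 0 := fun c i w v o => by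
    have := g.toQF.inv (g.qT c) w v
    rw [o] at this
    rw [map_add, AddMonoidHom.add_apply, this, CharTwo.add_self_eq_zero]
  have inP : ∀ c ∈ Y, (u + T c u = x ∨ u + T c u = T d x ∨ u + T c u = x + T d x) → ∀ v, T c v = v →
      v ∈ H21.JU1.pp β P := fun c i o v hv => by
    have h1 := pe c i u v hv
    have h2 := pe c i (T d u) v hv
    rw [← dy c i, ← map_add] at h2
    have : β x v = 0 ∧ β (T d x) v = 0 := by
      rcases o with o | o | o <;> rw [o] at h1 h2
      · exact ⟨h1, h2⟩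
      · rw [ω2, map_add, AddMonoidHom.add_apply, h1, zero_add] at h2; exact ⟨h2, h1⟩
      · rw [map_add, ω2, ← add_assoc, show T d x + T d x = 0 from lc0, zero_add] at h2
        rw [map_add, AddMonoidHom.add_apply, h2, zero_add] at h1; exact ⟨h2, h1⟩
    intro w hw
    induction hw using AddSubgroup.closure_induction with
    | mem _ o => rcases o with rfl | rfl; exacts [this.1, this.2]
    | zero => simp
    | add _ _ _ _ i j => rw [map_add, AddMonoidHom.add_apply, i, j, add_zero]
    | neg _ _ i => rw [map_neg, AddMonoidHom.neg_apply, i, neg_zero]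
  have := Fintype.ofFinite Γ
  have := Fintype.ofFinite V
  let S : Finset Γ := Finset.univ.filter fun c => c ∈ Y ∧ (u + T c u = x ∨ u + T c u = T d x ∨ u + T c u = x + T d x)
  have d0 : T d x ≠ 0 := fun o => x0 (ω0 _ o)
  have d1 : T d x ≠ x := fun o => x0 (ω1 _ o)
  have n1 : ∀ c ∈ S, c ≠ 1 := fun c i o => by
    have := (Finset.mem_filter.1 i).2.2
    rw [o, g.one, show u + u = 0 from lc0] at this
    rcases this with o | o | o
    exacts [x0 o.symm, d0 o.symm, d1 (lc o)]
  have f1 : ∀ w, (∃ c ∈ Y, u + T c u = w) → (w = x ∨ w = T d x ∨ w = x + T d x) →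
      2 ≤ (S.filter fun c => u + T c u = w).card := by
    rintro _ ⟨c, i, rfl⟩ o
    have e1 : u + T (c * y) u = u + T c u := by rw [g.mul, hu]
    refine Finset.one_lt_card.2 ⟨c, ?_, c * y, ?_, fun o => y1 (by simpa using o)⟩
    · simp only [S, Finset.mem_filter, Finset.mem_univ, true_and, and_true]; exact ⟨i, o⟩
    · simp only [S, Finset.mem_filter, Finset.mem_univ, true_and, e1, and_true]; exact ⟨mul_mem i yY, o⟩
  have s6 : 6 ≤ S.card := by
    have n2 : x ≠ x + T d x := fun o => d0 (lc o)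
    have n3 : T d x ≠ x + T d x := fun o => x0 (lc o)
    rw [Finset.card_eq_sum_card_fiberwise (f := fun c => u + T c u) (t := {x, T d x, x + T d x})
      (fun c i => by simpa using (Finset.mem_filter.1 i).2.2), Finset.sum_insert (by simp [d1.symm, d0]),
      Finset.sum_insert (by simp [x0]), Finset.sum_singleton]
    have := f1 x ⟨a, aY, rfl⟩ (.inl rfl)
    have := f1 _ ⟨b, bY, e.symm⟩ (.inr (.inl rfl))
    have := f1 _ ⟨a * b, mul_mem aY bY, by rw [ad a aY b bY, ← e]⟩ (.inr (.inr rfl))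
    omega
  have s7 : (S.biUnion fun c => Finset.univ.filter fun v => T c v = v ∧ v ∉ B).card ≤ 1024 := by
    refine le_trans ?_ c4
    rw [← Set.ncard_coe_finset]
    refine Set.ncard_le_ncard (t := (H21.JU1.pp β P : Set V)) fun v i => ?_
    obtain ⟨c, i, j⟩ := Finset.mem_biUnion.1 i
    exact inP c (Finset.mem_filter.1 i).2.1 (Finset.mem_filter.1 i).2.2 v (Finset.mem_filter.1 j).2.1
  rw [Finset.card_biUnion fun c i c' j n => Finset.disjoint_left.2 fun v o o' =>
    (Finset.mem_filter.1 o).2.2 (pi.two c (Finset.mem_filter.1 i).2.1 c' (Finset.mem_filter.1 j).2.1 (n1 c i) (n1 c' j) n v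
      (Finset.mem_filter.1 o).2.1 (Finset.mem_filter.1 o').2.1),
    Finset.sum_congr rfl (g := fun _ => 192) fun c i => by
      have := Set.ncard_diff (s := (B : Set V)) (t := {v | T c v = v}) (fun v o => (pj.mB v).1 o c (Finset.mem_filter.1 i).2.1)
      rw [h256 c (Finset.mem_filter.1 i).2.1 (n1 c i), show (B : Set V).ncard = 64 from pj.cB] at this
      rw [← Set.ncard_coe_finset, show (192 : ℕ) = 256 - 64 from rfl, ← this]; congr 1; ext v; simp] at s7
  rw [Finset.sum_const, smul_eq_mul] at s7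
  omega

end H28.YC
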