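import Cfsg.Agent.L.Fz0

/-! Part T of the `M₂₄` cluster: `D` is the set of pairs of a 24-set (`H28.FzT.t : L.Fz.TStmt`). -/

set_option autoImplicit false
open L.Fz

namespace H28.FzT
universe u

section
variable {H : Type u} [CommGroup H] {D : Set H}

theorem sq' (sq : ∀ x : H, x * x = 1) (a b : H) : a * (a * b) = b := by rw [← mul_assoc, sq, one_mul]

theorem ne' (sq : ∀ x : H, x * x = 1) {a b : H} (e : a * b = 1) : a = b := by
  have := congrArg (· * b) e
  simpa [mul_assoc, sq] using this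

theorem core [Finite H] (sq : ∀ x : H, x * x = 1) (d1 : (1 : H) ∉ D) (d : D.ncard = 276)
    (b : ∀ t ∈ D, {s | s ∈ D ∧ s * t ∈ D}.ncard = 44) (x : Xb D) :
    ∃ O : Set H, O.ncard = 24 ∧ (1 : H) ∈ O ∧ ∀ a ∈ O, ∀ b ∈ O, a ≠ b → a * b ∈ D := by
  have s2 := sq' sq
  obtain ⟨t, ht⟩ : D.Nonempty := Set.nonempty_of_ncard_ne_zero (by omega)
  obtain ⟨s, hs, hst⟩ : {s | s ∈ D ∧ s * t ∈ D}.Nonempty := Set.nonempty_of_ncard_ne_zero (by rw [b t ht]; omega)
  have t1 : t ≠ 1 := fun e => d1 (e ▸ ht)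
  have sst : s * t ≠ s := fun e => t1 (by simpa using e)
  set Q : Set H := {r | (r ∈ D ∧ r * t ∈ D) ∧ (r = s ∨ (r ≠ s * t ∧ s * r ∈ D))} with hQ
  have key : ∀ r, r ∈ D → r * t ∈ D → (r ∈ Q ↔ r * t ∉ Q) := by
    intro r h1 h2
    have e1 : r * t * t = r := by rw [mul_assoc, sq, mul_one]
    by_cases a1 : r = s
    · subst a1
      simp only [hQ, Set.mem_setOf_eq, e1]
      tauto
    by_cases a2 : r = s * t
    · have : r * t = s := by rw [a2, mul_assoc, sq, mul_one]
      simp only [hQ, Set.mem_setOf_eq, e1, this]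
      tauto
    have o := x.one t ht s hs r h1 hst h2 a1 a2
    have a3 : r * t ≠ s := fun e => a2 (by rw [← e, e1])
    have a4 : r * t ≠ s * t := fun e => a1 (mul_right_cancel e)
    simp only [hQ, Set.mem_setOf_eq, e1, ← mul_assoc]
    tauto
  have cQ : Q.ncard = 22 := by
    have u : {s | s ∈ D ∧ s * t ∈ D} = Q ∪ (fun r => r * t) '' Q := by
      ext r
      have e1 : r * t * t = r := by rw [mul_assoc, sq, mul_one]
      constructor
      · rintro ⟨h1, h2⟩
        by_cases a : r ∈ Q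
        · exact Or.inl a
        · exact Or.inr ⟨r * t, by have := key r h1 h2; tauto, e1⟩
      · rintro (a | ⟨w, a, rfl⟩)
        · exact a.1
        · refine ⟨a.1.2, ?_⟩
          show w * t * t ∈ D
          rw [mul_assoc, sq, mul_one]; exact a.1.1
    have dj : Disjoint Q ((fun r => r * t) '' Q) := by
      rw [Set.disjoint_left]
      rintro _ a ⟨w, c, rfl⟩
      exact (key w c.1.1 c.1.2).1 c a
    have := b t ht
    rw [u, Set.ncard_union_eq dj, Set.ncard_image_of_injective _ (mul_left_injective t)] at this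
    omega
  have tQ : t ∉ Q := fun a => d1 (by have := a.1.2; rwa [sq] at this)
  have oQ : (1 : H) ∉ insert t Q := by
    rintro (a | a)
    · exact t1 a.symm
    · exact d1 a.1.1
  refine ⟨insert 1 (insert t Q), by rw [Set.ncard_insert_of_notMem oQ, Set.ncard_insert_of_notMem tQ, cQ], Or.inl rfl, ?_⟩
  rintro a (rfl | rfl | ha) c (rfl | rfl | hc) n
  · exact absurd rfl n
  · rwa [one_mul]
  · rw [one_mul]; exact hc.1.1
  · rwa [mul_one]
  · exact absurd rfl n
  · rw [mul_comm]; exact hc.1.2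
  · rw [mul_one]; exact ha.1.1
  · exact ha.1.2
  · rcases ha.2 with rfl | ⟨a1, a2⟩
    · rcases hc.2 with rfl | ⟨-, c2⟩
      · exact absurd rfl n
      · exact c2
    · rcases hc.2 with rfl | ⟨c1, c2⟩
      · rwa [mul_comm]
      · exact x.tr t ht s hs a ha.1.1 c hc.1.1 hst ha.1.2 hc.1.2 a1 c1 n a2 c2

theorem ex5 {O : Set H} (hO : O.ncard = 24) (a b c d : H) : ∃ e ∈ O, e ≠ a ∧ e ≠ b ∧ e ≠ c ∧ e ≠ d := by
  by_contra n
  have s : O ⊆ {a, b, c, d} := by
    intro e he
    by_contra m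
    simp only [Set.mem_insert_iff, Set.mem_singleton_iff, not_or] at m
    exact n ⟨e, he, m⟩
  have h1 := Set.ncard_le_ncard s (Set.toFinite _)
  have h2 := Set.ncard_insert_le a ({b, c, d} : Set H)
  have h3 := Set.ncard_insert_le b ({c, d} : Set H)
  have h4 := Set.ncard_insert_le c ({d} : Set H)
  rw [Set.ncard_singleton] at h4
  omega

variable (sq : ∀ x : H, x * x = 1) (x : Xb D) {O : Set H} (hO : O.ncard = 24)
  (cl : ∀ a ∈ O, ∀ b ∈ O, a ≠ b → a * b ∈ D)
include sq x hO cl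

theorem f1 {a b c d : H} (ha : a ∈ O) (hb : b ∈ O) (hc : c ∈ O) (hd : d ∈ O) (ab : a ≠ b) (ac : a ≠ c)
    (bc : b ≠ c) : a * b ≠ c * d := by
  intro E
  have s2 := sq' sq
  obtain ⟨e, he, ea, eb, ec, ed⟩ := ex5 hO a b c d
  have o := x.one (a * b) (cl a ha b hb ab) (a * e) (cl a ha e he ea.symm) (c * e) (cl c hc e he ec.symm)
    (by have := cl e he b hb eb; simpa [mul_assoc, mul_comm, mul_left_comm, sq, s2] using this)
    (by rw [E]; have := cl e he d hd ed; simpa [mul_assoc, mul_comm, mul_left_comm, sq, s2] using this)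
    (fun h => ac (mul_right_cancel h).symm)
    (fun h => bc (by
      have : a * e * (a * b) = b * e := by simp [mul_assoc, mul_comm, mul_left_comm, sq, s2]
      rw [this] at h; exact (mul_right_cancel h).symm))
  refine o.1 ?_ ?_
  · have := cl a ha c hc ac; simpa [mul_assoc, mul_comm, mul_left_comm, sq, s2] using this
  · have := cl b hb c hc bc; simpa [mul_assoc, mul_comm, mul_left_comm, sq, s2] using this

theorem f2 {a b c d : H} (ha : a ∈ O) (hb : b ∈ O) (hc : c ∈ O) (hd : d ∈ O) (ab : a ≠ b) (ac : a ≠ c) (ad : a ≠ d)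
    (bc : b ≠ c) (bd : b ≠ d) (cd : c ≠ d) : a * b * (c * d) ∉ D := by
  have s2 := sq' sq
  have o := x.one (a * b) (cl a ha b hb ab) (a * c) (cl a ha c hc ac) (a * d) (cl a ha d hd ad)
    (by have := cl b hb c hc bc; simpa [mul_assoc, mul_comm, mul_left_comm, sq, s2] using this)
    (by have := cl b hb d hd bd; simpa [mul_assoc, mul_comm, mul_left_comm, sq, s2] using this)
    (fun h => cd (mul_left_cancel h).symm)
    (fun h => f1 sq x hO cl ha hd hb hc ad ab bd.symm (by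
      rw [h]; simp [mul_assoc, mul_comm, mul_left_comm, sq, s2]))
  have := o.1 (by have := cl c hc d hd cd; simpa [mul_assoc, mul_comm, mul_left_comm, sq, s2] using this)
  simpa [mul_assoc, mul_comm, mul_left_comm, sq, s2] using this

theorem inj {a b c d : H} (ha : a ∈ O) (hb : b ∈ O) (hc : c ∈ O) (hd : d ∈ O) (ab : a ≠ b) (E : a * b = c * d) :
    a = c ∧ b = d ∨ a = d ∧ b = c := by
  by_cases ac : a = c
  · subst ac; exact Or.inl ⟨rfl, mul_left_cancel E⟩
  by_cases bc : b = c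
  · subst bc; rw [mul_comm] at E; exact Or.inr ⟨mul_left_cancel E, rfl⟩
  exact absurd E (f1 sq x hO cl ha hb hc hd ab ac bc)

theorem surj [Finite H] (d : D.ncard = 276) {t : H} (ht : t ∈ D) : ∃ a ∈ O, ∃ b ∈ O, a ≠ b ∧ a * b = t := by
  classical
  haveI := Fintype.ofFinite O
  let g : Sym2 O → H := Sym2.lift ⟨fun a b => a.1 * b.1, fun a b => mul_comm _ _⟩
  let S : Set (Sym2 O) := {a | ¬ a.IsDiag}
  have cS : S.ncard = 276 := by
    have h1 : Fintype.card O = 24 := by rw [← Nat.card_eq_fintype_card, Nat.card_coe_set_eq, hO]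
    have h2 := Sym2.card_subtype_not_diag (α := O)
    rw [h1, ← Nat.card_eq_fintype_card] at h2
    rw [← Nat.card_coe_set_eq]
    exact h2.trans (by decide)
  have io : Set.InjOn g S := by
    intro p hp q _ e
    induction p using Sym2.ind with | _ a b
    induction q using Sym2.ind with | _ c d
    have ab : a.1 ≠ b.1 := fun e => hp (Sym2.mk_isDiag_iff.2 (Subtype.ext e))
    rcases inj sq x hO cl a.2 b.2 c.2 d.2 ab e with ⟨h1, h2⟩ | ⟨h1, h2⟩
    · rw [Subtype.ext h1, Subtype.ext h2]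
    · rw [Subtype.ext h1, Subtype.ext h2, Sym2.eq_swap]
  have sub : g '' S ⊆ D := by
    rintro _ ⟨p, hp, rfl⟩
    induction p using Sym2.ind with | _ a b
    exact cl _ a.2 _ b.2 fun e => hp (Sym2.mk_isDiag_iff.2 (Subtype.ext e))
  have eq := Set.eq_of_subset_of_ncard_le sub (by rw [io.ncard_image, cS, d])
  rw [← eq] at ht
  obtain ⟨p, hp, rfl⟩ := ht
  induction p using Sym2.ind with | _ a b
  exact ⟨a, a.2, b, b.2, fun e => hp (Sym2.mk_isDiag_iff.2 (Subtype.ext e)), rfl⟩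

theorem meet {a b c d : H} (ha : a ∈ O) (hb : b ∈ O) (hc : c ∈ O) (hd : d ∈ O) (ab : a ≠ b) (cd : c ≠ d)
    (E : a * b * (c * d) ∈ D) : a = c ∨ a = d ∨ b = c ∨ b = d := by
  by_contra n
  simp only [not_or] at n
  exact f2 sq x hO cl ha hb hc hd ab n.1 n.2.1 n.2.2.1 n.2.2.2 cd E

theorem wh [Finite H] (d : D.ncard = 276) (o1 : (1 : H) ∈ O) (f : H → H) (fm : ∀ a b, f (a * b) = f a * f b)
    (fi : Function.Injective f) (fD : ∀ a ∈ D, f a ∈ D) :
    ∃ π : Equiv.Perm O, ∀ i j : O, f (i.1 * j.1) = (π i).1 * (π j).1 := by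
  have s2 := sq' sq
  have f0 : f 1 = 1 := by have := fm 1 1; rw [one_mul] at this; simpa using this
  have oD : ∀ i ∈ O, i ≠ 1 → i ∈ D := fun i hi n => by have := cl i hi 1 o1 n; rwa [mul_one] at this
  obtain ⟨i1, h1, n1, -⟩ := ex5 hO 1 1 1 1
  obtain ⟨i2, h2, n2, n12, -⟩ := ex5 hO 1 i1 1 1
  obtain ⟨p, hp, a, ha, b, hb, pa, pb, e1, e2⟩ : ∃ p ∈ O, ∃ a ∈ O, ∃ b ∈ O, p ≠ a ∧ p ≠ b ∧ f i1 = p * a ∧ f i2 = p * b := by
    obtain ⟨a, ha, b, hb, ab, e1⟩ := surj sq x hO cl d (fD _ (oD i1 h1 n1))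
    obtain ⟨c, hc, e, he, ce, e2⟩ := surj sq x hO cl d (fD _ (oD i2 h2 n2))
    have := fD _ (cl i1 h1 i2 h2 n12.symm)
    rw [fm, ← e1, ← e2] at this
    rcases meet sq x hO cl ha hb hc he ab ce this with rfl | rfl | rfl | rfl
    · exact ⟨a, ha, b, hb, e, he, ab, ce, e1.symm, e2.symm⟩
    · exact ⟨a, ha, b, hb, c, hc, ab, ce.symm, e1.symm, by rw [← e2, mul_comm]⟩
    · exact ⟨b, hb, a, ha, e, he, ab.symm, ce, by rw [← e1, mul_comm], e2.symm⟩
    · exact ⟨b, hb, a, ha, c, hc, ab.symm, ce.symm, by rw [← e1, mul_comm], by rw [← e2, mul_comm]⟩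
  have ab : a ≠ b := fun e => n12 (fi (by rw [e1, e2, e]))
  have k : ∀ i ∈ O, f i * p ∈ O := by
    intro i hi
    by_cases i0 : i = 1
    · rw [i0, f0, one_mul]; exact hp
    by_cases j1 : i = i1
    · rw [j1, e1, mul_comm, s2]; exact ha
    by_cases j2 : i = i2
    · rw [j2, e2, mul_comm, s2]; exact hb
    obtain ⟨c, hc, e, he, ce, e3⟩ := surj sq x hO cl d (fD _ (oD i hi i0))
    by_cases cp : c = p
    · rw [← e3, cp, mul_comm, s2]; exact he
    by_cases ep : e = p
    · rw [← e3, ep, mul_assoc, sq, mul_one]; exact hc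
    exfalso
    have m1 := fD _ (cl i hi i1 h1 j1)
    have m2 := fD _ (cl i hi i2 h2 j2)
    rw [fm, ← e3, e1] at m1
    rw [fm, ← e3, e2] at m2
    have q1 := meet sq x hO cl hc he hp ha ce pa m1
    have q2 := meet sq x hO cl hc he hp hb ce pb m2
    have q3 : c * e = a * b := by
      rcases q1 with q | q | q | q
      · exact absurd q cp
      · rcases q2 with r | r | r | r
        · exact absurd r cp
        · exact absurd (q.symm.trans r) ab
        · exact absurd r ep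
        · rw [q, r]
      · exact absurd q ep
      · rcases q2 with r | r | r | r
        · exact absurd r cp
        · rw [q, r, mul_comm]
        · exact absurd r ep
        · exact absurd (q.symm.trans r) ab
    have q4 : 1 * i = i1 * i2 := fi (by
      rw [one_mul, fm, ← e3, q3, e1, e2]; simp [mul_assoc, mul_comm, mul_left_comm, sq, s2])
    exact f1 sq x hO cl o1 hi h1 h2 (Ne.symm i0) n1.symm j1 q4
  let g : O → O := fun i => ⟨f i.1 * p, k i.1 i.2⟩
  have gi : Function.Injective g := fun i j e => Subtype.ext (fi (mul_right_cancel (congrArg Subtype.val e)))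
  refine ⟨Equiv.ofBijective g (Finite.injective_iff_bijective.1 gi), fun i j => ?_⟩
  show f (i.1 * j.1) = f i.1 * p * (f j.1 * p)
  rw [fm]; simp [mul_assoc, mul_comm, mul_left_comm, sq, s2]

theorem uq (π ρ : Equiv.Perm O) (e : ∀ i j : O, (π i).1 * (π j).1 = (ρ i).1 * (ρ j).1) : π = ρ := by
  ext i
  by_contra n
  obtain ⟨y, hy, y1, y2, -⟩ := ex5 hO (π i).1 (ρ i).1 1 1
  obtain ⟨j, hj⟩ := π.surjective ⟨y, hy⟩
  have hj' : (π j).1 = y := congrArg Subtype.val hj
  have E := e j i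
  rcases inj sq x hO cl (π j).2 (π i).2 (ρ j).2 (ρ i).2 (by rw [hj']; exact y1) E with ⟨-, h⟩ | ⟨h, -⟩
  · exact n h
  · exact y2 (hj'.symm.trans h)

end

theorem t : TStmt.{u} := by
  intro G _ _ A M B D z h n x
  have cm : ∀ a b : A, a * b = b * a := fun a b => Subtype.ext (by
    have h1 := h.sq _ (A.mul_mem a.2 b.2)
    have h2 := h.sq _ a.2
    have h3 := h.sq _ b.2
    show a.1 * b.1 = b.1 * a.1
    calc a.1 * b.1 = a.1 * (a.1 * b.1 * (a.1 * b.1)) * b.1 := by rw [h1, mul_one]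
      _ = (a.1 * a.1) * (b.1 * a.1) * (b.1 * b.1) := by group
      _ = b.1 * a.1 := by rw [h2, h3, one_mul, mul_one])
  letI : CommGroup A := { (inferInstance : Group A) with mul_comm := cm }
  have sq : ∀ a : A, a * a = 1 := fun a => Subtype.ext (h.sq _ a.2)
  let D' : Set A := Subtype.val ⁻¹' D
  have pc : ∀ S : Set G, (∀ s ∈ S, s ∈ D) → ((Subtype.val : A → G) ⁻¹' S).ncard = S.ncard := fun S hS =>
    Set.ncard_preimage_of_injective_subset_range Subtype.val_injective fun s hs => ⟨⟨s, (h.DA s (hS s hs)).1⟩, rfl⟩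
  have d : D'.ncard = 276 := (pc D fun _ a => a).trans n.d
  have x' : Xb D' := ⟨fun t ht s hs r hr a b c e => x.one t ht s hs r hr a b (fun q => c (Subtype.ext q))
      (fun q => e (Subtype.ext q)),
    fun t ht s hs r hr w hw a b c e f g i j => x.tr t ht s hs r hr w hw a b c (fun q => e (Subtype.ext q))
      (fun q => f (Subtype.ext q)) (fun q => g (Subtype.ext q)) i j⟩
  obtain ⟨O, hO, o1, cl⟩ := core (D := D') sq (fun a => (h.DA _ a).2 rfl) d
    (fun t ht => (pc {s | s ∈ D ∧ s * t.1 ∈ D} fun _ a => a.1).trans (n.b t.1 ht)) x'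
  have W : ∀ m : M, ∃ π : Equiv.Perm O, ∀ i j : O,
      (m : G) * ((i.1 * j.1 : A) : G) * (m : G)⁻¹ = (((π i).1 * (π j).1 : A) : G) := fun m => by
    obtain ⟨π, hπ⟩ := wh sq x' hO cl d o1 (fun a => ⟨m * a * (m : G)⁻¹, h.nM m m.2 a a.2⟩)
      (fun a b => Subtype.ext (by show (m : G) * (a * b) * (m : G)⁻¹ = m * a * (m : G)⁻¹ * (m * b * (m : G)⁻¹); group))
      (fun a b e => Subtype.ext (by
        have : (m : G) * a * (m : G)⁻¹ = m * b * (m : G)⁻¹ := congrArg Subtype.val e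
        simpa using this))
      (fun a ha => h.Dc m m.2 a ha)
    exact ⟨π, fun i j => congrArg Subtype.val (hπ i j)⟩
  choose σ hσ using W
  refine ⟨O, fun i j => ((i.1 * j.1 : A) : G), MonoidHom.mk' σ fun a b => uq sq x' hO cl _ _ fun i j => Subtype.ext ?_,
    ⟨by rw [Nat.card_coe_set_eq, hO], fun i => congrArg Subtype.val (sq i.1),
      fun i j k => congrArg Subtype.val (show i.1 * j.1 * (j.1 * k.1) = i.1 * k.1 by rw [mul_assoc, sq' sq]),
      fun i j => congrArg Subtype.val (cm i.1 j.1),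
      fun i j ij => cl _ i.2 _ j.2 fun e => ij (Subtype.ext e), fun t ht => ?_, fun i j k l ij e => ?_,
      fun i j k l a b c e f g => f2 sq x' hO cl i.2 j.2 k.2 l.2 (fun q => a (Subtype.ext q)) (fun q => b (Subtype.ext q))
        (fun q => c (Subtype.ext q)) (fun q => e (Subtype.ext q)) (fun q => f (Subtype.ext q)) (fun q => g (Subtype.ext q)),
      hσ⟩⟩
  · rw [← hσ, Equiv.Perm.mul_apply, Equiv.Perm.mul_apply, ← hσ, ← hσ, Subgroup.coe_mul M a b]; group
  · obtain ⟨a, ha, b, hb, ab, e⟩ := surj sq x' hO cl d (t := ⟨t, (h.DA t ht).1⟩) ht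
    exact ⟨⟨a, ha⟩, ⟨b, hb⟩, fun q => ab (congrArg Subtype.val q), congrArg Subtype.val e⟩
  · rcases inj sq x' hO cl i.2 j.2 k.2 l.2 (fun q => ij (Subtype.ext q)) (Subtype.ext e) with ⟨p, q⟩ | ⟨p, q⟩
    · exact Or.inl ⟨Subtype.ext p, Subtype.ext q⟩
    · exact Or.inr ⟨Subtype.ext p, Subtype.ext q⟩

end H28.FzT
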