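import Cfsg.Agent.H23.K0
import Cfsg.Agent.H26.JE
import Cfsg.Agent.H21.JU1

/-! Part C of S5567: the orbits outside `B` (`H28.KC.c : H23.K.CStmt`). -/

set_option autoImplicit false
set_option linter.unusedSectionVars false
set_option linter.unusedVariables false
open Cfsg BG Subgroup H01.XS H01.XF Cfsg.Agent.H06.J Cfsg.Agent.H23.K
open H01.XT hiding Hy QS

namespace H28.KC
universe u

theorem fib {α β : Type*} [Finite α] [Finite β] (S : Set α) (R : Set β) (p : α → β) (n : ℕ) (h : ∀ x ∈ S, p x ∈ R)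
    (k : ∀ y ∈ R, {x | x ∈ S ∧ p x = y}.ncard = n) : S.ncard = R.ncard * n := by
  classical
  rw [Set.ncard_eq_toFinset_card S, Set.ncard_eq_toFinset_card R,
    Finset.card_eq_sum_card_fiberwise (f := p) (t := R.toFinite.toFinset) (fun x hx => by simpa using h x (by simpa using hx)),
    Finset.sum_congr rfl (g := fun _ => n) fun y hy => by
      rw [← k y (by simpa using hy), ← Set.ncard_coe_finset]; congr 1; ext x; simp]
  simp

theorem five {α : Type*} [Finite α] (h : Nat.card α = 4) {a b c d e : α} (h1 : a ≠ b) (h2 : a ≠ c) (h3 : a ≠ d) (h4 : a ≠ e)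
    (h5 : b ≠ c) (h6 : b ≠ d) (h7 : b ≠ e) (h8 : c ≠ d) (h9 : c ≠ e) (h0 : d ≠ e) : False := by
  have := Set.ncard_le_card ({a, b, c, d, e} : Set α)
  rw [Set.ncard_insert_of_notMem (by simp [*]), Set.ncard_insert_of_notMem (by simp [*]),
    Set.ncard_insert_of_notMem (by simp [*]), Set.ncard_insert_of_notMem (by simp [*]), Set.ncard_singleton] at this
  omega

theorem c : CStmt.{u} := by
  intro G _ _ z Q V _ _ _ Γ _ _ f π ν T d M β q s K Y B A δ x c2 h256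
  have l := s.md.lx
  have g := s.gm
  have hx := x.hk.hx
  have tw := s.md.two
  have mu := H26.JE.mul s
  have iv := H26.JE.inv s
  have mB : ∀ {W : AddSubgroup V} {x : G}, x ∈ s.md.pull W ↔ x ∈ Q ∧ ν x ∈ W := Iff.rfl
  have zL : ∀ W : AddSubgroup V, z ∈ s.md.pull W := fun W => mB.2 ⟨l.aes.mem, s.md.zz ▸ zero_mem W⟩
  have BA : s.md.pull B ≤ A := c2.e3 ▸ inf_le_left
  have zA : z ∈ A := BA (zL B)
  have pB : ∀ a ∈ A, a ∈ s.md.pull B ↔ π a = 1 := fun a i => by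
    rw [← c2.e3, s.ker _ (x.Az i)]; exact ⟨fun o => o.2, fun o => ⟨i, o⟩⟩
  have pQ : ∀ r ∈ Q, π r = 1 := fun r i => (s.ker _ (l.le i)).2 i
  have pz : π z = 1 := pQ z l.aes.mem
  have cj' : ∀ m ∈ C_[z], ∀ a ∈ A, π (m * a * m⁻¹) = π m * π a * (π m)⁻¹ := fun m i a j => by
    rw [mu _ (mul_mem i (x.Az j)) _ (inv_mem i), mu _ i _ (x.Az j), iv _ i]
  have nA : ∀ m ∈ N_(A), ∀ a ∈ A, m * a * m⁻¹ ∈ A := fun m i a j => (mem_normalizer_iff.1 i a).1 j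
  have fz : ∀ m ∈ C_[z], m * z * m⁻¹ = z := fun m i => by rw [mem_cent1.1 i, mul_inv_cancel_right]
  have QN : ∀ r ∈ Q, r ∈ N_(A) := fun r i => (c2.mN r (l.le i)).2 fun v j => by rw [pQ r i, g.one]; exact j
  have δN : δ ∈ N_(A) := (c2.mN δ x.δz).2 fun v j => by rw [x.δd]; exact x.pj.Bω v j
  choose! c cA cδ cπ using c2.YA
  have cc : ∀ y ∈ Y, c y * c y = 1 := fun y i => x.A2 _ (cA y i)
  have ci : ∀ y ∈ Y, (c y)⁻¹ = c y := fun y i => inv_eq_of_mul_eq_one_left (cc y i)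
  have cb : ∀ a ∈ A, c (π a) * a ∈ s.md.pull B := fun a i => (pB _ (mul_mem (cA _ (x.AY a i)) i)).2 (by
    rw [mu _ (x.Az (cA _ (x.AY a i))) _ (x.Az i), cπ _ (x.AY a i), hx.Y2 _ (x.AY a i)])
  obtain ⟨W, mW, cW⟩ : ∃ W : Γ → AddSubgroup V, (∀ y w, w ∈ W y ↔ ∃ v, v + T y v = w) ∧
      ∀ y ∈ Y, y ≠ 1 → Nat.card (W y) = 16 := by
    refine ⟨fun y => (AddMonoidHom.id V + T y).range, fun _ _ => Iff.rfl, fun y i n => ?_⟩
    have a1 := (AddMonoidHom.id V + T y).ker.card_mul_index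
    have a2 : Nat.card (AddMonoidHom.id V + T y).ker = 256 := by
      rw [← h256 y i n, ← Nat.card_coe_set_eq]
      refine congrArg (fun S : Set V => Nat.card S) (Set.ext fun v => ?_ :
        ((AddMonoidHom.id V + T y).ker : Set V) = {v | T y v = v})
      exact ⟨fun o => lc (show v + T y v = 0 from o), fun o => show v + T y v = 0 by rw [show T y v = v from o, tw]⟩
    rw [AddSubgroup.index_ker, a2, g.card] at a1
    show Nat.card (AddMonoidHom.id V + T y).range = 16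
    omega
  have WB : ∀ y ∈ Y, W y ≤ B := fun y i w o => by obtain ⟨v, rfl⟩ := (mW y w).1 o; exact x.pj.cm y i v
  have dy : ∀ y ∈ Y, ∀ v, T d (T y v) = T y (T d v) := fun y i v => by
    rw [← g.mul, ← g.mul, g.Md y (x.hk.KM (hx.YK i))]
  have Wω : ∀ y ∈ Y, ∀ w ∈ W y, T d w ∈ W y := fun y i w o => by
    obtain ⟨v, rfl⟩ := (mW y w).1 o
    exact (mW y _).2 ⟨T d v, by rw [map_add, dy y i]⟩
  have Q1 : ∀ a ∈ A, ∀ r ∈ Q, c (π a) * (r * a * r⁻¹) ∈ Q ∧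
      ν (c (π a) * (r * a * r⁻¹)) = ν r + T (π a) (ν r) + ν (c (π a) * a) := fun a i r j => by
    have y := x.AY a i
    have e : c (π a) * (r * a * r⁻¹) = c (π a) * r * (c (π a))⁻¹ * (c (π a) * a) * r⁻¹ := by group
    have k1 := l.cE (x.Az (cA _ y)) j
    have k2 := (cb a i).1
    refine ⟨e ▸ mul_mem (mul_mem k1 k2) (inv_mem j), ?_⟩
    rw [e, s.md.mul _ (mul_mem k1 k2) _ (inv_mem j), s.md.mul _ k1 _ k2, s.md.inv j, ← s.act _ (x.Az (cA _ y)) _ j, cπ _ y]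
    abel
  have R : ∀ a ∈ A, ∀ a' ∈ A, π a = π a' → ν (c (π a) * a) + ν (c (π a) * a') ∈ W (π a) →
      ∃ r ∈ Q, r * a * r⁻¹ = a' ∨ r * a * r⁻¹ = a' * z := fun a i a' i' e o => by
    obtain ⟨v, hv⟩ := (mW _ _).1 o
    obtain ⟨r, j, rfl⟩ := s.md.sur v
    obtain ⟨k1, k2⟩ := Q1 a i r j
    have k3 : c (π a) * a' ∈ Q := e ▸ (cb a' i').1
    refine ⟨r, j, (s.md.eq k1 k3 (by rw [k2, hv]; exact lc0)).imp mul_left_cancel fun o => mul_left_cancel (a := c (π a)) ?_⟩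
    rw [o]
    exact (mem_cent1.1 (x.Az (mul_mem (cA _ (x.AY a i)) i'))).symm.trans (mul_assoc _ _ _)
  have two : ∀ a ∈ A, a ∈ C_[δ] → ∀ a' ∈ A, a' ∈ C_[δ] → π a = π a' → a = a' ∨ a = a' * z := fun a i j a' i' j' e => by
    have k : a'⁻¹ * a ∈ Q := (s.ker _ (x.Az (mul_mem (inv_mem i') i))).1 (by
      rw [mu _ (x.Az (inv_mem i')) _ (x.Az i), iv _ (x.Az i'), e, inv_mul_cancel])
    exact (H26.JE.cq s x.δz x.δd k (mul_mem (inv_mem j') j)).imp (fun o => (inv_mul_eq_one.1 o).symm)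
      fun o => by rw [← o, mul_inv_cancel_left]
  have zδ : z ∈ C_[δ] := mem_cent1.2 (mem_cent1.1 x.δz).symm
  obtain ⟨P, hP⟩ : ∃ P : G → Prop, ∀ a, P a ↔ ∃ r ∈ Q, ∃ e ∈ A, e ∈ C_[δ] ∧ a = r * e * r⁻¹ := ⟨_, fun _ => Iff.rfl⟩
  have EQ : ∀ a ∈ A, P a ↔ ν (c (π a) * a) ∈ W (π a) := fun a i => by
    have y := x.AY a i
    rw [hP]
    constructor
    · rintro ⟨r, j, e, k, k', rfl⟩
      have p : π (r * e * r⁻¹) = π e := by rw [cj' r (l.le j) e k, pQ r j]; group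
      have y' := x.AY e k
      rw [p, (Q1 e k r j).2, show ν (c (π e) * e) = 0 by
        rcases two e k k' _ (cA _ y') (cδ _ y') (cπ _ y').symm with o | o
        · rw [show c (π e) * e = 1 by nth_rewrite 2 [o]; exact cc _ y', s.md.one]
        · rw [show c (π e) * e = z by nth_rewrite 2 [o]; rw [← mul_assoc, cc _ y', one_mul], s.md.zz], add_zero]
      exact (mW _ _).2 ⟨_, rfl⟩
    · intro o
      obtain ⟨r, j, k | k⟩ := R _ (cA _ y) a i (cπ _ y) (by rw [cπ _ y, cc _ y, s.md.one, zero_add]; exact o)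
      · exact ⟨r, j, _, cA _ y, cδ _ y, k.symm⟩
      · refine ⟨r, j, _, mul_mem (cA _ y) zA, mul_mem (cδ _ y) zδ, ?_⟩
        rw [← conj_mul, k, fz r (l.le j), mul_assoc, l.zz, mul_one]
  have PI : ∀ m ∈ N_(A), m ∈ C_[z] → m ∈ C_[δ] → ∀ a, P a → P (m * a * m⁻¹) := fun m i j k a o => by
    obtain ⟨r, a1, e, a2, a3, rfl⟩ := (hP a).1 o
    exact (hP _).2 ⟨_, l.cE j a1, _, nA m i e a2, mul_mem (mul_mem k a3) (inv_mem k), by group⟩
  have K1 : ∀ a ∈ A, ∀ a' ∈ A, π a ≠ 1 → π a' ≠ 1 → ∃ m ∈ N_(A), m ∈ C_[z] ∧ m ∈ C_[δ] ∧ π (m * a * m⁻¹) = π a' :=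
    fun a i a' i' n n' => by
    obtain ⟨k, kK, ek⟩ := hx.tr _ (x.AY a i) _ (x.AY a' i') n n'
    obtain ⟨m, j, rfl⟩ := H26.JE.su s x.δz x.δd x.δ3 k (x.hk.KM kK)
    exact ⟨m, (c2.mN m j.1).2 (x.pj.KB _ kK), j.1, j.2, (cj' m j.1 a i).trans ek⟩
  have Z : ∀ a ∈ A, π a ≠ 1 → ¬ P a → ∃ r ∈ Q, r * (a * z) * r⁻¹ = a := fun a i n o => by
    have y := x.AY a i
    rw [EQ a i] at o
    let Fx : AddSubgroup V := (T (π a)).eqLocus (AddMonoidHom.id V)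
    have cF : Nat.card Fx = 2 ^ 8 := (Nat.card_coe_set_eq _).trans (h256 _ y n)
    obtain ⟨k, k1, k2, k3⟩ := H21.JU1.cpp g.toQF Fx
    have k8 : k = 8 := Nat.pow_right_injective (le_refl 2) (k2.symm.trans cF)
    have le : W (π a) ≤ H21.JU1.pp β Fx := fun w j u hu => by
      obtain ⟨v, rfl⟩ := (mW _ _).1 j
      have := g.toQF.inv (g.qT (π a)) u v
      rw [show T (π a) u = u from hu] at this
      rw [map_add, this, CharTwo.add_self_eq_zero]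
    have e := AddSubgroup.eq_of_le_of_card_ge le (by rw [k3, k8, cW _ y n]; norm_num)
    rw [e] at o
    obtain ⟨v, hv, nv⟩ : ∃ v ∈ Fx, β v (ν (c (π a) * a)) ≠ 0 := by
      by_contra! t; exact o t
    obtain ⟨r, j, rfl⟩ := s.md.sur v
    have b := (cb a i).1
    have k4 := c2.cz _ (x.Az (cA _ y)) (cδ _ y) r j (by rw [cπ _ y]; exact hv)
    have k5 := (s.md.eq (l.cE (l.le j) b) b (s.md.cq j b)).resolve_left fun t =>
      nv ((s.b r j _ b).2 (mul_inv_eq_iff_eq_mul.1 t))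
    refine ⟨r, j, mul_left_cancel (a := c (π a)) ?_⟩
    rw [← conj_mul, fz r (l.le j), ← mul_assoc, ← mul_assoc, ← mul_assoc, mul_inv_eq_iff_eq_mul.1 k4, mul_assoc r, k5,
      mul_assoc z, mem_cent1.1 (l.le b), ← mul_assoc z, l.zz, one_mul]
  have D1 : ∀ a ∈ A, π (δ * a * δ⁻¹) = π a ∧ ν (c (π a) * (δ * a * δ⁻¹)) = T d (ν (c (π a) * a)) := fun a i => by
    have y := x.AY a i
    refine ⟨by rw [cj' δ x.δz a i, x.δd, ← g.Md _ (x.hk.KM (hx.YK y)), mul_inv_cancel_right], ?_⟩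
    rw [← x.δd, s.act δ x.δz _ (cb a i).1, ← mul_assoc δ, ← mem_cent1.1 (cδ _ y)]; simp only [mul_assoc]
  have cE : {a | a ∈ A ∧ a ∉ s.md.pull B ∧ P a}.ncard = 480 := by
    rw [fib _ ((Y : Set Γ) \ {1}) π 32 (fun a i => ⟨x.AY a i.1, fun o => i.2.1 ((pB a i.1).2 o)⟩) fun y hy => ?_,
      Set.ncard_diff_singleton_of_mem Y.one_mem, ← Nat.card_coe_set_eq, show Nat.card (Y : Set Γ) = 16 from hx.cY]
    have e : {a | a ∈ {a | a ∈ A ∧ a ∉ s.md.pull B ∧ P a} ∧ π a = y} = (fun b => c y * b) '' (s.md.pull (W y) : Set G) := by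
      ext a
      constructor
      · rintro ⟨⟨a1, a2, a3⟩, rfl⟩
        exact ⟨_, mB.2 ⟨(cb a a1).1, (EQ a a1).1 a3⟩, by simp only [← mul_assoc, cc _ hy.1, one_mul]⟩
      · rintro ⟨b, j, rfl⟩
        have a1 : c y * b ∈ A := mul_mem (cA y hy.1) (BA (mB.2 ⟨j.1, WB y hy.1 j.2⟩))
        have a2 : π (c y * b) = y := by rw [mu _ (x.Az (cA y hy.1)) _ (l.le j.1), cπ y hy.1, pQ b j.1, mul_one]
        refine ⟨⟨a1, fun o => hy.2 (a2.symm.trans ((pB _ a1).1 o)), (EQ _ a1).2 ?_⟩, a2⟩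
        rw [a2, ← mul_assoc, cc y hy.1, one_mul]; exact j.2
    rw [e, Set.ncard_image_of_injective _ (mul_right_injective _), ← Nat.card_coe_set_eq]
    exact (s.md.card_pull _).trans (by rw [cW y hy.1 hy.2])
  refine ⟨{a | a ∈ A ∧ a ∉ s.md.pull B ∧ P a}, {a | a ∈ A ∧ a ∉ s.md.pull B ∧ ¬ P a}, fun a => by
    simp only [Set.mem_setOf_eq]; tauto, cE, ?_, ?_, ?_, ?_, fun a i j k => ⟨i, k, (hP a).2 ⟨1, one_mem _, a, i, j, by group⟩⟩⟩
  · have e : {a | a ∈ A ∧ a ∉ s.md.pull B ∧ ¬ P a} = ((A : Set G) \ s.md.pull B) \ {a | a ∈ A ∧ a ∉ s.md.pull B ∧ P a} := by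
      ext a; simp only [Set.mem_setOf_eq, Set.mem_diff, SetLike.mem_coe]; tauto
    rw [e, Set.ncard_diff (s := {a | a ∈ A ∧ a ∉ s.md.pull B ∧ P a}) (t := (A : Set G) \ s.md.pull B) (fun a i => ⟨i.1, i.2.1⟩), cE, Set.ncard_diff BA, ← Nat.card_coe_set_eq, ← Nat.card_coe_set_eq,
      show Nat.card (A : Set G) = 2048 from x.cA, show Nat.card (s.md.pull B : Set G) = 128 from
        (s.md.card_pull B).trans (by rw [x.pj.cB])]
  · rintro a ⟨a1, a2, a3⟩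
    obtain ⟨r, j, e, k, k', rfl⟩ := (hP a).1 a3
    refine ⟨mul_mem a1 zA, fun o => a2 (by simpa [mul_assoc, l.zz] using mul_mem o (zL B)),
      (hP _).2 ⟨r, j, _, mul_mem k zA, mul_mem k' zδ, by rw [← conj_mul, fz r (l.le j)]⟩⟩
  · rintro a ⟨a1, a2, a3⟩ b ⟨b1, b2, b3⟩
    obtain ⟨r, j, e, k, k', rfl⟩ := (hP a).1 a3
    obtain ⟨r', j', e', o, o', rfl⟩ := (hP b).1 b3
    have p : ∀ r ∈ Q, ∀ e ∈ A, π (r * e * r⁻¹) = π e := fun r j e k => by rw [cj' r (l.le j) e k, pQ r j]; group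
    obtain ⟨m, m1, m2, m3, m4⟩ := K1 e k e' o (fun t => a2 ((pB _ a1).2 ((p r j e k).trans t)))
      fun t => b2 ((pB _ b1).2 ((p r' j' e' o).trans t))
    refine ⟨r' * m * r⁻¹, mul_mem (mul_mem (QN r' j') m1) (inv_mem (QN r j)),
      fz _ (mul_mem (mul_mem (l.le j') m2) (inv_mem (l.le j))), ?_⟩
    rw [show r' * m * r⁻¹ * (r * e * r⁻¹) * (r' * m * r⁻¹)⁻¹ = r' * (m * e * m⁻¹) * r'⁻¹ by group]
    rcases two _ (nA m m1 e k) (mul_mem (mul_mem m3 k') (inv_mem m3)) e' o o' m4 with t | t <;> rw [t]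
    · exact Or.inl rfl
    · exact Or.inr (by rw [← conj_mul, fz r' (l.le j')])
  · rintro a ⟨a1, a2, a3⟩ b ⟨b1, b2, b3⟩
    have nb : π b ≠ 1 := fun t => b2 ((pB _ b1).2 t)
    have y := x.AY b b1
    obtain ⟨r0, j0, e0⟩ := Z b b1 nb b3
    have fin : ∀ m ∈ N_(A), m ∈ C_[z] → π (m * a * m⁻¹) = π b → ν (c (π b) * (m * a * m⁻¹)) + ν (c (π b) * b) ∈ W (π b) →
        ∃ m ∈ N_(A), m * z * m⁻¹ = z ∧ m * a * m⁻¹ = b := fun m i j e o => by
      obtain ⟨r, k, t | t⟩ := R _ (nA m i a a1) b b1 e (e ▸ o)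
      · exact ⟨r * m, mul_mem (QN r k) i, fz _ (mul_mem (l.le k) j), by rw [← t]; group⟩
      · exact ⟨r0 * r * m, mul_mem (mul_mem (QN r0 j0) (QN r k)) i, fz _ (mul_mem (mul_mem (l.le j0) (l.le k)) j),
          by rw [← e0, ← t]; group⟩
    obtain ⟨m, m1, m2, m3, m4⟩ := K1 a a1 b b1 (fun t => a2 ((pB _ a1).2 t)) nb
    have u1 := nA m m1 a a1
    have np : ν (c (π b) * (m * a * m⁻¹)) ∉ W (π b) := fun t => a3 (by
      simpa [mul_assoc] using PI m⁻¹ (inv_mem m1) (inv_mem m2) (inv_mem m3) _ ((EQ _ u1).2 (m4 ▸ t)))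
    have ub : ν (c (π b) * (m * a * m⁻¹)) ∈ B := m4 ▸ (cb _ u1).2
    obtain ⟨d1, d2⟩ := D1 _ u1
    obtain ⟨d3, d4⟩ := D1 _ (nA δ δN _ u1)
    rw [d1] at d3 d4
    rw [d2] at d4
    rw [m4] at d1 d2 d3 d4
    by_contra n
    have n0 := fun t => n (fin m m1 m2 m4 t)
    have n1 := fun t => n (fin (δ * m) (mul_mem δN m1) (mul_mem x.δz m2) (by rw [← d1]; congr 1; group) t)
    have n2 := fun t => n (fin (δ * (δ * m)) (mul_mem δN (mul_mem δN m1)) (mul_mem x.δz (mul_mem x.δz m2))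
      (by rw [← d3]; congr 1; group) t)
    rw [show δ * m * a * (δ * m)⁻¹ = δ * (m * a * m⁻¹) * δ⁻¹ by group, d2] at n1
    rw [show δ * (δ * m) * a * (δ * (δ * m))⁻¹ = δ * (δ * (m * a * m⁻¹) * δ⁻¹) * δ⁻¹ by group, d4] at n2
    have nb' := (EQ b b1).not.1 b3
    have bb := (cb b b1).2
    generalize ν (c (π b) * (m * a * m⁻¹)) = v at np ub n0 n1 n2
    generalize ν (c (π b) * b) = w at nb' bb n0 n1 n2
    have w2 := H26.JE.ω2 s
    have o2 : T d (T d v) ∉ W (π b) := fun t => np (by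
      have := Wω _ y _ t
      rwa [show T d (T d (T d v)) = v by rw [w2 (T d v), w2 v]; exact lc0] at this)
    have o1 : T d v ∉ W (π b) := fun t => o2 (Wω _ y _ t)
    have c4 : Nat.card (B ⧸ (W (π b)).addSubgroupOf B) = 4 := by
      have := ((W (π b)).addSubgroupOf B).card_mul_index
      rw [Nat.card_congr (AddSubgroup.addSubgroupOfEquivOfLe (WB _ y)).toEquiv, cW _ y nb, x.pj.cB,
        AddSubgroup.index_eq_card] at this
      omega
    have ne : ∀ (p p' : B) (t : V), t ∉ W (π b) → -p.1 + p'.1 = t →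
        (p : B ⧸ (W (π b)).addSubgroupOf B) ≠ p' := fun p p' t i e o => i (by
      have := QuotientAddGroup.eq.1 o
      rw [← e]; exact this)
    exact five c4 (a := (0 : B)) (b := (⟨v, ub⟩ : B)) (c := (⟨T d v, x.pj.Bω _ ub⟩ : B))
      (d := (⟨T d (T d v), x.pj.Bω _ (x.pj.Bω _ ub)⟩ : B)) (e := (⟨w, bb⟩ : B))
      (ne _ _ _ np (by simp)) (ne _ _ _ o1 (by simp)) (ne _ _ _ o2 (by simp)) (ne _ _ _ nb' (by simp))
      (ne _ _ _ o2 (by rw [w2]; exact lc0)) (ne _ _ _ o1 (by simp only [w2]; exact lc0)) (ne _ _ _ n0 lc0)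
      (ne _ _ _ np (by simp only [w2]; exact lc0)) (ne _ _ _ n1 lc0) (ne _ _ _ n2 lc0)

end H28.KC
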