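import Mathlib

/-!
# Linear algebra and permutation kit for small representations of alternating groups (namespace `H28.Al`)
-/

set_option autoImplicit false

open Module Equiv Equiv.Perm

namespace H28.Al

section LA
variable {k V : Type*} [Field k] [AddCommGroup V] [Module k V]

/-- joint eigenspace -/
def J {ι : Type*} (T : ι → End k V) (χ : ι → k) : Submodule k V where
  carrier := {v | ∀ i, T i v = χ i • v}
  add_mem' := fun {a b} ha hb i => by rw [map_add, ha i, hb i, smul_add]
  zero_mem' := fun i => by simp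
  smul_mem' := fun c v hv i => by rw [map_smul, hv i, smul_comm]

theorem mem_J {ι : Type*} {T : ι → End k V} {χ : ι → k} {v : V} : v ∈ J T χ ↔ ∀ i, T i v = χ i • v := Iff.rfl

theorem J_indep {ι X : Type*} (T : ι → End k V) (χ : X → ι → k) (hχ : Function.Injective χ) (s : Finset X) :
    ∀ v : X → V, (∀ x ∈ s, v x ∈ J T (χ x)) → ∑ x ∈ s, v x = 0 → ∀ x ∈ s, v x = 0 := by
  classical
  induction s using Finset.induction_on with
  | empty => intro v _ _ x hx; simp at hx
  | insert a s ha ih =>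
    intro v hv h
    rw [Finset.sum_insert ha] at h
    have h1 : ∀ x ∈ s, v x = 0 := by
      intro x hx
      have hne : χ x ≠ χ a := fun e => ha (hχ e ▸ hx)
      obtain ⟨i, hi⟩ := Function.ne_iff.1 hne
      have h2 := ih (fun y => (χ y i - χ a i) • v y)
        (fun y hy => Submodule.smul_mem _ _ (hv y (Finset.mem_insert_of_mem hy))) (by
          have h3 := congrArg (T i) h
          rw [map_add, map_sum, map_zero, hv a (Finset.mem_insert_self _ _) i,
            Finset.sum_congr rfl fun y hy => hv y (Finset.mem_insert_of_mem hy) i] at h3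
          have h4 := congrArg (χ a i • ·) h
          simp only [smul_add, smul_zero, Finset.smul_sum] at h4
          simp only [sub_smul, Finset.sum_sub_distrib]
          rw [sub_eq_zero]
          exact add_left_cancel (h3.trans h4.symm)) x hx
      exact (smul_eq_zero.1 h2).resolve_left (sub_ne_zero.2 hi)
    rw [Finset.sum_eq_zero h1, add_zero] at h
    intro x hx
    rcases Finset.mem_insert.1 hx with rfl | hx
    · exact h
    · exact h1 x hx

theorem J_sum [FiniteDimensional k V] {ι X : Type*} [Fintype X] (T : ι → End k V) (χ : X → ι → k)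
    (hχ : Function.Injective χ) (W : X → Submodule k V) (hW : ∀ x, W x ≤ J T (χ x)) (U : Submodule k V)
    (hU : ∀ x, W x ≤ U) : ∑ x, finrank k (W x) ≤ finrank k U := by
  classical
  let f : (∀ x, W x) →ₗ[k] U :=
    { toFun := fun w => ⟨∑ x, (w x : V), U.sum_mem fun x _ => hU x (w x).2⟩
      map_add' := fun a b => Subtype.ext (by simp [Finset.sum_add_distrib])
      map_smul' := fun c a => Subtype.ext (by simp [Finset.smul_sum]) }
  have hf : Function.Injective f := by
    rw [injective_iff_map_eq_zero]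
    intro w hw
    funext x
    exact Subtype.ext (J_indep T χ hχ Finset.univ (fun x => (w x : V)) (fun x _ => hW x (w x).2)
      (congrArg Subtype.val hw) x (Finset.mem_univ _))
  have := LinearMap.finrank_le_finrank_of_injective hf
  rwa [Module.finrank_pi_fintype] at this

theorem J_sum' [FiniteDimensional k V] {ι X : Type*} [Fintype X] (T : ι → End k V) (χ : X → ι → k)
    (hχ : Function.Injective χ) : ∑ x, finrank k (J T (χ x)) ≤ finrank k V := by
  have := J_sum T χ hχ (fun x => J T (χ x)) (fun _ => le_rfl) ⊤ (fun _ => le_top)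
  rwa [finrank_top] at this

theorem J_card [FiniteDimensional k V] {ι X : Type*} [Fintype X] (T : ι → End k V) (χ : X → ι → k)
    (hχ : Function.Injective χ) (U : Submodule k V) (h : ∀ x, ∃ v ∈ U, v ≠ 0 ∧ v ∈ J T (χ x)) :
    Fintype.card X ≤ finrank k U := by
  refine le_trans ?_ (J_sum T χ hχ (fun x => J T (χ x) ⊓ U) (fun _ => inf_le_left) U (fun _ => inf_le_right))
  rw [← Finset.card_univ, Finset.card_eq_sum_ones]
  refine Finset.sum_le_sum fun x _ => ?_
  obtain ⟨v, h1, h2, h3⟩ := h x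
  exact Submodule.one_le_finrank_iff.2 ((Submodule.ne_bot_iff _).2 ⟨v, ⟨h3, h1⟩, h2⟩)

/-- eigenspace as a joint eigenspace of one operator -/
abbrev Eg (f : End k V) (l : k) : Submodule k V := J (fun _ : Unit => f) (fun _ => l)

theorem mem_Eg {f : End k V} {l : k} {v : V} : v ∈ Eg f l ↔ f v = l • v :=
  ⟨fun h => h (), fun h _ => h⟩

theorem Eg_sum [FiniteDimensional k V] {X : Type*} [Fintype X] (f : End k V) (l : X → k)
    (hl : Function.Injective l) : ∑ x, finrank k (Eg f (l x)) ≤ finrank k V :=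
  J_sum' (fun _ : Unit => f) (fun x _ => l x) fun _ _ h => hl (congrFun h ())

theorem rk_le [FiniteDimensional k V] {f g : End k V} (hf : g * f = 1) {W W' : Submodule k V}
    (h : ∀ w ∈ W, f w ∈ W') : finrank k W ≤ finrank k W' := by
  refine LinearMap.finrank_le_finrank_of_injective (f := f.restrict h) fun a b hab => Subtype.ext ?_
  have h1 : f a = f b := congrArg Subtype.val hab
  have h2 : ∀ u, g (f u) = u := fun u => by rw [← Module.End.mul_apply, hf]; rfl
  rw [← h2 a, h1, h2]

theorem exists_eig [IsAlgClosed k] [FiniteDimensional k V] (f : End k V) (W : Submodule k V) (hW : W ≠ ⊥)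
    (h : ∀ w ∈ W, f w ∈ W) : ∃ l : k, ∃ w ∈ W, w ≠ 0 ∧ f w = l • w := by
  have : Nontrivial W := Submodule.nontrivial_iff_ne_bot.2 hW
  obtain ⟨l, hl⟩ := Module.End.exists_eigenvalue (f.restrict h)
  obtain ⟨w, hw⟩ := hl.exists_hasEigenvector
  exact ⟨l, w, w.2, fun e => hw.2 (Subtype.ext e), congrArg Subtype.val hw.apply_eq_smul⟩

theorem scal1 [FiniteDimensional k V] (f : End k V) (W : Submodule k V) (hW : finrank k W ≤ 1)
    (h : ∀ w ∈ W, f w ∈ W) : ∃ l : k, ∀ w ∈ W, f w = l • w := by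
  obtain ⟨v, hv⟩ := finrank_le_one_iff.1 hW
  obtain ⟨l, hl⟩ := hv ⟨f v, h v v.2⟩
  refine ⟨l, fun w hw => ?_⟩
  obtain ⟨c, hc⟩ := hv ⟨w, hw⟩
  have h1 : c • (v : V) = w := congrArg Subtype.val hc
  have h2 : l • (v : V) = f v := congrArg Subtype.val hl
  rw [← h1, map_smul, ← h2, smul_comm]

theorem pos_rk [FiniteDimensional k V] {W : Submodule k V} {v : V} (h : v ∈ W) (h0 : v ≠ 0) : 1 ≤ finrank k W :=
  Submodule.one_le_finrank_iff.2 ((Submodule.ne_bot_iff _).2 ⟨v, h, h0⟩)

end LA

section PK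
variable {α : Type*} [Fintype α] [DecidableEq α]

/-- extension of a permutation along an embedding -/
noncomputable def E {m : ℕ} (e : Fin m ↪ α) : Perm (Fin m) →* Perm α := viaEmbeddingHom e

omit [Fintype α] [DecidableEq α] in
theorem E_app {m : ℕ} (e : Fin m ↪ α) (σ : Perm (Fin m)) (i : Fin m) : E e σ (e i) = e (σ i) :=
  viaEmbedding_apply _ _ _

omit [Fintype α] [DecidableEq α] in
theorem E_out {m : ℕ} (e : Fin m ↪ α) (σ : Perm (Fin m)) {x : α} (h : x ∉ Set.range e) : E e σ x = x :=
  viaEmbedding_apply_of_notMem _ _ _ h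

theorem E_sign {m : ℕ} (e : Fin m ↪ α) (σ : Perm (Fin m)) : sign (E e σ) = sign σ := by
  classical
  unfold E
  rw [viaEmbeddingHom_apply, viaEmbedding]
  convert sign_extendDomain σ _

omit [Fintype α] [DecidableEq α] in
theorem E_inj {m : ℕ} (e : Fin m ↪ α) : Function.Injective (E e) := viaEmbeddingHom_injective e

omit [Fintype α] [DecidableEq α] in
theorem E_comm {m : ℕ} (e : Fin m ↪ α) (σ : Perm (Fin m)) {y : Perm α} (h : ∀ i, σ i ≠ i → y (e i) = e i) :
    y * E e σ = E e σ * y := by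
  apply Equiv.Perm.Disjoint.commute
  intro x
  by_cases hx : x ∈ Set.range e
  · obtain ⟨i, rfl⟩ := hx
    by_cases hi : σ i = i
    · right; rw [E_app, hi]
    · left; exact h i hi
  · right; exact E_out e σ hx

omit [Fintype α] [DecidableEq α] in
theorem E_eq {m l : ℕ} (e : Fin m ↪ α) (f : Fin l ↪ Fin m) (σ : Perm (Fin l)) (τ : Perm (Fin m))
    (h1 : ∀ i, τ (f i) = f (σ i)) (h2 : ∀ j, (∀ i, f i ≠ j) → τ j = j) : E (f.trans e) σ = E e τ := by
  ext x
  by_cases hx : x ∈ Set.range e
  · obtain ⟨j, rfl⟩ := hx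
    by_cases hj : ∃ i, f i = j
    · obtain ⟨i, rfl⟩ := hj
      have := E_app (f.trans e) σ i
      rw [E_app, h1]; exact this
    · push Not at hj
      rw [E_app, h2 j hj, E_out]
      rintro ⟨i, hi⟩
      exact hj i (e.injective hi)
  · rw [E_out e τ hx, E_out]
    rintro ⟨i, hi⟩
    exact hx ⟨f i, hi⟩

/-- even permutations fixing `A` pointwise -/
def Fx (A : Finset α) (y : Perm α) : Prop := sign y = 1 ∧ ∀ a ∈ A, y a = a

theorem Fx_E {m : ℕ} (e : Fin m ↪ α) (B : Finset (Fin m)) (σ : Perm (Fin m)) (h : sign σ = 1 ∧ ∀ i ∈ B, σ i = i) :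
    Fx (B.map e) (E e σ) := by
  refine ⟨by rw [E_sign, h.1], fun a ha => ?_⟩
  obtain ⟨i, hi, rfl⟩ := Finset.mem_map.1 ha
  rw [E_app, h.2 i hi]

theorem Fx.app {m : ℕ} {e : Fin m ↪ α} {B : Finset (Fin m)} {y : Perm α} (h : Fx (B.map e) y) {i : Fin m}
    (hi : i ∈ B) : y (e i) = e i := h.2 _ (Finset.mem_map_of_mem e hi)

theorem Fx.comm {m : ℕ} {e : Fin m ↪ α} {B : Finset (Fin m)} {y : Perm α} (h : Fx (B.map e) y) (σ : Perm (Fin m))
    (hσ : ∀ i, σ i ≠ i → i ∈ B) : y * E e σ = E e σ * y := E_comm e σ fun i hi => h.app (hσ i hi)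

theorem Fx.mono {A B : Finset α} {y : Perm α} (h : Fx A y) (hB : B ⊆ A) : Fx B y := ⟨h.1, fun a ha => h.2 a (hB ha)⟩

/-- extension from the complement of `A` -/
def Sb (A : Finset α) : Perm {x // x ∉ A} →* Perm α := ofSubtype (p := fun x => x ∉ A)

theorem Sb_sign (A : Finset α) (σ : Perm {x // x ∉ A}) : sign (Sb A σ) = sign σ := sign_ofSubtype σ

theorem Fx_Sb (A : Finset α) (σ : Perm {x // x ∉ A}) (h : sign σ = 1) : Fx A (Sb A σ) :=
  ⟨by rw [Sb_sign, h], fun a ha => ofSubtype_apply_of_not_mem (p := fun x => x ∉ A) _ (by simpa using ha)⟩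

omit [Fintype α] in
theorem Sb_swap (A : Finset α) (a b : {x // x ∉ A}) : Sb A (swap a b) = swap a.1 b.1 :=
  ofSubtype_swap_eq (p := fun x => x ∉ A) a b

theorem Fx.exists_sub {A : Finset α} {y : Perm α} (h : Fx A y) :
    ∃ σ : Perm {x // x ∉ A}, sign σ = 1 ∧ Sb A σ = y := by
  have h1 : ∀ x, y x ∉ A ↔ x ∉ A := fun x => not_congr ⟨fun hx => by
    have := y.injective (h.2 _ hx); rwa [← this], fun hx => by rwa [h.2 x hx]⟩
  have h2 : Sb A (y.subtypePerm h1) = y :=
    ofSubtype_subtypePerm (p := fun x => x ∉ A) h1 fun x hx hA => hx (h.2 x hA)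
  exact ⟨y.subtypePerm h1, by rw [← Sb_sign, h2, h.1], h2⟩

theorem card_sub (A : Finset α) : Fintype.card {x // x ∉ A} = Fintype.card α - A.card := by
  rw [Fintype.card_subtype_compl]; simp

/-- multiple transitivity of the alternating group on embeddings -/
theorem trans_emb {m : ℕ} (hm : m + 2 ≤ Fintype.card α) (e e' : Fin m ↪ α) :
    ∃ g : Perm α, sign g = 1 ∧ ∀ i, g (e i) = e' i := by
  obtain ⟨g, hg⟩ := Equiv.Perm.exists_extending_pair e e' e.injective e'.injective
  rcases Int.units_eq_one_or (sign g) with h | h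
  · exact ⟨g, h, hg⟩
  · have h1 : 1 < (Finset.univ.map e')ᶜ.card := by rw [Finset.card_compl]; simp; omega
    obtain ⟨a, ha, b, hb, hab⟩ := Finset.one_lt_card.1 h1
    refine ⟨swap a b * g, by rw [map_mul, sign_swap hab, h]; rfl, fun i => ?_⟩
    rw [mul_apply, hg, swap_apply_of_ne_of_ne]
    · rintro rfl; simp at ha
    · rintro rfl; simp at hb

omit [DecidableEq α] in
theorem exists_emb {m : ℕ} (h : m ≤ Fintype.card α) : Nonempty (Fin m ↪ α) :=
  Function.Embedding.nonempty_of_card_le (by simpa using h)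

end PK

end H28.Al
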