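import Cfsg.Agent.H28.Al1

/-!
# Linear representations of alternating groups: restriction, generation, the final dimension count
-/

set_option autoImplicit false

open Module Equiv Equiv.Perm

namespace H28.Al

universe u

/-- the cycle `a ↦ b ↦ c ↦ a` -/
def c3 {α : Type*} [DecidableEq α] (a b c : α) : Perm α := swap a c * swap a b

/-- a product of two transpositions -/
def dt {α : Type*} [DecidableEq α] (a b c d : α) : Perm α := swap a b * swap c d

/-- a linear representation of the even permutations -/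
structure LR {k V α : Type*} [Field k] [AddCommGroup V] [Module k V] [Fintype α] [DecidableEq α]
    (T : Perm α → End k V) : Prop where
  one : T 1 = 1
  mul : ∀ σ τ, sign σ = 1 → sign τ = 1 → T (σ * τ) = T σ * T τ

/-- lower bound `d` for nontrivial representations of the alternating group of degree `m` -/
def Lb (k : Type u) [Field k] (m d : ℕ) : Prop :=
  ∀ (β : Type) [Fintype β] [DecidableEq β] (V : Type u) [AddCommGroup V] [Module k V] [FiniteDimensional k V]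
    (T : Perm β → End k V), Fintype.card β = m → LR T → (∃ σ, sign σ = 1 ∧ T σ ≠ 1) → d ≤ finrank k V

theorem Lb.mono {k : Type u} [Field k] {m d d' : ℕ} (h : Lb k m d) (hd : d' ≤ d) : Lb k m d' :=
  fun β _ _ V _ _ _ T h1 h2 h3 => hd.trans (h β V T h1 h2 h3)

variable {k V : Type u} {α : Type} [Field k] [AddCommGroup V] [Module k V] [Fintype α] [DecidableEq α]
  {T : Perm α → End k V}

theorem LR.app (h : LR T) {σ τ : Perm α} (hσ : sign σ = 1) (hτ : sign τ = 1) (v : V) : T σ (T τ v) = T (σ * τ) v := by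
  rw [h.mul σ τ hσ hτ]; rfl

theorem LR.ee (h : LR T) {m : ℕ} (e : Fin m ↪ α) (σ τ ρ : Perm (Fin m)) (hs : sign σ = 1 ∧ sign τ = 1 ∧ σ * τ = ρ)
    (v : V) : T (E e σ) (T (E e τ) v) = T (E e ρ) v := by
  rw [h.app (by rw [E_sign, hs.1]) (by rw [E_sign, hs.2.1]), ← map_mul, hs.2.2]

theorem LR.e1 (h : LR T) {m : ℕ} (e : Fin m ↪ α) (σ τ : Perm (Fin m)) (hs : sign σ = 1 ∧ sign τ = 1 ∧ σ * τ = 1)
    (v : V) : T (E e σ) (T (E e τ) v) = v := by
  rw [h.ee e σ τ 1 hs, map_one, h.one]; rfl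

theorem LR.e4 (h : LR T) {m : ℕ} (e : Fin m ↪ α) (σ τ ρ π : Perm (Fin m))
    (hs : sign σ = 1 ∧ sign τ = 1 ∧ sign ρ = 1 ∧ sign π = 1 ∧ σ * τ = ρ * π)
    (v : V) : T (E e σ) (T (E e τ) v) = T (E e ρ) (T (E e π) v) := by
  rw [h.ee e σ τ _ ⟨hs.1, hs.2.1, rfl⟩, h.ee e ρ π _ ⟨hs.2.2.1, hs.2.2.2.1, rfl⟩, hs.2.2.2.2]

theorem LR.linv (h : LR T) {σ : Perm α} (hσ : sign σ = 1) : T σ⁻¹ * T σ = 1 := by
  rw [← h.mul _ _ (by rw [sign_inv, hσ]) hσ, inv_mul_cancel, h.one]

theorem LR.ne0 (h : LR T) {σ : Perm α} (hσ : sign σ = 1) {v : V} (hv : v ≠ 0) : T σ v ≠ 0 := fun h0 => hv (by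
  have : (T σ⁻¹ * T σ) v = v := by rw [h.linv hσ]; rfl
  rw [← this, Module.End.mul_apply, h0, map_zero])

theorem LR.fx (h : LR T) {m : ℕ} {e : Fin m ↪ α} {B : Finset (Fin m)} {y : Perm α} (hy : Fx (B.map e) y)
    (σ : Perm (Fin m)) (hσ : sign σ = 1 ∧ ∀ i, σ i ≠ i → i ∈ B) (v : V) :
    T y (T (E e σ) v) = T (E e σ) (T y v) := by
  rw [h.app hy.1 (by rw [E_sign, hσ.1]), h.app (by rw [E_sign, hσ.1]) hy.1, hy.comm σ hσ.2]

theorem LR.nt (h : LR T) (h5 : 5 ≤ Fintype.card α) (hn : ∃ σ, sign σ = 1 ∧ T σ ≠ 1) {τ : Perm α} (hτ : sign τ = 1)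
    (h1 : τ ≠ 1) : T τ ≠ 1 := by
  let f : alternatingGroup α →* End k V :=
    { toFun := fun σ => T σ
      map_one' := h.one
      map_mul' := fun a b => h.mul _ _ a.2 b.2 }
  intro h0
  rcases alternatingGroup.normal_subgroup_eq_bot_or_eq_top (α := α) (by simpa using h5) (N := f.ker) with h2 | h2
  · have : (⟨τ, hτ⟩ : alternatingGroup α) ∈ f.ker := h0
    rw [h2] at this
    exact h1 (congrArg Subtype.val this)
  · obtain ⟨σ, hσ, h3⟩ := hn
    have : (⟨σ, hσ⟩ : alternatingGroup α) ∈ f.ker := by rw [h2]; trivial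
    exact h3 this

theorem LR.ntE (h : LR T) (h5 : 5 ≤ Fintype.card α) (hn : ∃ σ, sign σ = 1 ∧ T σ ≠ 1) {m : ℕ} (e : Fin m ↪ α)
    (τ : Perm (Fin m)) (hτ : sign τ = 1 ∧ τ ≠ 1) : ∃ v, T (E e τ) v ≠ v := by
  have := h.nt h5 hn (τ := E e τ) (by rw [E_sign, hτ.1]) (fun h1 => hτ.2 (E_inj e (by rw [h1, map_one])))
  by_contra h2
  push Not at h2
  exact this (LinearMap.ext h2)

theorem LR.dich [FiniteDimensional k V] (h : LR T) (A : Finset α) {d : ℕ} (hL : Lb k (Fintype.card α - A.card) d)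
    (W : Submodule k V) (hW : ∀ y, Fx A y → ∀ w ∈ W, T y w ∈ W) (hd : finrank k W < d) :
    ∀ y, Fx A y → ∀ w ∈ W, T y w = w := by
  classical
  let T' : Perm {x // x ∉ A} → End k W := fun σ =>
    if hσ : sign σ = 1 then (T (Sb A σ)).restrict (hW _ (Fx_Sb A σ hσ)) else 1
  have hT : ∀ σ, sign σ = 1 → ∀ w : W, (T' σ w : V) = T (Sb A σ) w := fun σ hσ w => by
    simp only [T', dif_pos hσ]; rfl
  by_contra hc
  push Not at hc
  obtain ⟨y, hy, w, hw, hne⟩ := hc
  obtain ⟨σ, hσ, rfl⟩ := hy.exists_sub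
  refine absurd (hL _ W T' (card_sub A) ⟨?_, fun a b ha hb => ?_⟩ ⟨σ, hσ, fun h1 => hne ?_⟩) (by omega)
  · ext w; rw [hT 1 (map_one _), map_one, h.one]; rfl
  · ext w
    rw [hT _ (by rw [map_mul, ha, hb]; rfl), Module.End.mul_apply, hT a ha, hT b hb, map_mul,
      h.app (by rw [Sb_sign, ha]) (by rw [Sb_sign, hb])]
  · rw [← hT σ hσ ⟨w, hw⟩, h1]; rfl

theorem LR.gen (h : LR T) (A : Finset α) (hA : A.card + 4 ≤ Fintype.card α) (a : α) (v : V)
    (h1 : ∀ y, Fx (insert a A) y → T y v = v) (t : Perm α) (ht : Fx A t) (hta : t a ≠ a) (htv : T t v = v) :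
    ∀ y, Fx A y → T y v = v := by
  intro y hy
  by_cases hya : y a = a
  · exact h1 y ⟨hy.1, fun x hx => by rcases Finset.mem_insert.1 hx with rfl | hx; exacts [hya, hy.2 x hx]⟩
  have hm : ∀ z : Perm α, Fx A z → z a ≠ a → z a ∉ insert a A := fun z hz hza hx => by
    rcases Finset.mem_insert.1 hx with hx | hx
    · exact hza hx
    · have := z.injective (hz.2 _ hx); exact hza this
  obtain ⟨g, hg, hgb⟩ : ∃ g, Fx (insert a A) g ∧ g (t a) = y a := by
    by_cases hb : t a = y a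
    · exact ⟨1, ⟨map_one _, fun _ _ => rfl⟩, hb⟩
    have h2 : 0 < (insert (t a) (insert (y a) (insert a A)))ᶜ.card := by
      rw [Finset.card_compl]
      have := Finset.card_insert_le (t a) (insert (y a) (insert a A))
      have := Finset.card_insert_le (y a) (insert a A)
      have := Finset.card_insert_le a A
      omega
    obtain ⟨d, hd⟩ := Finset.card_pos.1 h2
    rw [Finset.mem_compl, Finset.mem_insert, Finset.mem_insert, not_or, not_or] at hd
    refine ⟨swap (t a) d * swap (t a) (y a), ⟨by rw [map_mul, sign_swap (Ne.symm hd.1), sign_swap hb]; rfl,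
      fun x hx => ?_⟩, ?_⟩
    · have h3 : x ≠ t a := fun e => hm t ht hta (e ▸ hx)
      have h4 : x ≠ y a := fun e => hm y hy hya (e ▸ hx)
      have h5 : x ≠ d := fun e => hd.2.2 (e ▸ hx)
      rw [mul_apply, swap_apply_of_ne_of_ne h3 h4, swap_apply_of_ne_of_ne h3 h5]
    · rw [mul_apply, swap_apply_left, swap_apply_of_ne_of_ne (Ne.symm hb) (Ne.symm hd.2.1)]
  have hs : sign (g * t) = 1 := by rw [map_mul, hg.1, ht.1]; rfl
  have h3 : Fx (insert a A) ((g * t)⁻¹ * y) := by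
    refine ⟨by rw [map_mul, sign_inv, hs, hy.1]; rfl, fun x hx => ?_⟩
    rw [mul_apply, inv_eq_iff_eq]
    rcases Finset.mem_insert.1 hx with rfl | hx
    · exact hgb.symm
    · rw [mul_apply, hy.2 x hx, ht.2 x hx, hg.2 x (Finset.mem_insert_of_mem hx)]
  have h4 := h.app hs h3.1 v
  rw [mul_inv_cancel_left, h1 _ h3, ← h.app hg.1 ht.1, htv, h1 g hg] at h4
  exact h4.symm

theorem LR.genE (h : LR T) (h9 : 9 ≤ Fintype.card α) (e : Fin 9 ↪ α) (B : Finset (Fin 9)) (a : Fin 9) (v : V)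
    (h1 : ∀ y, Fx ((insert a B).map e) y → T y v = v) (t : Perm (Fin 9))
    (ht : B.card ≤ 5 ∧ (sign t = 1 ∧ ∀ i ∈ B, t i = i) ∧ t a ≠ a) (htv : T (E e t) v = v) :
    ∀ y, Fx (B.map e) y → T y v = v :=
  h.gen (B.map e) (by rw [Finset.card_map]; omega) (e a) v (by rwa [← Finset.map_insert]) (E e t)
    (Fx_E e B t ht.2.1) (by rw [E_app]; exact fun h2 => ht.2.2 (e.injective h2)) htv

omit [Fintype α] [DecidableEq α] in
theorem inj3 {a b c : α} (h1 : a ≠ b) (h2 : a ≠ c) (h3 : b ≠ c) : Function.Injective ![a, b, c] := by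
  intro i j; fin_cases i <;> fin_cases j <;> simp_all [eq_comm]

theorem ex3 (h9 : 9 ≤ Fintype.card α) (e : Fin 9 ↪ α) {a b c : α} (h1 : a ≠ b) (h2 : a ≠ c) (h3 : b ≠ c) :
    ∃ g : Perm α, sign g = 1 ∧ g (e 0) = a ∧ g (e 1) = b ∧ g (e 2) = c := by
  obtain ⟨g, hg, h⟩ := trans_emb (m := 3) (by omega)
    ⟨![e 0, e 1, e 2], inj3 (e.injective.ne (by decide)) (e.injective.ne (by decide)) (e.injective.ne (by decide))⟩
    ⟨![a, b, c], inj3 h1 h2 h3⟩
  exact ⟨g, hg, h 0, h 1, h 2⟩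

theorem ex2 (h9 : 9 ≤ Fintype.card α) (e : Fin 9 ↪ α) {a b : α} (h1 : a ≠ b) :
    ∃ g : Perm α, sign g = 1 ∧ g (e 0) = a ∧ g (e 1) = b := by
  have h2 : 0 < ({a, b} : Finset α)ᶜ.card := by
    rw [Finset.card_compl]; have := Finset.card_le_two (a := a) (b := b); omega
  obtain ⟨c, hc⟩ := Finset.card_pos.1 h2
  simp only [Finset.mem_compl, Finset.mem_insert, Finset.mem_singleton, not_or] at hc
  obtain ⟨g, h3, h4, h5, -⟩ := ex3 h9 e h1 (Ne.symm hc.1) (Ne.symm hc.2)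
  exact ⟨g, h3, h4, h5⟩

theorem LR.fin [FiniteDimensional k V] (p : ℕ) [CharP k p] (h : LR T) (h9 : 9 ≤ Fintype.card α) (e : Fin 9 ↪ α)
    (v : V) (hv : v ≠ 0) (h1 : ∀ y, Fx (({0, 1} : Finset (Fin 9)).map e) y → T y v = v)
    (h2 : T (E e (dt 0 1 3 4)) v = -v) (h3 : v + T (E e (c3 0 1 2)) v + T (E e (c3 0 2 1)) v = 0) :
    Fintype.card α - 1 - (if p ∣ Fintype.card α then 1 else 0) ≤ finrank k V := by
  classical
  have hx : ∀ a b : α, ∃ g : Perm α, a ≠ b → sign g = 1 ∧ g (e 0) = a ∧ g (e 1) = b := fun a b => by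
    by_cases hab : a = b
    · exact ⟨1, fun h => absurd hab h⟩
    · obtain ⟨g, hg⟩ := ex2 h9 e hab; exact ⟨g, fun _ => hg⟩
  choose gg hgg using hx
  let vv : α → α → V := fun a b => if a = b then 0 else T (gg a b) v
  have v0 : ∀ a, vv a a = 0 := fun a => if_pos rfl
  have e01 : e 0 ≠ e 1 := e.injective.ne (by decide)
  have key : ∀ g : Perm α, sign g = 1 → T g v = vv (g (e 0)) (g (e 1)) := fun g hg => by
    have hne : g (e 0) ≠ g (e 1) := g.injective.ne e01
    obtain ⟨s1, s2, s3⟩ := hgg _ _ hne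
    simp only [vv, if_neg hne]
    have h4 : Fx (({0, 1} : Finset (Fin 9)).map e) ((gg (g (e 0)) (g (e 1)))⁻¹ * g) := by
      refine ⟨by rw [map_mul, sign_inv, s1, hg]; rfl, fun x hx => ?_⟩
      obtain ⟨i, hi, rfl⟩ := Finset.mem_map.1 hx
      rw [mul_apply, inv_eq_iff_eq]
      rcases Finset.mem_insert.1 hi with rfl | hi
      · exact s2.symm
      · rw [Finset.mem_singleton.1 hi]; exact s3.symm
    have h5 := h.app s1 h4.1 v
    rw [mul_inv_cancel_left, h1 _ h4] at h5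
    exact h5.symm
  have key' : ∀ a b, a ≠ b → ∃ g : Perm α, sign g = 1 ∧ g (e 0) = a ∧ g (e 1) = b ∧ vv a b = T g v := fun a b hab => by
    obtain ⟨s1, s2, s3⟩ := hgg _ _ hab
    exact ⟨_, s1, s2, s3, if_neg hab⟩
  have eqv : ∀ σ : Perm α, sign σ = 1 → ∀ a b, T σ (vv a b) = vv (σ a) (σ b) := fun σ hσ a b => by
    by_cases hab : a = b
    · rw [hab, v0, v0, map_zero]
    · obtain ⟨g, s1, s2, s3, s4⟩ := key' a b hab
      rw [s4, h.app hσ s1, key _ (by rw [map_mul, hσ, s1]; rfl), mul_apply, mul_apply, s2, s3]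
  have v01 : v = vv (e 0) (e 1) := by have := key 1 (map_one _); rwa [h.one] at this
  have anti : ∀ a b, vv b a = -vv a b := fun a b => by
    by_cases hab : a = b
    · rw [hab, v0, neg_zero]
    · obtain ⟨g, s1, s2, s3⟩ := ex2 h9 e hab
      have h4 := congrArg (T g) h2
      rw [map_neg, v01, eqv _ (by rw [E_sign]; decide), eqv g s1, eqv g s1, E_app, E_app] at h4
      have h5 : dt (0 : Fin 9) 1 3 4 0 = 1 ∧ dt (0 : Fin 9) 1 3 4 1 = 0 := by decide
      rwa [h5.1, h5.2, s2, s3] at h4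
  have coc : ∀ a b c, a ≠ b → a ≠ c → b ≠ c → vv a b + vv b c + vv c a = 0 := fun a b c q1 q2 q3 => by
    obtain ⟨g, s1, s2, s3, s4⟩ := ex3 h9 e q1 q2 q3
    have h4 := congrArg (T g) h3
    rw [map_zero, map_add, map_add, v01, eqv (E e (c3 0 1 2)) (by rw [E_sign]; decide),
      eqv (E e (c3 0 2 1)) (by rw [E_sign]; decide), eqv g s1, eqv g s1, eqv g s1, E_app, E_app, E_app, E_app] at h4
    have h5 : c3 (0 : Fin 9) 1 2 0 = 1 ∧ c3 (0 : Fin 9) 1 2 1 = 2 ∧ c3 (0 : Fin 9) 2 1 0 = 2 ∧ c3 (0 : Fin 9) 2 1 1 = 0 := by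
      decide
    rwa [h5.1, h5.2.1, h5.2.2.1, h5.2.2.2, s2, s3, s4] at h4
  have dif : ∀ a b, vv (e 0) b = vv a b + vv (e 0) a := fun a b => by
    by_cases q1 : a = b
    · rw [q1, v0, zero_add]
    by_cases q2 : e 0 = a
    · rw [← q2, v0, add_zero]
    by_cases q3 : e 0 = b
    · rw [← q3, v0, anti (e 0) a, neg_add_cancel]
    have := coc (e 0) a b q2 q3 q1
    rw [anti (e 0) b, add_neg_eq_zero] at this
    rw [← this, add_comm]
  let ψ : (α → k) →ₗ[k] V × k :=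
    { toFun := fun b => (∑ j, b j • vv (e 0) j, ∑ j, b j)
      map_add' := fun a b => by simp [add_smul, Finset.sum_add_distrib]
      map_smul' := fun c a => by simp [Finset.smul_sum, Finset.mul_sum, mul_smul] }
  have hψ : ∀ b, b ∈ LinearMap.ker ψ ↔ ∑ j, b j • vv (e 0) j = 0 ∧ ∑ j, b j = 0 := fun b => by
    rw [LinearMap.mem_ker, Prod.ext_iff]; rfl
  have inv : ∀ b ∈ LinearMap.ker ψ, ∀ σ : Perm α, sign σ = 1 → (fun j => b (σ j)) ∈ LinearMap.ker ψ := by
    intro b hb σ hσ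
    rw [hψ] at hb ⊢
    refine ⟨?_, by rw [Equiv.sum_comp σ b, hb.2]⟩
    have h4 := congrArg (T σ⁻¹) hb.1
    rw [map_sum, (T σ⁻¹).map_zero] at h4
    rw [← Equiv.sum_comp σ⁻¹]
    simp only [coe_inv, Equiv.apply_symm_apply]
    simp only [← coe_inv]
    rw [Finset.sum_congr rfl fun j _ => by rw [dif (σ⁻¹ (e 0)) (σ⁻¹ j), smul_add, ← eqv σ⁻¹ (by rw [sign_inv, hσ]),
      ← map_smul], Finset.sum_add_distrib, h4, ← Finset.sum_smul, hb.2, zero_smul, add_zero]
  have const : ∀ b ∈ LinearMap.ker ψ, ∀ i j, b i = b j := by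
    intro b hb i j
    by_contra hij
    obtain ⟨g, s1, s2, s3⟩ := ex2 h9 e (a := i) (b := j) (fun q => hij (by rw [q]))
    have b1 := inv b hb g s1
    have b2 := Submodule.sub_mem _ b1 (inv _ b1 (E e (c3 0 1 2)) (by rw [E_sign]; decide))
    have b3 := Submodule.sub_mem _ b2 (inv _ b2 (E e (c3 0 3 4)) (by rw [E_sign]; decide))
    have q1 : ∀ t : Fin 9, c3 0 1 2 t = ![1, 2, 0, 3, 4, 5, 6, 7, 8] t := by decide
    have q2 : ∀ t : Fin 9, c3 0 3 4 t = ![3, 1, 2, 4, 0, 5, 6, 7, 8] t := by decide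
    have b4 : (b i - b j) • (Pi.single (e 0) 1 - Pi.single (e 4) 1 : α → k) ∈ LinearMap.ker ψ := by
      convert b3 using 1
      funext x
      by_cases hx : x ∈ Set.range e
      · obtain ⟨t, rfl⟩ := hx
        simp only [Pi.smul_apply, Pi.sub_apply, E_app, q1, q2, Pi.single_apply, e.injective.eq_iff]
        fin_cases t <;> simp [s2, s3]
      · have q3 : x ≠ e 0 := fun q => hx ⟨0, q.symm⟩
        have q4 : x ≠ e 4 := fun q => hx ⟨4, q.symm⟩
        simp [E_out e _ hx, q3, q4]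
    have b5 := ((hψ _).1 (((LinearMap.ker ψ).smul_mem_iff (sub_ne_zero.2 hij)).1 b4)).1
    simp only [Pi.sub_apply, sub_smul, Finset.sum_sub_distrib, Pi.single_apply, ite_smul, one_smul, zero_smul,
      Finset.sum_ite_eq', Finset.mem_univ, if_true, v0, zero_sub, neg_eq_zero] at b5
    obtain ⟨g', t1, -, -, t4⟩ := key' (e 0) (e 4) (e.injective.ne (by decide))
    exact h.ne0 t1 hv (t4 ▸ b5)
  have r1 := LinearMap.finrank_range_add_finrank_ker ψ
  have r2 := (LinearMap.range ψ).finrank_le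
  rw [Module.finrank_prod, Module.finrank_self] at r2
  rw [Module.finrank_fintype_fun_eq_card] at r1
  split_ifs with hp
  · have : finrank k (LinearMap.ker ψ) ≤ 1 := by
      refine le_trans (Submodule.finrank_mono (t := Submodule.span k {(fun _ => 1 : α → k)}) fun b hb => ?_)
        (by simpa using finrank_span_le_card (R := k) ({(fun _ => 1 : α → k)} : Set (α → k)))
      exact Submodule.mem_span_singleton.2 ⟨b (e 0), funext fun j => by simp [const b hb j (e 0)]⟩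
    omega
  · have : LinearMap.ker ψ = ⊥ := by
      rw [eq_bot_iff]
      intro b hb
      have q := ((hψ b).1 hb).2
      rw [Finset.sum_congr rfl fun j _ => const b hb j (e 0), Finset.sum_const, Finset.card_univ, nsmul_eq_mul,
        mul_eq_zero, CharP.cast_eq_zero_iff k p] at q
      exact funext fun j => (const b hb j (e 0)).trans (q.resolve_left hp)
    rw [this, finrank_bot] at r1
    omega

end H28.Al
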