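import Cfsg.Agent.H28.Al2

/-!
# Linear representations of alternating groups in odd characteristic
-/

set_option autoImplicit false

open Module Equiv Equiv.Perm

namespace H28.Al

universe u

variable {k V : Type u} {α : Type} [Field k] [AddCommGroup V] [Module k V] [Fintype α] [DecidableEq α]
  {T : Perm α → End k V}

/-- weight spaces of a four-group -/
noncomputable def W4 (T : Perm α → End k V) (e : Fin 4 ↪ α) (s t : k) : Submodule k V :=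
  J ![T (E e (dt 0 1 2 3)), T (E e (dt 0 2 1 3))] ![s, t]

omit [Fintype α] [DecidableEq α] in
theorem mem_W4 {e : Fin 4 ↪ α} {s t : k} {v : V} :
    v ∈ W4 T e s t ↔ T (E e (dt 0 1 2 3)) v = s • v ∧ T (E e (dt 0 2 1 3)) v = t • v := by
  rw [W4, mem_J, Fin.forall_fin_two]; rfl

theorem LR.rot (h : LR T) (e : Fin 4 ↪ α) {s t : k} {v : V} (hv : v ∈ W4 T e s t) :
    T (E e (c3 1 2 3)) v ∈ W4 T e (s * t) s := by
  rw [mem_W4] at hv ⊢
  constructor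
  · rw [h.e4 e _ _ (c3 1 2 3) (dt 0 3 1 2) (by decide), ← h.ee e (dt 0 1 2 3) (dt 0 2 1 3) (dt 0 3 1 2) (by decide),
      hv.2, map_smul, hv.1, smul_smul, map_smul, mul_comm]
  · rw [h.e4 e _ _ (c3 1 2 3) (dt 0 1 2 3) (by decide), hv.1, map_smul]

theorem LR.dec (h2 : (2 : k) ≠ 0) (h : LR T) (e : Fin 4 ↪ α) {s : k} {w : V} (hw : T (E e (dt 0 1 2 3)) w = s • w) :
    ∃ a ∈ W4 T e s 1, ∃ b ∈ W4 T e s (-1), w = a + b := by
  have hc := h.e4 e (dt 0 1 2 3) (dt 0 2 1 3) (dt 0 2 1 3) (dt 0 1 2 3) (by decide) w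
  have h1 := h.e1 e (dt 0 2 1 3) (dt 0 2 1 3) (by decide) w
  rw [hw, map_smul] at hc
  refine ⟨(2 : k)⁻¹ • (w + T (E e (dt 0 2 1 3)) w), Submodule.smul_mem _ _ (mem_W4.2 ⟨?_, ?_⟩),
    (2 : k)⁻¹ • (w - T (E e (dt 0 2 1 3)) w), Submodule.smul_mem _ _ (mem_W4.2 ⟨?_, ?_⟩), ?_⟩
  · rw [map_add, hw, hc, smul_add]
  · rw [map_add, h1, one_smul, add_comm]
  · rw [map_sub, hw, hc, smul_sub]
  · rw [map_sub, h1, neg_one_smul, neg_sub]
  · rw [← smul_add, add_add_sub_cancel, ← two_smul k w, inv_smul_smul₀ h2]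

theorem LR.w4inv (h : LR T) (e : Fin 4 ↪ α) (s t : k) (y : Perm α) (hy : Fx (Finset.univ.map e) y) :
    ∀ w ∈ W4 T e s t, T y w ∈ W4 T e s t := fun w hw => by
  rw [mem_W4] at hw ⊢
  rw [← h.fx hy _ (by decide), ← h.fx hy _ (by decide), hw.1, hw.2, map_smul, map_smul]
  exact ⟨rfl, rfl⟩

theorem LR.v4 [FiniteDimensional k V] (h2 : (2 : k) ≠ 0) (h : LR T) (e : Fin 4 ↪ α) :
    finrank k (W4 T e (-1) 1) = finrank k (W4 T e 1 (-1)) ∧ finrank k (W4 T e (-1) (-1)) = finrank k (W4 T e 1 (-1)) ∧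
      finrank k (W4 T e 1 1) + 3 * finrank k (W4 T e 1 (-1)) ≤ finrank k V := by
  have hl := h.linv (σ := E e (c3 1 2 3)) (by rw [E_sign]; decide)
  have a1 : finrank k (W4 T e 1 (-1)) ≤ finrank k (W4 T e (-1) 1) := rk_le hl fun w hw => by simpa using h.rot e hw
  have a2 : finrank k (W4 T e (-1) 1) ≤ finrank k (W4 T e (-1) (-1)) := rk_le hl fun w hw => by simpa using h.rot e hw
  have a3 : finrank k (W4 T e (-1) (-1)) ≤ finrank k (W4 T e 1 (-1)) := rk_le hl fun w hw => by simpa using h.rot e hw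
  have n1 : (1 : k) ≠ -1 := fun q => h2 (by linear_combination q)
  have := J_sum' ![T (E e (dt 0 1 2 3)), T (E e (dt 0 2 1 3))]
    (![![1, 1], ![1, -1], ![-1, 1], ![-1, -1]] : Fin 4 → Fin 2 → k) (by
      intro i j hij
      have q0 := congrFun hij 0
      have q1 := congrFun hij 1
      fin_cases i <;> fin_cases j <;> simp_all [n1.symm])
  rw [Fin.sum_univ_four] at this
  change finrank k (W4 T e 1 1) + finrank k (W4 T e 1 (-1)) + finrank k (W4 T e (-1) 1) +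
    finrank k (W4 T e (-1) (-1)) ≤ _ at this
  omega

theorem LR.v4pos [FiniteDimensional k V] (h2 : (2 : k) ≠ 0) (h : LR T) (h5 : 5 ≤ Fintype.card α)
    (hn : ∃ σ, sign σ = 1 ∧ T σ ≠ 1) (e : Fin 4 ↪ α) : 1 ≤ finrank k (W4 T e 1 (-1)) := by
  obtain ⟨v, hv⟩ := h.ntE h5 hn e (dt 0 1 2 3) (by decide)
  obtain ⟨a, ha, b, hb, hab⟩ := h.dec h2 e (s := -1) (w := T (E e (dt 0 1 2 3)) v - v) (by
    rw [map_sub, h.e1 e _ _ (by decide), neg_one_smul, neg_sub])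
  obtain ⟨q1, q2, -⟩ := h.v4 h2 e
  by_cases h0 : a = 0
  · rw [← q2]; exact pos_rk hb fun hb0 => hv (by rwa [h0, hb0, add_zero, sub_eq_zero] at hab)
  · rw [← q1]; exact pos_rk ha h0

theorem Lb_odd5 (h2 : (2 : k) ≠ 0) {m : ℕ} (hm : 5 ≤ m) : Lb k m 3 := by
  intro β _ _ V _ _ _ T hc h hn
  obtain ⟨e⟩ := exists_emb (α := β) (m := 4) (by omega)
  have := h.v4pos h2 (by omega) hn e
  have := (h.v4 h2 e).2.2
  omega

theorem Lb_odd7 (h2 : (2 : k) ≠ 0) {m : ℕ} (hm : 7 ≤ m) : Lb k m 4 := by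
  intro β _ _ V _ _ _ T hc h hn
  obtain ⟨e⟩ := exists_emb (α := β) (m := 7) (by omega)
  let f : Fin 4 ↪ Fin 7 := ⟨![0, 1, 2, 3], by decide⟩
  by_contra hlt
  have a1 := h.v4pos h2 (by omega) hn (f.trans e)
  obtain ⟨-, -, a2⟩ := h.v4 h2 (f.trans e)
  have x1 : E (f.trans e) (dt 0 1 2 3) = E e (dt 0 1 2 3) := E_eq e f _ _ (by decide) (by decide)
  have x2 : E (f.trans e) (dt 0 2 1 3) = E e (dt 0 2 1 3) := E_eq e f _ _ (by decide) (by decide)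
  have x3 : E (f.trans e) (c3 1 2 3) = E e (c3 1 2 3) := E_eq e f _ _ (by decide) (by decide)
  have hy : Fx (Finset.univ.map (f.trans e)) (E e (c3 4 5 6)) := by
    rw [← Finset.map_map]; exact Fx_E e _ _ (by decide)
  obtain ⟨l, hl⟩ := scal1 (T (E e (c3 4 5 6))) (W4 T (f.trans e) 1 (-1)) (by omega) (h.w4inv _ _ _ _ hy)
  obtain ⟨w, hw, hw0⟩ := (Submodule.ne_bot_iff _).1 (Submodule.one_le_finrank_iff.1 a1)
  have hz : T (E e (dt 0 1 4 5)) w ∈ W4 T (f.trans e) 1 (-1) := by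
    rw [mem_W4, x1, x2] at hw ⊢
    rw [h.e4 e _ _ (dt 0 1 4 5) (dt 0 1 2 3) (by decide), hw.1, map_smul,
      h.e4 e (dt 0 2 1 3) _ (dt 0 1 4 5) (dt 0 3 1 2) (by decide),
      ← h.ee e (dt 0 1 2 3) (dt 0 2 1 3) (dt 0 3 1 2) (by decide), hw.2, map_smul, hw.1, one_smul, map_smul]
    exact ⟨rfl, by rw [one_smul]⟩
  have hl1 : l = 1 := by
    have b1 := h.e4 e (c3 4 5 6) (dt 0 1 4 5) (dt 0 1 4 5) (c3 4 6 5) (by decide) w
    rw [hl _ hz, ← h.ee e (c3 4 5 6) (c3 4 5 6) (c3 4 6 5) (by decide), hl w hw, map_smul, hl w hw, smul_smul,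
      map_smul] at b1
    have b2 := smul_left_injective k (h.ne0 (by rw [E_sign]; decide) hw0) b1
    have b3 := h.e1 e (c3 4 5 6) (c3 4 6 5) (by decide) w
    rw [← h.ee e (c3 4 5 6) (c3 4 5 6) (c3 4 6 5) (by decide), hl w hw, map_smul, hl w hw, smul_smul, map_smul,
      hl w hw, smul_smul] at b3
    have b4 := smul_left_injective k hw0 (b3.trans (one_smul k w).symm)
    change l * l * l = 1 at b4
    change l = l * l at b2
    rw [← b2, ← b2] at b4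
    exact b4
  simp only [hl1, one_smul] at hl
  have back : ∀ u, T (E e (c3 4 5 6)) (T (E e (c3 1 2 3)) u) = T (E e (c3 1 2 3)) u → T (E e (c3 4 5 6)) u = u := by
    intro u hu
    rw [h.e4 e _ _ (c3 1 2 3) (c3 4 5 6) (by decide)] at hu
    have := congrArg (T (E e (c3 1 3 2))) hu
    rwa [h.e1 e _ _ (by decide), h.e1 e _ _ (by decide)] at this
  have c1 : ∀ u ∈ W4 T (f.trans e) (-1) (-1), T (E e (c3 4 5 6)) u = u := fun u hu =>
    back u (hl _ (by simpa [x3] using h.rot _ hu))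
  have c2 : ∀ u ∈ W4 T (f.trans e) (-1) 1, T (E e (c3 4 5 6)) u = u := fun u hu =>
    back u (c1 _ (by simpa [x3] using h.rot _ hu))
  have c0 : ∀ u ∈ W4 T (f.trans e) 1 1, T (E e (c3 4 5 6)) u = u := fun u hu => by
    by_cases h0 : u = 0
    · rw [h0, map_zero]
    · have := pos_rk hu h0; omega
  obtain ⟨v, hv⟩ := h.ntE (by omega) hn e (c3 4 5 6) (by decide)
  have d1 := h.e1 (f.trans e) (dt 0 1 2 3) (dt 0 1 2 3) (by decide) v
  obtain ⟨a, ha, b, hb, hab⟩ := h.dec h2 (f.trans e) (s := -1) (w := v - T (E (f.trans e) (dt 0 1 2 3)) v) (by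
    rw [map_sub, d1, neg_one_smul, neg_sub])
  obtain ⟨a', ha', b', hb', hab'⟩ := h.dec h2 (f.trans e) (s := 1) (w := v + T (E (f.trans e) (dt 0 1 2 3)) v) (by
    rw [map_add, d1, one_smul, add_comm])
  have d2 : (2 : k) • v = a + b + (a' + b') := by rw [← hab, ← hab', two_smul]; abel
  apply hv
  apply smul_right_injective V h2
  change (2 : k) • _ = (2 : k) • _
  rw [← map_smul, d2, map_add, map_add, map_add, c2 a ha, c1 b hb, c0 a' ha', hl b' hb']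

theorem LR.h4 [FiniteDimensional k V] (h2 : (2 : k) ≠ 0) (h : LR T) {d : ℕ} (hL : Lb k (Fintype.card α - 4) d)
    (hd : finrank k V < 3 * d) (e : Fin 4 ↪ α) {w : V} (hw : T (E e (dt 0 1 2 3)) w = -w) (y : Perm α)
    (hy : Fx (Finset.univ.map e) y) : T y w = w := by
  obtain ⟨q1, q2, q3⟩ := h.v4 h2 e
  obtain ⟨a, ha, b, hb, rfl⟩ := h.dec h2 e (s := -1) (w := w) (by rw [hw, neg_one_smul])
  have hL' : Lb k (Fintype.card α - (Finset.univ.map e).card) d := by simpa using hL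
  rw [map_add, h.dich _ hL' _ (h.w4inv e _ _) (by omega) y hy a ha, h.dich _ hL' _ (h.w4inv e _ _) (by omega) y hy b hb]

theorem LR.odd [FiniteDimensional k V] (p : ℕ) [CharP k p] (h2 : (2 : k) ≠ 0) (h : LR T) (h9 : 9 ≤ Fintype.card α)
    (hn : ∃ σ, sign σ = 1 ∧ T σ ≠ 1) {d : ℕ} (hL : Lb k (Fintype.card α - 4) d) (hd : finrank k V < 3 * d) :
    Fintype.card α - 1 - (if p ∣ Fintype.card α then 1 else 0) ≤ finrank k V := by
  obtain ⟨e⟩ := exists_emb (α := α) (m := 9) h9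
  have H : ∀ (f : Fin 4 ↪ Fin 9) (τ : Perm (Fin 9)) (B : Finset (Fin 9)),
      ((∀ i, τ (f i) = f (dt 0 1 2 3 i)) ∧ (∀ j, (∀ i, f i ≠ j) → τ j = j) ∧ Finset.univ.map f = B) →
      ∀ w, T (E e τ) w = -w → ∀ y, Fx (B.map e) y → T y w = w := by
    rintro f τ B ⟨q1, q2, rfl⟩ w hw y hy
    exact h.h4 h2 hL hd (f.trans e) (by rwa [E_eq e f _ τ q1 q2]) y (by rwa [← Finset.map_map])
  obtain ⟨v, hv0, hv1, hv2⟩ : ∃ v, v ≠ 0 ∧ T (E e (dt 0 1 2 3)) v = -v ∧ T (E e (dt 0 1 4 5)) v = -v := by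
    obtain ⟨u, hu⟩ := h.ntE (by omega) hn e (dt 0 1 2 3) (by decide)
    obtain ⟨w, hw0, hw⟩ : ∃ w, w ≠ 0 ∧ T (E e (dt 0 1 2 3)) w = -w :=
      ⟨_, sub_ne_zero.2 hu, by rw [map_sub, h.e1 e _ _ (by decide), neg_sub]⟩
    by_cases hc : T (E e (dt 0 1 4 5)) w = w
    · refine ⟨T (E e (dt 0 2 1 3)) w, h.ne0 (by rw [E_sign]; decide) hw0, ?_, ?_⟩
      · rw [h.e4 e _ _ (dt 0 2 1 3) (dt 0 1 2 3) (by decide), hw, map_neg]
      · rw [h.e4 e _ _ (dt 0 2 1 3) (dt 2 3 4 5) (by decide),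
          ← h.ee e (dt 0 1 2 3) (dt 0 1 4 5) (dt 2 3 4 5) (by decide), hc, hw, map_neg]
    · refine ⟨_, sub_ne_zero.2 hc, ?_, ?_⟩
      · rw [map_sub, h.e4 e _ _ (dt 0 1 4 5) (dt 0 1 2 3) (by decide), hw, map_neg]; abel
      · rw [map_sub, h.e1 e _ _ (by decide), neg_sub]
  have f1 := H ⟨![0, 1, 2, 3], by decide⟩ _ (insert 2 (insert 3 {0, 1})) (by decide) v hv1
  have f2 := H ⟨![0, 1, 4, 5], by decide⟩ _ {0, 1, 4, 5} (by decide) v hv2
  have f3 := h.genE h9 e _ 2 v f1 (c3 2 6 7) (by decide) (f2 _ (Fx_E e _ _ (by decide)))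
  have f4 := h.genE h9 e _ 3 v f3 (c3 3 6 7) (by decide) (f2 _ (Fx_E e _ _ (by decide)))
  have f5 : T (E e (dt 0 1 3 4)) v = -v := by
    rw [← h.ee e (dt 0 1 2 3) (dt 2 3 3 4) _ (by decide), f4 _ (Fx_E e _ _ (by decide)), hv1]
  refine h.fin p h9 e v hv0 f4 f5 ?_
  set s := v + T (E e (c3 0 1 2)) v + T (E e (c3 0 2 1)) v with hs
  have g1 : T (E e (dt 0 1 3 4)) s = -s := by
    rw [hs, map_add, map_add, h.e4 e _ _ (c3 0 2 1) (dt 0 1 3 4) (by decide),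
      h.e4 e (dt 0 1 3 4) (c3 0 2 1) (c3 0 1 2) (dt 0 1 3 4) (by decide), f5, map_neg, map_neg]; abel
  have g2 := H ⟨![0, 1, 3, 4], by decide⟩ _ {0, 1, 3, 4} (by decide) s g1
  have g3 : ∀ y, Fx ((insert 2 {0, 1} : Finset (Fin 9)).map e) y → T y s = s := fun y hy => by
    have := f4 y (hy.mono (Finset.map_subset_map.2 (by decide)))
    rw [hs, map_add, map_add, h.fx hy _ (by decide), h.fx hy _ (by decide), this]
  have g4 := h.genE h9 e _ 2 s g3 (c3 2 5 6) (by decide) (g2 _ (Fx_E e _ _ (by decide)))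
  have g5 : T (E e (c3 0 1 2)) s = s := by
    rw [hs, map_add, map_add, h.ee e _ _ (c3 0 2 1) (by decide), h.e1 e _ _ (by decide)]; abel
  have g6 : T (E e (c3 0 2 1)) s = s := by
    rw [← h.ee e (c3 0 1 2) (c3 0 1 2) _ (by decide), g5, g5]
  have g7 := g4 _ (Fx_E e _ (c3 2 3 4) (by decide))
  have g8 := g4 _ (Fx_E e _ (c3 2 4 3) (by decide))
  have fm : ∀ σ τ : Perm (Fin 9), sign σ = 1 ∧ T (E e σ) s = s → sign τ = 1 ∧ T (E e τ) s = s →
      sign (σ * τ) = 1 ∧ T (E e (σ * τ)) s = s := fun σ τ a b =>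
    ⟨by rw [map_mul, a.1, b.1]; rfl, by rw [← h.ee e σ τ _ ⟨a.1, b.1, rfl⟩, b.2, a.2]⟩
  have g9 := (fm _ _ (fm _ _ (fm _ _ (fm _ _ (fm _ _ ⟨by decide, g5⟩ ⟨by decide, g7⟩) ⟨by decide, g6⟩)
    ⟨by decide, g8⟩) ⟨by decide, g5⟩) ⟨by decide, g7⟩).2
  rw [show c3 (0 : Fin 9) 1 2 * c3 2 3 4 * c3 0 2 1 * c3 2 4 3 * c3 0 1 2 * c3 2 3 4 = dt 0 1 3 4 by decide, g1] at g9
  have : (2 : k) • s = 0 := by rw [two_smul]; nth_rw 1 [← g9]; exact neg_add_cancel s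
  exact (smul_eq_zero.1 this).resolve_left h2

theorem Lb_odd (p : ℕ) [CharP k p] (h2 : (2 : k) ≠ 0) (r : ℕ) :
    9 ≤ r → Lb k r (r - 1 - if p ∣ r then 1 else 0) := by
  induction r using Nat.strong_induction_on with
  | _ r ih =>
    intro hr β _ _ V _ _ _ T hc h hn
    obtain ⟨d, hL, hd⟩ : ∃ d, Lb k (r - 4) d ∧ r - 1 ≤ 3 * d := by
      by_cases q1 : r ≤ 10
      · exact ⟨3, Lb_odd5 h2 (by omega), by omega⟩
      by_cases q2 : r ≤ 12
      · exact ⟨4, Lb_odd7 h2 (by omega), by omega⟩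
      · exact ⟨r - 6, (ih (r - 4) (by omega) (by omega)).mono (by split_ifs <;> omega), by omega⟩
    by_cases q : finrank k V < 3 * d
    · subst hc; exact h.odd p h2 hr hn hL q
    · omega

end H28.Al
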