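import Cfsg.Agent.H28.Al3

/-!
# Linear representations of alternating groups in characteristic two
-/

set_option autoImplicit false

open Module Equiv Equiv.Perm

namespace H28.Al

universe u

variable {k V : Type u} {α : Type} [Field k] [AddCommGroup V] [Module k V] [Fintype α] [DecidableEq α]
  {T : Perm α → End k V}

omit [Fintype α] [DecidableEq α] in
theorem E_conj {m : ℕ} (e e' : Fin m ↪ α) {g : Perm α} (hg : ∀ i, g (e i) = e' i) (σ : Perm (Fin m)) :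
    g * E e σ = E e' σ * g := by
  ext x
  by_cases hx : x ∈ Set.range e
  · obtain ⟨i, rfl⟩ := hx
    rw [mul_apply, mul_apply, E_app, hg, hg, E_app]
  · rw [mul_apply, mul_apply, E_out e σ hx, E_out]
    rintro ⟨i, hi⟩
    exact hx ⟨i, g.injective (by rw [hg, hi])⟩

theorem LR.rk_conj [FiniteDimensional k V] (h : LR T) {m : ℕ} (hm : m + 2 ≤ Fintype.card α) (e e' : Fin m ↪ α)
    (σ : Perm (Fin m)) (hσ : sign σ = 1) (l : k) :
    finrank k (Eg (T (E e σ)) l) ≤ finrank k (Eg (T (E e' σ)) l) := by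
  obtain ⟨g, hg, h1⟩ := trans_emb hm e e'
  refine rk_le (h.linv hg) fun w hw => ?_
  rw [mem_Eg] at hw ⊢
  rw [h.app (by rw [E_sign, hσ]) hg, ← E_conj e e' h1, ← h.app hg (by rw [E_sign, hσ]), hw, map_smul]

theorem inj3' {β : Type*} {a b c : β} (h1 : a ≠ b) (h2 : a ≠ c) (h3 : b ≠ c) : Function.Injective ![a, b, c] := by
  intro i j; fin_cases i <;> fin_cases j <;> simp_all [eq_comm]

theorem add_self2 (h2 : (2 : k) = 0) (v : V) : v + v = 0 := by rw [← two_smul k, h2, zero_smul]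

theorem exists_om [IsAlgClosed k] : ∃ w : k, w ^ 2 + w + 1 = 0 := by
  obtain ⟨w, hw⟩ := IsAlgClosed.exists_root (Polynomial.X ^ 2 + Polynomial.X + 1 : Polynomial k) (by
    have : (Polynomial.X ^ 2 + Polynomial.X + 1 : Polynomial k).degree = 2 := by compute_degree!
    rw [this]; decide)
  exact ⟨w, by simpa using hw⟩

theorem om_facts (h2 : (2 : k) = 0) {w : k} (hw : w ^ 2 + w + 1 = 0) :
    w ≠ 1 ∧ w ^ 2 ≠ 1 ∧ w ≠ w ^ 2 ∧ w ^ 3 = 1 := by
  refine ⟨fun q => one_ne_zero (α := k) ?_, fun q => one_ne_zero (α := k) ?_, fun q => one_ne_zero (α := k) ?_, ?_⟩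
  · rw [q] at hw; linear_combination hw - h2
  · have : w = 0 := by linear_combination hw - q - h2
    rw [this] at hw; linear_combination hw
  · linear_combination hw + q - w * h2
  · linear_combination (w - 1) * hw

theorem LR.sq3 (h : LR T) (e : Fin 3 ↪ α) {l : k} {v : V} (hv : T (E e (c3 0 2 1)) v = l • v) :
    T (E e (c3 0 1 2)) v = l ^ 2 • v := by
  rw [← h.ee e (c3 0 2 1) (c3 0 2 1) _ (by decide), hv, map_smul, hv, smul_smul, sq]

theorem LR.c3rk [FiniteDimensional k V] (h2 : (2 : k) = 0) {w : k} (hw : w ^ 2 + w + 1 = 0) (h : LR T)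
    (h5 : 5 ≤ Fintype.card α) (e : Fin 3 ↪ α) :
    finrank k (Eg (T (E e (c3 0 1 2))) (w ^ 2)) = finrank k (Eg (T (E e (c3 0 1 2))) w) ∧
      finrank k (Eg (T (E e (c3 0 1 2))) 1) + 2 * finrank k (Eg (T (E e (c3 0 1 2))) w) ≤ finrank k V := by
  obtain ⟨o1, o2, o3, o4⟩ := om_facts h2 hw
  let f : Fin 3 ↪ Fin 3 := ⟨![0, 2, 1], by decide⟩
  have x1 : E (f.trans e) (c3 0 1 2) = E e (c3 0 2 1) := E_eq e f _ _ (by decide) (by decide)
  have key : ∀ l : k,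
      finrank k (Eg (T (E e (c3 0 1 2))) l) ≤ finrank k (Eg (T (E e (c3 0 1 2))) (l ^ 2)) := fun l => by
    refine (h.rk_conj (by omega) e (f.trans e) _ (by decide) l).trans (Submodule.finrank_mono fun v hv => ?_)
    rw [x1, mem_Eg] at hv
    exact mem_Eg.2 (h.sq3 e hv)
  have a1 := key w
  have a2 := key (w ^ 2)
  rw [show (w ^ 2) ^ 2 = w by linear_combination w * o4] at a2
  have := Eg_sum (T (E e (c3 0 1 2))) (![1, w, w ^ 2] : Fin 3 → k) (inj3' o1.symm o2.symm o3)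
  rw [Fin.sum_univ_three] at this
  change finrank k (Eg (T (E e (c3 0 1 2))) 1) + finrank k (Eg (T (E e (c3 0 1 2))) w) +
    finrank k (Eg (T (E e (c3 0 1 2))) (w ^ 2)) ≤ _ at this
  omega

theorem LR.dec3 (h2 : (2 : k) = 0) {w : k} (hw : w ^ 2 + w + 1 = 0) (h : LR T) (e : Fin 3 ↪ α) {u : V}
    (hu : u + T (E e (c3 0 1 2)) u + T (E e (c3 0 2 1)) u = 0) :
    ∃ a ∈ Eg (T (E e (c3 0 1 2))) w, ∃ b ∈ Eg (T (E e (c3 0 1 2))) (w ^ 2), u = a + b := by
  have q := h.ee e (c3 0 1 2) (c3 0 1 2) (c3 0 2 1) (by decide) u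
  have z := add_self2 (V := V) h2
  have h3 : T (E e (c3 0 2 1)) u = -(u + T (E e (c3 0 1 2)) u) := by rw [← add_eq_zero_iff_eq_neg', ← hu]
  refine ⟨T (E e (c3 0 1 2)) u + w ^ 2 • u, mem_Eg.2 ?_, T (E e (c3 0 1 2)) u + w • u, mem_Eg.2 ?_, ?_⟩
  · rw [map_add, map_smul, q, h3]
    match_scalars
    · linear_combination (1 - w) * hw - h2
    · linear_combination hw - (w + 1) * h2
  · rw [map_add, map_smul, q, h3]
    match_scalars
    · linear_combination (1 - w) * hw - h2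
    · linear_combination (-1) * hw + w * h2
  · match_scalars
    · linear_combination (-1) * hw + h2
    · linear_combination (-1) * h2

theorem LR.c3pos [FiniteDimensional k V] (h2 : (2 : k) = 0) {w : k} (hw : w ^ 2 + w + 1 = 0) (h : LR T)
    (h5 : 5 ≤ Fintype.card α) (hn : ∃ σ, sign σ = 1 ∧ T σ ≠ 1) (e : Fin 3 ↪ α) :
    1 ≤ finrank k (Eg (T (E e (c3 0 1 2))) w) := by
  obtain ⟨v, hv⟩ := h.ntE h5 hn e (c3 0 1 2) (by decide)
  obtain ⟨a, ha, b, hb, hab⟩ := h.dec3 h2 hw e (u := T (E e (c3 0 1 2)) v - v) (by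
    rw [map_sub, map_sub, h.ee e (c3 0 1 2) (c3 0 1 2) (c3 0 2 1) (by decide), h.e1 e _ _ (by decide)]; abel)
  by_cases h0 : a = 0
  · rw [← (h.c3rk h2 hw h5 e).1]; exact pos_rk hb fun hb0 => hv (by rwa [h0, hb0, add_zero, sub_eq_zero] at hab)
  · exact pos_rk ha h0

theorem LR.eginv (h : LR T) {m : ℕ} {e : Fin m ↪ α} {B : Finset (Fin m)} (σ : Perm (Fin m))
    (hσ : sign σ = 1 ∧ ∀ i, σ i ≠ i → i ∈ B) (l : k) (y : Perm α) (hy : Fx (B.map e) y) :
    ∀ w ∈ Eg (T (E e σ)) l, T y w ∈ Eg (T (E e σ)) l := fun w hw => by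
  rw [mem_Eg] at hw ⊢
  rw [← h.fx hy σ hσ, hw, map_smul]

theorem LR.h3 [FiniteDimensional k V] (h2 : (2 : k) = 0) {w : k} (hw : w ^ 2 + w + 1 = 0) (h : LR T)
    (h5 : 5 ≤ Fintype.card α) {d : ℕ} (hL : Lb k (Fintype.card α - 3) d) (e : Fin 3 ↪ α)
    (hd : finrank k (Eg (T (E e (c3 0 1 2))) w) < d) {u : V}
    (hu : u + T (E e (c3 0 1 2)) u + T (E e (c3 0 2 1)) u = 0) (y : Perm α) (hy : Fx (Finset.univ.map e) y) :
    T y u = u := by
  obtain ⟨q1, -⟩ := h.c3rk h2 hw h5 e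
  obtain ⟨a, ha, b, hb, rfl⟩ := h.dec3 h2 hw e hu
  have hL' : Lb k (Fintype.card α - (Finset.univ.map e).card) d := by simpa using hL
  rw [map_add, h.dich _ hL' _ (h.eginv _ (by decide) _) (by omega) y hy a ha,
    h.dich _ hL' _ (h.eginv _ (by decide) _) (by omega) y hy b hb]

theorem inj4 {w μ : k} (o1 : w ≠ 1) (o2 : w ^ 2 ≠ 1) (o3 : w ≠ w ^ 2) (w4 : (w ^ 2) ^ 2 = w)
    (h : μ = 1 ∨ μ = w ∨ μ = w ^ 2) :
    Function.Injective (![![w, μ], ![μ ^ 2, w], ![w ^ 2, μ ^ 2], ![(μ ^ 2) ^ 2, w ^ 2]] : Fin 4 → Fin 2 → k) := by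
  intro i j hij
  have q0 := congrFun hij 0
  have q1 := congrFun hij 1
  clear hij
  have o1' := o1.symm
  have o2' := o2.symm
  have o3' := o3.symm
  rcases h with q | q | q
  · simp only [q, one_pow] at q0 q1
    generalize w ^ 2 = z at *
    fin_cases i <;> fin_cases j <;> simp_all
  · simp only [q, w4] at q0 q1
    generalize w ^ 2 = z at *
    fin_cases i <;> fin_cases j <;> simp_all
  · simp only [q, w4] at q0 q1
    generalize w ^ 2 = z at *
    fin_cases i <;> fin_cases j <;> simp_all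

theorem Lb_two6 [IsAlgClosed k] (h2 : (2 : k) = 0) {m : ℕ} (hm : 6 ≤ m) : Lb k m 4 := by
  intro β _ _ V _ _ _ T hc h hn
  obtain ⟨w, hw⟩ := exists_om (k := k)
  obtain ⟨o1, o2, o3, o4⟩ := om_facts h2 hw
  obtain ⟨e⟩ := exists_emb (α := β) (m := 6) (by omega)
  let f : Fin 3 ↪ Fin 6 := ⟨![0, 1, 2], by decide⟩
  have a1 := h.c3pos h2 hw (by omega) hn (f.trans e)
  rw [E_eq e f _ (c3 0 1 2) (by decide) (by decide)] at a1
  obtain ⟨μ, v, hv, hv0, hμ⟩ := exists_eig (T (E e (c3 3 4 5))) _ (Submodule.one_le_finrank_iff.1 a1)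
    (h.eginv (B := {0, 1, 2}) _ (by decide) _ _ (Fx_E e _ _ (by decide)))
  rw [mem_Eg] at hv
  have hμ3 : μ ^ 3 = 1 := by
    have b3 := h.e1 e (c3 3 4 5) (c3 3 5 4) (by decide) v
    rw [← h.ee e (c3 3 4 5) (c3 3 4 5) (c3 3 5 4) (by decide), hμ, map_smul, hμ, smul_smul, map_smul, hμ,
      smul_smul] at b3
    have b4 := smul_left_injective k hv0 (b3.trans (one_smul k v).symm)
    change μ * μ * μ = 1 at b4
    linear_combination b4
  let C : Fin 2 → End k V := ![T (E e (c3 0 1 2)), T (E e (c3 3 4 5))]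
  let g : Perm (Fin 6) := swap 0 4 * swap 0 1 * swap 0 3 * swap 2 5
  have step : ∀ a b : k, ∀ u, u ≠ 0 ∧ u ∈ J C ![a, b] → T (E e g) u ≠ 0 ∧ T (E e g) u ∈ J C ![b ^ 2, a] := by
    intro a b u hu
    refine ⟨h.ne0 (by rw [E_sign]; decide) hu.1, ?_⟩
    have hu2 := hu.2
    rw [mem_J, Fin.forall_fin_two] at hu2 ⊢
    change T (E e (c3 0 1 2)) u = a • u ∧ T (E e (c3 3 4 5)) u = b • u at hu2
    change T (E e (c3 0 1 2)) _ = b ^ 2 • _ ∧ T (E e (c3 3 4 5)) _ = a • _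
    rw [h.e4 e _ _ g (c3 3 5 4) (by decide), ← h.ee e (c3 3 4 5) (c3 3 4 5) (c3 3 5 4) (by decide), hu2.2, map_smul,
      hu2.2, smul_smul, map_smul, h.e4 e (c3 3 4 5) g g (c3 0 1 2) (by decide), hu2.1, map_smul, sq]
    exact ⟨rfl, rfl⟩
  have s0 : v ≠ 0 ∧ v ∈ J C ![w, μ] := ⟨hv0, by rw [mem_J, Fin.forall_fin_two]; exact ⟨hv, hμ⟩⟩
  have s1 := step _ _ _ s0
  have s2 := step _ _ _ s1
  have s3 := step _ _ _ s2
  have hcases : μ = 1 ∨ μ = w ∨ μ = w ^ 2 := by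
    have : (μ - 1) * (μ - w) * (μ - w ^ 2) = 0 := by
      linear_combination hμ3 - μ ^ 2 * hw + μ * w * hw - o4
    rcases mul_eq_zero.1 this with q | q
    · rcases mul_eq_zero.1 q with q | q
      · exact .inl (sub_eq_zero.1 q)
      · exact .inr (.inl (sub_eq_zero.1 q))
    · exact .inr (.inr (sub_eq_zero.1 q))
  have := J_card C _ (inj4 o1 o2 o3 (by linear_combination w * o4) hcases) ⊤ (by
    intro i
    fin_cases i
    exacts [⟨_, trivial, s0⟩, ⟨_, trivial, s1⟩, ⟨_, trivial, s2⟩, ⟨_, trivial, s3⟩])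
  simpa using this

theorem LR.two [FiniteDimensional k V] (p : ℕ) [CharP k p] (h2 : (2 : k) = 0) {w : k} (hw : w ^ 2 + w + 1 = 0)
    (h : LR T) (h9 : 9 ≤ Fintype.card α) (hn : ∃ σ, sign σ = 1 ∧ T σ ≠ 1) {d : ℕ} (hL : Lb k (Fintype.card α - 3) d)
    (hd : ∀ e : Fin 3 ↪ α, finrank k (Eg (T (E e (c3 0 1 2))) w) < d) :
    Fintype.card α - 1 - (if p ∣ Fintype.card α then 1 else 0) ≤ finrank k V := by
  obtain ⟨e⟩ := exists_emb (α := α) (m := 9) h9
  have z := add_self2 (V := V) h2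
  have ng : ∀ u : V, -u = u := fun u => neg_eq_of_add_eq_zero_left (z u)
  have H : ∀ (f : Fin 3 ↪ Fin 9) (τ τ' : Perm (Fin 9)) (B : Finset (Fin 9)),
      ((∀ i, τ (f i) = f (c3 0 1 2 i)) ∧ (∀ j, (∀ i, f i ≠ j) → τ j = j) ∧
        (∀ i, τ' (f i) = f (c3 0 2 1 i)) ∧ (∀ j, (∀ i, f i ≠ j) → τ' j = j) ∧ Finset.univ.map f = B) →
      ∀ u, u + T (E e τ) u + T (E e τ') u = 0 → ∀ y, Fx (B.map e) y → T y u = u := by
    rintro f τ τ' B ⟨q1, q2, q3, q4, rfl⟩ u hu y hy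
    exact h.h3 h2 hw (by omega) hL (f.trans e) (hd _) (by rwa [E_eq e f _ τ q1 q2, E_eq e f _ τ' q3 q4]) y
      (by rwa [← Finset.map_map])
  obtain ⟨u, hu0, hu1, hu2⟩ : ∃ u, u ≠ 0 ∧ u + T (E e (c3 0 1 2)) u + T (E e (c3 0 2 1)) u = 0 ∧
      T (E e (dt 0 1 3 4)) u = u := by
    obtain ⟨x, hx⟩ := h.ntE (by omega) hn e (c3 0 1 2) (by decide)
    obtain ⟨u, hu0, hu1⟩ : ∃ u, u ≠ 0 ∧ u + T (E e (c3 0 1 2)) u + T (E e (c3 0 2 1)) u = 0 :=
      ⟨_, sub_ne_zero.2 hx, by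
        rw [map_sub, map_sub, h.ee e (c3 0 1 2) (c3 0 1 2) (c3 0 2 1) (by decide), h.e1 e _ _ (by decide)]; abel⟩
    by_cases hc : T (E e (dt 0 1 3 4)) u = u
    · exact ⟨u, hu0, hu1, hc⟩
    · refine ⟨u + T (E e (dt 0 1 3 4)) u, fun q => hc ?_, ?_, ?_⟩
      · exact (eq_neg_of_add_eq_zero_right q).trans (ng u)
      · have := congrArg (T (E e (dt 0 1 3 4))) hu1
        rw [map_zero, map_add, map_add, h.e4 e _ _ (c3 0 2 1) (dt 0 1 3 4) (by decide),
          h.e4 e (dt 0 1 3 4) (c3 0 2 1) (c3 0 1 2) (dt 0 1 3 4) (by decide)] at this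
        rw [map_add, map_add]
        linear_combination (norm := module) hu1 + this
      · rw [map_add, h.e1 e _ _ (by decide), add_comm]
  have f1 := H ⟨![0, 1, 2], by decide⟩ _ _ (insert 2 {0, 1}) (by decide) u hu1
  have f2 : ∀ x, T (E e (c3 2 3 4)) (T (E e (dt 0 1 5 6)) x) + T (E e (c3 2 4 3)) (T (E e (dt 0 1 5 6)) x) =
      T (E e (c3 2 3 4)) x + T (E e (c3 2 4 3)) x := fun x => by
    rw [h.e4 e _ _ (dt 0 1 5 6) (c3 2 3 4) (by decide), h.e4 e (c3 2 4 3) _ (dt 0 1 5 6) (c3 2 4 3) (by decide),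
      ← map_add]
    refine H ⟨![2, 3, 4], by decide⟩ (c3 2 3 4) (c3 2 4 3) {2, 3, 4} (by decide) _ ?_ _ (Fx_E e _ _ (by decide))
    rw [map_add, map_add, h.ee e (c3 2 3 4) (c3 2 3 4) (c3 2 4 3) (by decide), h.e1 e _ _ (by decide),
      h.e1 e _ _ (by decide), h.ee e (c3 2 4 3) (c3 2 4 3) (c3 2 3 4) (by decide)]
    linear_combination (norm := module) z x + z (T (E e (c3 2 3 4)) x) + z (T (E e (c3 2 4 3)) x)
  have f3 : T (E e (dt 0 1 5 6)) u = u := by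
    rw [← h.ee e (dt 0 1 3 4) (dt 3 4 5 6) _ (by decide), f1 _ (Fx_E e _ _ (by decide)), hu2]
  have f4 := f2 (T (E e (c3 0 1 2)) u)
  rw [h.e4 e (dt 0 1 5 6) _ (c3 0 2 1) (dt 0 1 5 6) (by decide), f3] at f4
  have f5 : T (E e (c3 2 3 4)) u = T (E e (c3 2 4 3)) u := by
    have a1 := congrArg (T (E e (c3 2 3 4))) hu1
    have a2 := congrArg (T (E e (c3 2 4 3))) hu1
    rw [map_zero, map_add, map_add] at a1 a2
    linear_combination (norm := module) a1 + a2 - f4 - z (T (E e (c3 2 4 3)) u) - z (T (E e (c3 2 3 4)) (T (E e (c3 0 1 2)) u))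
      - z (T (E e (c3 2 4 3)) (T (E e (c3 0 1 2)) u))
  have f6 : T (E e (c3 2 3 4)) u = u := by
    have := congrArg (T (E e (c3 2 4 3))) f5
    rw [h.e1 e _ _ (by decide), h.ee e _ _ (c3 2 3 4) (by decide)] at this
    exact this.symm
  have f7 := h.genE h9 e _ 2 u f1 (c3 2 3 4) (by decide) f6
  exact h.fin p h9 e u hu0 f7 (by rw [hu2, ng]) hu1

theorem exists5 [IsAlgClosed k] [FiniteDimensional k V] (h5 : (5 : k) ≠ 0) (S : End k V) (hS : S ^ 5 = 1)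
    (h1 : ∃ x, S x ≠ x) : ∃ l : k, IsPrimitiveRoot l 5 ∧ ∃ v, v ≠ 0 ∧ S v = l • v := by
  obtain ⟨x, hx⟩ := h1
  have q : (1 + S + S ^ 2 + S ^ 3 + S ^ 4) * (S - 1) = 0 := by rw [← sub_eq_zero.2 hS]; noncomm_ring
  obtain ⟨l, v, hv, hv0, hl⟩ := exists_eig S (LinearMap.ker (1 + S + S ^ 2 + S ^ 3 + S ^ 4))
    ((Submodule.ne_bot_iff _).2 ⟨S x - x, LinearMap.mem_ker.2 (LinearMap.congr_fun q x), sub_ne_zero.2 hx⟩) (fun u hu => by
      have c : (1 + S + S ^ 2 + S ^ 3 + S ^ 4) * S = S * (1 + S + S ^ 2 + S ^ 3 + S ^ 4) := by noncomm_ring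
      rw [LinearMap.mem_ker] at hu ⊢
      rw [← Module.End.mul_apply, c, Module.End.mul_apply, hu, map_zero])
  have hp : ∀ n : ℕ, (S ^ n) v = l ^ n • v := fun n => by
    induction n with
    | zero => simp
    | succ n ih => rw [pow_succ', Module.End.mul_apply, ih, map_smul, hl, smul_smul, pow_succ]
  have h6 : 1 + l + l ^ 2 + l ^ 3 + l ^ 4 = 0 := by
    have : (1 + l + l ^ 2 + l ^ 3 + l ^ 4) • v = 0 := by
      rw [← LinearMap.mem_ker.1 hv]; simp [add_smul, hp, hl]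
    exact (smul_eq_zero.1 this).resolve_right hv0
  have : Fact (Nat.Prime 5) := ⟨by norm_num⟩
  refine ⟨l, ?_, v, hv0, hl⟩
  have := orderOf_eq_prime (x := l) (p := 5) (by linear_combination (l - 1) * h6) (fun q => h5 (by
    rw [q] at h6; linear_combination h6))
  rw [← this]; exact IsPrimitiveRoot.orderOf l

theorem prim_inj {l : k} (h : IsPrimitiveRoot l 5) : Function.Injective fun i : Fin 5 => l ^ (i : ℕ) :=
  fun i j q => Fin.ext (h.pow_inj i.2 j.2 q)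

theorem LR.eleven [IsAlgClosed k] [FiniteDimensional k V] (h2 : (2 : k) = 0) {w : k} (hw : w ^ 2 + w + 1 = 0)
    (h : LR T) (h11 : Fintype.card α = 11) (hn : ∃ σ, sign σ = 1 ∧ T σ ≠ 1) (h9 : finrank k V ≤ 9) (e3 : Fin 3 ↪ α) :
    finrank k (Eg (T (E e3 (c3 0 1 2))) w) < 4 := by
  obtain ⟨e⟩ := exists_emb (α := α) (m := 11) h11.ge
  let f : Fin 3 ↪ Fin 11 := ⟨![0, 1, 2], by decide⟩
  refine lt_of_le_of_lt (h.rk_conj (by omega) e3 (f.trans e) _ (by decide) w) ?_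
  have a1 := (h.c3rk h2 hw (by omega) (f.trans e)).2
  rw [E_eq e f _ (c3 0 1 2) (by decide) (by decide)] at a1 ⊢
  let s : Perm (Fin 11) := swap 6 10 * swap 6 9 * swap 6 8 * swap 6 7
  let g : Perm (Fin 11) := swap 3 4 * (swap 7 8 * swap 7 10 * swap 7 9)
  obtain ⟨l, hl, v, hv0, hv⟩ := exists5 (fun q => one_ne_zero (α := k) (by linear_combination q - 2 * h2))
    (T (E e s)) (by
      ext x
      simp only [pow_succ, pow_zero, one_mul, Module.End.mul_apply]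
      rw [h.ee e s s (s * s) (by decide +kernel), h.ee e (s * s) s (s * s * s) (by decide +kernel),
        h.ee e (s * s * s) s (s * s * s * s) (by decide +kernel), h.e1 e _ _ (by decide +kernel)]; rfl)
    (h.ntE (by omega) hn e s (by decide +kernel))
  have hg : sign (E e g) = 1 := by rw [E_sign]; decide +kernel
  have st : ∀ μ : k, ∀ u ∈ Eg (T (E e s)) μ, T (E e g) u ∈ Eg (T (E e s)) (μ ^ 2) := fun μ u hu => by
    rw [mem_Eg] at hu ⊢
    rw [h.e4 e s g g (s * s) (by decide +kernel), ← h.ee e s s (s * s) (by decide +kernel), hu, map_smul, hu, smul_smul,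
      map_smul, sq]
  have b1 := rk_le (h.linv hg) (st l)
  have b2 := rk_le (h.linv hg) (st (l ^ 2))
  have b3 := rk_le (h.linv hg) (st ((l ^ 2) ^ 2))
  have b0 := pos_rk (mem_Eg.2 hv) hv0
  rw [show ((l ^ 2) ^ 2) ^ 2 = l ^ 3 by linear_combination l ^ 3 * hl.pow_eq_one] at b3
  rw [show (l ^ 2) ^ 2 = l ^ 4 by ring] at b2 b3
  have b4 := Eg_sum (T (E e s)) _ (prim_inj hl)
  rw [Fin.sum_univ_five] at b4
  change finrank k (Eg (T (E e s)) (l ^ 0)) + finrank k (Eg (T (E e s)) (l ^ 1)) + finrank k (Eg (T (E e s)) (l ^ 2)) +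
    finrank k (Eg (T (E e s)) (l ^ 3)) + finrank k (Eg (T (E e s)) (l ^ 4)) ≤ _ at b4
  rw [pow_one] at b4
  have hL : Lb k (Fintype.card α - (({6, 7, 8, 9, 10} : Finset (Fin 11)).map e).card) 4 :=
    Lb_two6 h2 (by rw [h11, Finset.card_map]; decide)
  have tr : ∀ μ, finrank k (Eg (T (E e s)) μ) < 4 → ∀ u ∈ Eg (T (E e s)) μ, u ∈ Eg (T (E e (c3 0 1 2))) 1 :=
    fun μ q u hu => mem_Eg.2 (by
      rw [one_smul]
      exact h.dich _ hL _ (h.eginv s (by decide +kernel) μ) q _ (Fx_E e _ _ (by decide +kernel)) u hu)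
  have b5 := J_card (fun _ : Unit => T (E e s)) (fun (i : Fin 2) _ => ![l, l ^ 2] i) (by
    intro i j q
    have q0 := congrFun q ()
    have q1 : l ≠ l ^ 2 := fun q => absurd (hl.pow_inj (i := 1) (j := 2) (by omega) (by omega) (by rwa [pow_one])) (by omega)
    fin_cases i <;> fin_cases j <;> simp_all [q1.symm]) (Eg (T (E e (c3 0 1 2))) 1) (by
    intro i
    fin_cases i
    · exact ⟨v, tr l (by omega) v (mem_Eg.2 hv), hv0, mem_Eg.2 hv⟩
    · exact ⟨_, tr _ (by omega) _ (st l v (mem_Eg.2 hv)), h.ne0 hg hv0, st l v (mem_Eg.2 hv)⟩)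
  rw [Fintype.card_fin] at b5
  omega

theorem Lb_two [IsAlgClosed k] [CharP k 2] (r : ℕ) : 9 ≤ r → Lb k r (r - 1 - if 2 ∣ r then 1 else 0) := by
  have h2 : (2 : k) = 0 := CharP.cast_eq_zero k 2
  obtain ⟨w, hw⟩ := exists_om (k := k)
  induction r using Nat.strong_induction_on with
  | _ r ih =>
    intro hr β _ _ V _ _ _ T hc h hn
    by_cases h11 : r = 11
    · by_cases q : finrank k V ≤ 9
      · subst hc
        exact h.two 2 h2 hw hr hn (Lb_two6 h2 (by omega)) (h.eleven h2 hw h11 hn q)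
      · omega
    obtain ⟨d, hL, hd⟩ : ∃ d, Lb k (r - 3) d ∧ (r - 1 - if 2 ∣ r then 1 else 0) ≤ 2 * d := by
      by_cases q1 : r ≤ 10
      · exact ⟨4, Lb_two6 h2 (by omega), by split_ifs <;> omega⟩
      · exact ⟨r - 5, (ih (r - 3) (by omega) (by omega)).mono (by split_ifs <;> omega), by omega⟩
    by_cases q : finrank k V < 2 * d
    · subst hc
      exact h.two 2 h2 hw hr hn hL fun e => by have := (h.c3rk h2 hw (by omega) e).2; omega
    · omega

theorem Lb_all [IsAlgClosed k] (p : ℕ) [Fact p.Prime] [CharP k p] {r : ℕ} (hr : 9 ≤ r) :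
    Lb k r (r - 1 - if p ∣ r then 1 else 0) := by
  by_cases hp : p = 2
  · subst hp; exact Lb_two r hr
  · refine Lb_odd p (fun q => hp ?_) r hr
    exact (Nat.prime_dvd_prime_iff_eq Fact.out Nat.prime_two).1 ((CharP.cast_eq_zero_iff k p 2).1 q)

end H28.Al
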