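import Cfsg.Agent.H28.Al4

/-!
# Spin representations of alternating groups
-/

set_option autoImplicit false

open Module Equiv Equiv.Perm

namespace H28.Al

universe u

/-- a spin representation, given by the relation "`f` is a lift of `σ`" -/
structure SR {k V α : Type*} [Field k] [AddCommGroup V] [Module k V] [Fintype α] [DecidableEq α]
    (L : Perm α → End k V → Prop) : Prop where
  ex : ∀ σ, sign σ = 1 → ∃ f, L σ f
  mul : ∀ {σ τ f g}, L σ f → L τ g → L (σ * τ) (f * g)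
  one : L 1 1
  neg : ∀ {σ f}, L σ f → L σ (-f)
  uniq : ∀ {σ f g}, L σ f → L σ g → f = g ∨ f = -g
  sq : ∀ a b c d f, (a ≠ b ∧ a ≠ c ∧ a ≠ d ∧ b ≠ c ∧ b ≠ d ∧ c ≠ d) → L (dt a b c d) f → f * f = -1

/-- lower bound for spin representations -/
def SLb (k : Type u) [Field k] (m d : ℕ) : Prop :=
  ∀ (β : Type) [Fintype β] [DecidableEq β] (V : Type u) [AddCommGroup V] [Module k V] [FiniteDimensional k V]
    [Nontrivial V] (L : Perm β → End k V → Prop), Fintype.card β = m → SR L → d ≤ finrank k V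

theorem SLb.mono {k : Type u} [Field k] {m d d' : ℕ} (h : SLb k m d) (hd : d' ≤ d) : SLb k m d' :=
  fun β _ _ V _ _ _ _ L h1 h2 => hd.trans (h β V L h1 h2)

variable {k V : Type u} {α : Type} [Field k] [AddCommGroup V] [Module k V] [Fintype α] [DecidableEq α]
  {L : Perm α → End k V → Prop}

omit [Fintype α] in
theorem E_swap {m : ℕ} (e : Fin m ↪ α) (i j : Fin m) : E e (swap i j) = swap (e i) (e j) := by
  ext x
  by_cases hx : x ∈ Set.range e
  · obtain ⟨t, rfl⟩ := hx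
    rw [E_app, e.injective.map_swap]
  · rw [E_out e _ hx, swap_apply_of_ne_of_ne (fun q => hx ⟨i, q.symm⟩) (fun q => hx ⟨j, q.symm⟩)]

theorem SR.res [FiniteDimensional k V] (h : SR L) (A : Finset α) {d : ℕ} (hL : SLb k (Fintype.card α - A.card) d)
    (W : Submodule k V) (h0 : W ≠ ⊥) (hW : ∀ y f, Fx A y → L y f → ∀ w ∈ W, f w ∈ W) : d ≤ finrank k W := by
  have : Nontrivial W := Submodule.nontrivial_iff_ne_bot.2 h0
  refine hL _ W (fun σ f' => sign σ = 1 ∧ ∃ f, L (Sb A σ) f ∧ ∀ w : W, (f' w : V) = f w) (card_sub A)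
    ⟨fun σ hσ => ?_, ?_, ⟨map_one _, 1, by rw [map_one]; exact h.one, fun _ => rfl⟩, ?_, ?_, ?_⟩
  · obtain ⟨f, hf⟩ := h.ex (Sb A σ) (by rw [Sb_sign, hσ])
    exact ⟨f.restrict (hW _ f (Fx_Sb A σ hσ) hf), hσ, f, hf, fun _ => rfl⟩
  · rintro σ τ f' g' ⟨s1, f, hf, q1⟩ ⟨s2, g, hg, q2⟩
    exact ⟨by rw [map_mul, s1, s2]; rfl, f * g, by rw [map_mul]; exact h.mul hf hg, fun w => by
      rw [Module.End.mul_apply, q1, q2]; rfl⟩
  · rintro σ f' ⟨s1, f, hf, q1⟩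
    exact ⟨s1, -f, h.neg hf, fun w => by simp [q1]⟩
  · rintro σ f' g' ⟨s1, f, hf, q1⟩ ⟨s2, g, hg, q2⟩
    rcases h.uniq hf hg with q | q
    · left; ext w; rw [q1, q2, q]
    · right; ext w; simp [q1, q2, q]
  · rintro a b c d f' hd ⟨s1, f, hf, q1⟩
    rw [dt, map_mul, Sb_swap, Sb_swap] at hf
    have := h.sq a.1 b.1 c.1 d.1 f (by simpa only [ne_eq, Subtype.val_inj] using hd) hf
    ext w
    rw [Module.End.mul_apply, q1, q1, ← Module.End.mul_apply, this]; simp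

theorem SLb.up {m m' d : ℕ} (h : SLb k m d) (hm : m ≤ m') : SLb k m' d := by
  intro β _ _ V _ _ _ _ L hc hL
  obtain ⟨A, -, hA⟩ := Finset.exists_subset_card_eq (s := (Finset.univ : Finset β)) (n := m' - m) (by simp; omega)
  have := hL.res A (d := d) (by rw [hA, hc, show m' - (m' - m) = m by omega]; exact h) ⊤ top_ne_bot
    (fun _ _ _ _ _ _ => trivial)
  rwa [finrank_top] at this

theorem SR.sqE (h : SR L) {m : ℕ} (e : Fin m ↪ α) (a b c d : Fin m)
    (hd : a ≠ b ∧ a ≠ c ∧ a ≠ d ∧ b ≠ c ∧ b ≠ d ∧ c ≠ d) {f : End k V} (hf : L (E e (dt a b c d)) f) : f * f = -1 := by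
  rw [dt, map_mul, E_swap, E_swap] at hf
  exact h.sq _ _ _ _ f (by simpa only [ne_eq, e.injective.eq_iff] using hd) hf

theorem SR.exE (h : SR L) {m : ℕ} (e : Fin m ↪ α) (σ : Perm (Fin m)) (hσ : sign σ = 1) : ∃ f, L (E e σ) f :=
  h.ex _ (by rw [E_sign, hσ])

theorem SR.pow (h : SR L) {σ : Perm α} {f : End k V} (hf : L σ f) (n : ℕ) : L (σ ^ n) (f ^ n) := by
  induction n with
  | zero => simpa using h.one
  | succ n ih => rw [pow_succ, pow_succ]; exact h.mul ih hf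

theorem SR.lift_odd (h : SR L) {σ : Perm α} (hσ : sign σ = 1) {m : ℕ} (hm : Odd m) (h1 : σ ^ m = 1) :
    ∃ f, L σ f ∧ f ^ m = 1 := by
  obtain ⟨f, hf⟩ := h.ex σ hσ
  have := h.pow hf m
  rw [h1] at this
  rcases h.uniq this h.one with q | q
  · exact ⟨f, hf, q⟩
  · exact ⟨-f, h.neg hf, by rw [hm.neg_pow, q, neg_neg]⟩

theorem eq_zero_of_neg (h2 : (2 : k) ≠ 0) {f : End k V} (h : f = -f) : f = 0 := by
  have : (2 : k) • f = 0 := by rw [two_smul]; nth_rw 1 [h]; exact neg_add_cancel f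
  exact (smul_eq_zero.1 this).resolve_left h2

theorem SR.odd_conj (h2 : (2 : k) ≠ 0) (h : SR L) {σ τ g : Perm α} {F G H : End k V} {m : ℕ} (hm : Odd m)
    (hF : L σ F) (hG : L τ G) (hH : L g H) (h1 : F ^ m = 1) (h3 : G ^ m = 1) (hc : σ * g = g * τ) : F * H = H * G := by
  rcases h.uniq (hc ▸ h.mul hF hH) (h.mul hH hG) with q | q
  · exact q
  · have : SemiconjBy H (-G) F := by rw [SemiconjBy, q, mul_neg]
    have := (this.pow_right m).eq
    rw [hm.neg_pow, h1, h3, mul_neg, mul_one, one_mul] at this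
    rw [eq_zero_of_neg h2 this.symm, mul_zero, zero_mul]

theorem SR.comm3 (h2 : (2 : k) ≠ 0) (h : SR L) {σ y : Perm α} {f g : End k V} (hσ : sign σ = 1) (h3 : σ ^ 3 = 1)
    (hf : L σ f) (hg : L y g) (hc : σ * y = y * σ) : f * g = g * f := by
  obtain ⟨f0, q1, q2⟩ := h.lift_odd hσ (by decide) h3
  have := h.odd_conj h2 (by decide) q1 q1 hg q2 q2 hc
  rcases h.uniq hf q1 with q | q
  · rw [q, this]
  · rw [q, neg_mul, mul_neg, this]

theorem SR.cdt (h2 : (2 : k) ≠ 0) (h : SR L) {m : ℕ} (e : Fin m ↪ α) (a b c d : Fin m) (ρ : Perm (Fin m))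
    (hd : (sign (swap a b * swap b c) = 1 ∧ (swap a b * swap b c) ^ 3 = 1 ∧ swap a b * swap b c * ρ = ρ * (swap a b * swap b c)) ∧
      (sign (swap b c * swap c d) = 1 ∧ (swap b c * swap c d) ^ 3 = 1 ∧ swap b c * swap c d * ρ = ρ * (swap b c * swap c d)))
    {f g : End k V} (hf : L (E e (dt a b c d)) f) (hg : L (E e ρ) g) : f * g = g * f := by
  obtain ⟨f1, q1⟩ := h.exE e _ hd.1.1
  obtain ⟨f2, q2⟩ := h.exE e _ hd.2.1
  have c1 := h.comm3 h2 (by rw [E_sign, hd.1.1]) (by rw [← map_pow, hd.1.2.1, map_one]) q1 hg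
    (by rw [← map_mul, hd.1.2.2, map_mul])
  have c2 := h.comm3 h2 (by rw [E_sign, hd.2.1]) (by rw [← map_pow, hd.2.2.1, map_one]) q2 hg
    (by rw [← map_mul, hd.2.2.2, map_mul])
  have q3 := h.mul q1 q2
  rw [← map_mul, mul_assoc, ← mul_assoc (swap b c), swap_mul_self, one_mul] at q3
  have c3 : f1 * f2 * g = g * (f1 * f2) := by rw [mul_assoc, c2, ← mul_assoc, c1, mul_assoc]
  rcases h.uniq hf q3 with q | q
  · rw [q, c3]
  · rw [q, neg_mul, mul_neg, c3]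

theorem SR.anti (h2 : (2 : k) ≠ 0) (h : SR L) {m : ℕ} (e : Fin m ↪ α) (a b c d : Fin m)
    (hd : (a ≠ b ∧ a ≠ c ∧ a ≠ d ∧ b ≠ c ∧ b ≠ d ∧ c ≠ d) ∧ dt a b c d * dt a c b d = dt a d b c ∧
      dt a c b d * dt a b c d = dt a d b c)
    {f g : End k V} (hf : L (E e (dt a b c d)) f) (hg : L (E e (dt a c b d)) g) : f * g = -(g * f) := by
  obtain ⟨⟨d1, d2, d3, d4, d5, d6⟩, d7, d8⟩ := hd
  have q1 := h.mul hf hg
  have q2 := h.mul hg hf
  rw [← map_mul, d7] at q1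
  rw [← map_mul, d8] at q2
  rcases h.uniq q1 q2 with q | q
  · have s1 := h.sqE e a b c d ⟨d1, d2, d3, d4, d5, d6⟩ hf
    have s2 := h.sqE e a c b d ⟨d2, d1, d3, d4.symm, d6, d5⟩ hg
    have s3 := h.sqE e a d b c ⟨d3, d1, d2, d5.symm, d6.symm, d4⟩ q1
    rw [mul_assoc, ← mul_assoc g, ← q, mul_assoc, s2, ← mul_assoc, s1, neg_mul_neg, one_mul] at s3
    have s4 := eq_zero_of_neg h2 s3
    rw [← one_mul (f * g), ← one_mul (g * f), s4, zero_mul, zero_mul, neg_zero]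
  · exact q

theorem SR.linv (h : SR L) {σ : Perm α} (hσ : sign σ = 1) {f : End k V} (hf : L σ f) : ∃ g, L σ⁻¹ g ∧ g * f = 1 := by
  obtain ⟨g, hg⟩ := h.ex σ⁻¹ (by rw [sign_inv, hσ])
  have := h.mul hg hf
  rw [inv_mul_cancel] at this
  rcases h.uniq this h.one with q | q
  · exact ⟨g, hg, q⟩
  · exact ⟨-g, h.neg hg, by rw [neg_mul, q, neg_neg]⟩

theorem SR.nt [Nontrivial V] (h2 : (2 : k) ≠ 0) (h : SR L) (h5 : 5 ≤ Fintype.card α) {τ : Perm α} (hτ : sign τ = 1)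
    (h1 : τ ≠ 1) {f : End k V} (hf : L τ f) (l : k) : f ≠ l • 1 := by
  intro h0
  let N : Subgroup (alternatingGroup α) :=
    { carrier := {σ | ∃ l : k, L σ (l • 1)}
      one_mem' := ⟨1, by simpa using h.one⟩
      mul_mem' := by
        rintro a b ⟨x, hx⟩ ⟨y, hy⟩
        exact ⟨x * y, by simpa [smul_smul, mul_comm] using h.mul hx hy⟩
      inv_mem' := by
        rintro a ⟨x, hx⟩
        obtain ⟨g, hg, q⟩ := h.linv a.2 hx
        rw [mul_smul_comm, mul_one] at q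
        have hx0 : x ≠ 0 := fun q0 => by rw [q0, zero_smul] at q; exact zero_ne_one q
        exact ⟨x⁻¹, by rwa [← q, inv_smul_smul₀ hx0]⟩ }
  have : N.Normal := ⟨by
    rintro a ⟨x, hx⟩ g
    obtain ⟨G, hG⟩ := h.ex (g : Perm α)⁻¹ (by rw [sign_inv]; exact g.2)
    obtain ⟨G', hG', q⟩ := h.linv (by rw [sign_inv]; exact g.2) hG
    rw [inv_inv] at hG'
    have := h.mul (h.mul hG' hx) hG
    rw [mul_smul_comm, mul_one, smul_mul_assoc, q] at this
    exact ⟨x, this⟩⟩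
  rcases alternatingGroup.normal_subgroup_eq_bot_or_eq_top (α := α) (by simpa using h5) (N := N) with h3 | h3
  · have : (⟨τ, hτ⟩ : alternatingGroup α) ∈ N := ⟨l, h0 ▸ hf⟩
    rw [h3] at this
    exact h1 (congrArg Subtype.val this)
  · obtain ⟨e⟩ := exists_emb (α := α) (m := 4) (by omega)
    obtain ⟨x, hx⟩ : (⟨E e (dt 0 1 2 3), by rw [mem_alternatingGroup, E_sign]; decide⟩ : alternatingGroup α) ∈ N := by
      rw [h3]; trivial
    obtain ⟨y, hy⟩ : (⟨E e (dt 0 2 1 3), by rw [mem_alternatingGroup, E_sign]; decide⟩ : alternatingGroup α) ∈ N := by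
      rw [h3]; trivial
    have a1 := h.anti h2 e 0 1 2 3 (by decide) hx hy
    have a2 := h.sqE e 0 1 2 3 (by decide) hx
    have a3 := h.sqE e 0 2 1 3 (by decide) hy
    have a4 : (y • 1 : End k V) * x • 1 = x • 1 * y • 1 := by simp [smul_smul, mul_comm]
    rw [a4] at a1
    have a5 := eq_zero_of_neg h2 a1
    have a6 : (x • 1 * x • 1 : End k V) * (y • 1 * y • 1) = (x • 1 * y • 1) * (x • 1 * y • 1) := by
      simp [smul_smul, mul_comm, mul_left_comm]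
    rw [a2, a3, a5, neg_mul_neg, one_mul, zero_mul] at a6
    exact one_ne_zero a6

theorem half [FiniteDimensional k V] (h2 : (2 : k) ≠ 0) (W : Submodule k V) {s u u' : End k V}
    (hs : ∀ w ∈ W, s w ∈ W) (hss : s * s = 1) (hu : ∀ w ∈ W, u w ∈ W) (hu' : u' * u = 1) (hc : s * u = -(u * s)) :
    2 * finrank k (W ⊓ Eg s 1 : Submodule k V) ≤ finrank k W ∧ (W ≠ ⊥ → W ⊓ Eg s 1 ≠ ⊥) := by
  have st : ∀ l : k, ∀ w ∈ W ⊓ Eg s l, u w ∈ W ⊓ Eg s (-l) := fun l w hw => ⟨hu w hw.1, mem_Eg.2 (by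
    rw [← Module.End.mul_apply, hc, LinearMap.neg_apply, Module.End.mul_apply, mem_Eg.1 hw.2, map_smul, neg_smul])⟩
  constructor
  · have a1 := rk_le hu' (st 1)
    have n1 : (1 : k) ≠ -1 := fun q => h2 (by linear_combination q)
    have a2 := J_sum (fun _ : Unit => s) (fun (i : Fin 2) _ => ![1, -1] i) (by
      intro i j q
      have q0 := congrFun q ()
      fin_cases i <;> fin_cases j <;> simp_all [n1.symm]) (fun i => W ⊓ Eg s (![1, -1] i)) (fun _ => inf_le_right) W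
      (fun _ => inf_le_left)
    rw [Fin.sum_univ_two] at a2
    change finrank k (W ⊓ Eg s 1 : Submodule k V) + finrank k (W ⊓ Eg s (-1) : Submodule k V) ≤ _ at a2
    omega
  · intro h0
    obtain ⟨w, hw, hw0⟩ := (Submodule.ne_bot_iff _).1 h0
    rw [Submodule.ne_bot_iff]
    by_cases q : w + s w = 0
    · refine ⟨u w, by simpa using st (-1) w ⟨hw, mem_Eg.2 (by rw [neg_one_smul]; exact eq_neg_of_add_eq_zero_right q)⟩,
        fun q0 => hw0 ?_⟩
      have : (u' * u) w = w := by rw [hu']; rfl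
      rw [← this, Module.End.mul_apply, q0, map_zero]
    · refine ⟨w + s w, ⟨W.add_mem hw (hs w hw), mem_Eg.2 ?_⟩, q⟩
      rw [map_add, ← Module.End.mul_apply s s, hss, one_smul, add_comm]; rfl

theorem Eg_inv {s u : End k V} (hc : s * u = u * s) (l : k) : ∀ w ∈ Eg s l, u w ∈ Eg s l := fun w hw => mem_Eg.2 (by
  rw [← Module.End.mul_apply, hc, Module.End.mul_apply, mem_Eg.1 hw, map_smul])

theorem SLb8 (h2 : (2 : k) ≠ 0) : SLb k 8 8 := by
  intro β _ _ V _ _ _ _ L hc h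
  obtain ⟨e⟩ := exists_emb (α := β) (m := 8) hc.ge
  obtain ⟨X, hX⟩ := h.exE e (dt 0 1 2 3) (by decide)
  obtain ⟨Y, hY⟩ := h.exE e (dt 4 5 6 7) (by decide)
  obtain ⟨X', hX'⟩ := h.exE e (dt 0 2 1 3) (by decide)
  obtain ⟨Y', hY'⟩ := h.exE e (dt 4 6 5 7) (by decide)
  obtain ⟨U, hU⟩ := h.exE e (dt 0 4 1 5) (by decide)
  obtain ⟨U', hU'⟩ := h.exE e (dt 2 6 3 7) (by decide)
  obtain ⟨P, hP⟩ := h.exE e (dt 0 1 4 5) (by decide)
  obtain ⟨Q, hQ⟩ := h.exE e (dt 2 3 6 7) (by decide)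
  obtain ⟨R, hR⟩ := h.exE e (dt 0 2 4 6) (by decide)
  obtain ⟨R', hR'⟩ := h.exE e (dt 1 3 5 7) (by decide)
  obtain ⟨S, hS⟩ := h.exE e (dt 0 4 2 6) (by decide)
  obtain ⟨S', hS'⟩ := h.exE e (dt 1 5 3 7) (by decide)
  have sq2 : ∀ A B : End k V, A * A = -1 → B * B = -1 → A * B = B * A → A * B * (A * B) = 1 := fun A B p1 p2 p3 => by
    rw [mul_assoc, ← mul_assoc B, ← p3, mul_assoc, p2, ← mul_assoc, p1, neg_mul_neg, one_mul]
  have cm4 : ∀ A B C D : End k V, A * C = -(C * A) → B * D = -(D * B) → A * D = D * A → B * C = C * B →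
      A * B * (C * D) = C * D * (A * B) := fun A B C D p1 p2 p3 p4 => by
    calc A * B * (C * D) = A * (B * C) * D := by noncomm_ring
      _ = (A * C) * (B * D) := by rw [p4]; noncomm_ring
      _ = C * (A * D) * B := by rw [p1, p2]; noncomm_ring
      _ = _ := by rw [p3]; noncomm_ring
  have pm : ∀ A A' C C' : End k V, (A = A' ∨ A = -A') → (C = C' ∨ C = -C') → A' * C' = C' * A' → A * C = C * A := by
    rintro A A' C C' (rfl | rfl) (rfl | rfl) q <;> simp [q]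
  have XY := h.cdt h2 e 0 1 2 3 _ (by decide) hX hY
  have XY' := h.cdt h2 e 0 1 2 3 _ (by decide) hX hY'
  have X'Y := h.cdt h2 e 0 2 1 3 _ (by decide) hX' hY
  have X'Y' := h.cdt h2 e 0 2 1 3 _ (by decide) hX' hY'
  have XX' := h.anti h2 e 0 1 2 3 (by decide) hX hX'
  have YY' := h.anti h2 e 4 5 6 7 (by decide) hY hY'
  have UU' := h.cdt h2 e 0 4 1 5 _ (by decide) hU hU'
  have PQ := h.cdt h2 e 0 1 4 5 _ (by decide) hP hQ
  have PU := h.anti h2 e 0 1 4 5 (by decide) hP hU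
  have PU' := h.cdt h2 e 0 1 4 5 _ (by decide) hP hU'
  have sX := h.sqE e 0 1 2 3 (by decide) hX
  have sX' := h.sqE e 0 2 1 3 (by decide) hX'
  have sP := h.sqE e 0 1 4 5 (by decide) hP
  have a2 := sq2 X Y sX (h.sqE e 4 5 6 7 (by decide) hY) XY
  have b2 := sq2 X' Y' sX' (h.sqE e 4 6 5 7 (by decide) hY') X'Y'
  have c2 := sq2 U U' (h.sqE e 0 4 1 5 (by decide) hU) (h.sqE e 2 6 3 7 (by decide) hU') UU'
  have un : ∀ {σ τ ρ π : Perm (Fin 8)} {A B C D : End k V}, L (E e σ) A → L (E e τ) B → L (E e ρ) C → L (E e π) D →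
      σ * τ = ρ * π → A * B = C * D ∨ A * B = -(C * D) := fun p1 p2 p3 p4 q => by
    have q1 := h.mul p1 p2
    have q2 := h.mul p3 p4
    rw [← map_mul] at q1 q2
    rw [q] at q1
    exact h.uniq q1 q2
  have aPQ := un hX hY hP hQ (by decide)
  have ab := cm4 X Y X' Y' XX' YY' XY' X'Y.symm
  have ac := pm _ _ _ _ aPQ (.inl rfl) (cm4 P Q U U' PU (h.anti h2 e 2 3 6 7 (by decide) hQ hU') PU'
    (h.cdt h2 e 2 3 6 7 _ (by decide) hQ hU))
  have bc := pm _ _ _ _ (un hX' hY' hR hR' (by decide)) (un hU hU' hS hS' (by decide))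
    (cm4 R R' S S' (h.anti h2 e 0 2 4 6 (by decide) hR hS) (h.anti h2 e 1 3 5 7 (by decide) hR' hS')
      (h.cdt h2 e 0 2 4 6 _ (by decide) hR hS') (h.cdt h2 e 1 3 5 7 _ (by decide) hR' hS))
  have aX' : X * Y * X' = -(X' * (X * Y)) := by rw [mul_assoc, ← X'Y, ← mul_assoc, XX']; noncomm_ring
  have aX : X * Y * X = X * (X * Y) := by rw [mul_assoc, ← XY]
  have bX : X' * Y' * X = -(X * (X' * Y')) := by rw [mul_assoc, ← XY', ← mul_assoc, ← mul_assoc, XX']; noncomm_ring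
  have aP : X * Y * P = P * (X * Y) := pm _ _ _ _ aPQ (.inl rfl) (by rw [mul_assoc, ← PQ])
  have cP : U * U' * P = -(P * (U * U')) := by rw [mul_assoc, ← PU', ← mul_assoc, ← mul_assoc, PU]; noncomm_ring
  have hb := h.mul hX' hY'
  have hab := h.mul (h.mul hX hY) hb
  rw [← map_mul] at hb
  rw [← map_mul, ← map_mul, ← map_mul] at hab
  obtain ⟨a, ha, Pb⟩ : ∃ a, (a = X * Y ∨ a = -(X * Y)) ∧ P * (X' * Y') = a * (X' * Y') * P := by
    rcases un hP hb hab hP (by decide) with q | q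
    · exact ⟨_, .inl rfl, q⟩
    · exact ⟨_, .inr rfl, by rw [q, neg_mul, neg_mul]⟩
  have a2' : a * a = 1 := by rcases ha with rfl | rfl <;> simp [a2]
  have aX'' : a * X' = -(X' * a) := by rcases ha with rfl | rfl <;> simp [aX']
  have ab' := pm _ _ _ _ ha (.inl rfl) ab
  have ac' := pm _ _ _ _ ha (.inl rfl) ac
  have aX1 := pm _ _ _ _ ha (.inl rfl) aX
  have aP1 := pm _ _ _ _ ha (.inl rfl) aP
  have li : ∀ A : End k V, A * A = -1 → -A * A = 1 := fun A q => by rw [neg_mul, q, neg_neg]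
  obtain ⟨r1, n1⟩ := half h2 ⊤ (fun _ _ => trivial) a2' (fun _ _ => trivial) (li _ sX') aX''
  rw [top_inf_eq] at r1 n1
  obtain ⟨r2, n2⟩ := half h2 (Eg a 1) (Eg_inv ab' 1) b2 (Eg_inv aX1 1) (li _ sX) bX
  obtain ⟨r3, n3⟩ := half h2 (Eg a 1 ⊓ Eg (X' * Y') 1) (fun w hw => ⟨Eg_inv ac' 1 w hw.1, Eg_inv bc 1 w hw.2⟩) c2
    (fun w hw => ⟨Eg_inv aP1 1 w hw.1, mem_Eg.2 (by
      have q1 := mem_Eg.1 (Eg_inv aP1 1 w hw.1)
      have q2 := LinearMap.congr_fun Pb w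
      rw [Module.End.mul_apply, mem_Eg.1 hw.2, one_smul, Module.End.mul_apply, ab', Module.End.mul_apply, q1,
        one_smul] at q2
      rw [one_smul, ← q2])⟩) (li _ sP) cP
  have := Submodule.one_le_finrank_iff.2 (n3 (n2 (n1 top_ne_bot)))
  rw [finrank_top] at r1
  omega

end H28.Al
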