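import Cfsg.Agent.H28.Al5

/-!
# Lower bounds for spin representations of alternating groups
-/

set_option autoImplicit false

open Module Equiv Equiv.Perm

namespace H28.Al

universe u

variable {k : Type u} [Field k]

theorem SLb.step [IsAlgClosed k] (h2 : (2 : k) ≠ 0) {m d : ℕ} (hm : 2 ≤ m) (hL : SLb k m d) : SLb k (m + 3) (2 * d) := by
  intro β _ _ V _ _ _ _ L hc h
  obtain ⟨e⟩ := exists_emb (α := β) (m := 3) (by omega)
  obtain ⟨f, hf⟩ := h.exE e (c3 0 1 2) (by decide)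
  have hL' : SLb k (Fintype.card β - (Finset.univ.map e).card) d := by simpa [hc] using hL
  have cm : ∀ y g, Fx (Finset.univ.map e) y → L y g → f * g = g * f := fun y g hy hg =>
    h.comm3 h2 (by rw [E_sign]; decide) (by rw [← map_pow, show c3 (0 : Fin 3) 1 2 ^ 3 = 1 by decide, map_one]) hf hg
      (hy.comm _ (by decide)).symm
  obtain ⟨l, v, -, hv0, hv⟩ := exists_eig f ⊤ top_ne_bot (fun _ _ => trivial)
  have cm' : ∀ y g, Fx (Finset.univ.map e) y → L y g → ∀ w, (f - l • (1 : End k V)) (g w) = g ((f - l • (1 : End k V)) w) :=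
    fun y g hy hg w => by
      have := LinearMap.congr_fun (cm y g hy hg) w
      simp only [Module.End.mul_apply] at this
      simp [this]
  have a1 := h.res _ hL' (LinearMap.ker (f - l • (1 : End k V)))
    ((Submodule.ne_bot_iff _).2 ⟨v, by simp [hv], hv0⟩) (fun y g hy hg w hw => by
      rw [LinearMap.mem_ker] at hw ⊢
      rw [cm' y g hy hg, hw, map_zero])
  have a2 := h.res _ hL' (LinearMap.range (f - l • (1 : End k V)))
    (fun q => h.nt h2 (by omega) (by rw [E_sign]; decide) (fun q1 => absurd (E_inj e (q1.trans (map_one _).symm))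
      (by decide)) hf l (sub_eq_zero.1 (LinearMap.range_eq_bot.1 q))) (by
      rintro y g hy hg _ ⟨w, rfl⟩
      exact ⟨g w, cm' y g hy hg w⟩)
  have := LinearMap.finrank_range_add_finrank_ker (f - l • (1 : End k V))
  omega

theorem SLb4 (h2 : (2 : k) ≠ 0) : SLb k 4 2 := by
  intro β _ _ V _ _ _ _ L hc h
  obtain ⟨e⟩ := exists_emb (α := β) (m := 4) hc.ge
  obtain ⟨X, hX⟩ := h.exE e (dt 0 1 2 3) (by decide)
  obtain ⟨Y, hY⟩ := h.exE e (dt 0 2 1 3) (by decide)
  by_contra hlt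
  obtain ⟨x, hx⟩ := scal1 X ⊤ (by rw [finrank_top]; omega) (fun _ _ => trivial)
  obtain ⟨y, hy⟩ := scal1 Y ⊤ (by rw [finrank_top]; omega) (fun _ _ => trivial)
  have a1 := h.anti h2 e 0 1 2 3 (by decide) hX hY
  have a2 := h.sqE e 0 1 2 3 (by decide) hX
  have a3 := h.sqE e 0 2 1 3 (by decide) hY
  have a4 : Y * X = X * Y := by
    ext w; simp only [Module.End.mul_apply, hx _ trivial, hy _ trivial]; rw [smul_comm]
  rw [a4] at a1
  have a5 := eq_zero_of_neg h2 a1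
  have a6 : X * X * (Y * Y) = 0 := by rw [mul_assoc, ← mul_assoc X Y, a5, zero_mul, mul_zero]
  rw [a2, a3, neg_mul_neg, one_mul] at a6
  exact one_ne_zero a6

/-- the orbit of weights used in degree ten -/
def orb (j : Fin 5) (x : Fin 4 × Fin 2 × Fin 2) : Fin 5 × Fin 5 :=
  (fun y : Fin 5 × Fin 5 => (2 * y.1, 2 * y.2))^[x.1] ((fun y : Fin 5 × Fin 5 => (y.1, 4 * y.2))^[x.2.1]
    ((fun y : Fin 5 × Fin 5 => (y.2, 2 * y.1))^[x.2.2] (1, j)))

theorem orb_inj : ∀ j : Fin 5, j ≠ 0 → Function.Injective (orb j) := by decide +kernel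

theorem SLb10 [IsAlgClosed k] (h2 : (2 : k) ≠ 0) (h5 : (5 : k) ≠ 0) : SLb k 10 9 := by
  intro β _ _ V _ _ _ _ L hc h
  obtain ⟨e⟩ := exists_emb (α := β) (m := 10) hc.ge
  let s : Perm (Fin 10) := swap 0 4 * swap 0 3 * swap 0 2 * swap 0 1
  let t : Perm (Fin 10) := swap 5 9 * swap 5 8 * swap 5 7 * swap 5 6
  obtain ⟨S, hS, S5⟩ := h.lift_odd (σ := E e s) (by rw [E_sign]; decide +kernel) (m := 5) (by decide)
    (by rw [← map_pow, show s ^ 5 = 1 by decide +kernel, map_one])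
  obtain ⟨T, hT, T5⟩ := h.lift_odd (σ := E e t) (by rw [E_sign]; decide +kernel) (m := 5) (by decide)
    (by rw [← map_pow, show t ^ 5 = 1 by decide +kernel, map_one])
  have p5 : ∀ (A : End k V) (n : ℕ), A ^ 5 = 1 → (A ^ n) ^ 5 = 1 := fun A n q => by
    rw [← pow_mul, mul_comm, pow_mul, q, one_pow]
  have cj : ∀ (σ τ g : Perm (Fin 10)) (n : ℕ) (A B G : End k V), L (E e σ) A → L (E e τ) B → L (E e g) G → A ^ 5 = 1 →
      B ^ 5 = 1 → σ * g = g * τ ^ n → ∀ (μ : k) (v : V), B v = μ • v → A (G v) = μ ^ n • G v := by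
    intro σ τ g n A B G q1 q2 q3 q4 q5 q6 μ v hv
    have := h.odd_conj h2 (by decide) q1 (h.pow q2 n) q3 q4 (p5 B n q5) (by rw [← map_pow, ← map_mul, q6, map_mul])
    have q7 : ∀ n : ℕ, (B ^ n) v = μ ^ n • v := fun n => by
      induction n with
      | zero => simp
      | succ n ih => rw [pow_succ', Module.End.mul_apply, ih, map_smul, hv, smul_smul, pow_succ]
    rw [← Module.End.mul_apply, this, Module.End.mul_apply, q7, map_smul]
  have ne0 : ∀ (g : Perm (Fin 10)) (G : End k V), sign g = 1 → L (E e g) G → ∀ v, v ≠ 0 → G v ≠ 0 := by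
    intro g G q1 q2 v hv h0
    obtain ⟨G', -, q⟩ := h.linv (by rw [E_sign, q1]) q2
    have : (G' * G) v = v := by rw [q]; rfl
    exact hv (by rw [← this, Module.End.mul_apply, h0, map_zero])
  obtain ⟨l, hl, v, hv0, hv⟩ := exists5 h5 S S5 (by
    by_contra q
    push Not at q
    exact h.nt h2 (by omega) (by rw [E_sign]; decide +kernel)
      (fun q1 => absurd (E_inj e (q1.trans (map_one _).symm)) (by decide +kernel)) hS 1 (by ext x; simp [q]))
  let g1 : Perm (Fin 10) := (swap 1 2 * swap 1 4 * swap 1 3) * (swap 6 7 * swap 6 9 * swap 6 8)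
  let g2 : Perm (Fin 10) := dt 6 9 7 8
  let g3 : Perm (Fin 10) := (swap 6 7 * swap 6 9 * swap 6 8) * (swap 0 5 * swap 1 6 * swap 2 7 * swap 3 8 * swap 4 9)
  obtain ⟨G1, hG1⟩ := h.exE e g1 (by decide +kernel)
  obtain ⟨G2, hG2⟩ := h.exE e g2 (by decide +kernel)
  obtain ⟨G3, hG3⟩ := h.exE e g3 (by decide +kernel)
  have ST : S * T = T * S := h.odd_conj h2 (by decide) hS hS hT S5 S5 (by
    rw [← map_mul, ← map_mul, show s * t = t * s by decide +kernel])
  obtain ⟨μ, w, hw, hw0, hμ⟩ := exists_eig T (Eg S l) ((Submodule.ne_bot_iff _).2 ⟨v, mem_Eg.2 hv, hv0⟩) (Eg_inv ST l)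
  rw [mem_Eg] at hw
  have hμ5 : μ ^ 5 = 1 := by
    have q7 : ∀ n : ℕ, (T ^ n) w = μ ^ n • w := fun n => by
      induction n with
      | zero => simp
      | succ n ih => rw [pow_succ', Module.End.mul_apply, ih, map_smul, hμ, smul_smul, pow_succ]
    have := q7 5
    rw [T5] at this
    exact (smul_left_injective k hw0 ((one_smul k w).trans this)).symm
  obtain ⟨j, hj, rfl⟩ := hl.eq_pow_of_pow_eq_one hμ5
  have pw : ∀ (a : Fin 5) (n : ℕ) (b : Fin 5), (b : ℕ) = n → l ^ ((b * a : Fin 5) : ℕ) = (l ^ (a : ℕ)) ^ n := by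
    rintro a _ b rfl
    rw [Fin.val_mul, ← pow_mul, mul_comm (a : ℕ), ← pow_eq_pow_mod _ hl.pow_eq_one]
  let P : Fin 5 × Fin 5 → Prop := fun y => ∃ u, u ≠ 0 ∧ S u = l ^ (y.1 : ℕ) • u ∧ T u = l ^ (y.2 : ℕ) • u
  have P1 : ∀ y, P y → P (2 * y.1, 2 * y.2) := by
    rintro y ⟨u, u0, u1, u2⟩
    exact ⟨G1 u, ne0 _ _ (by decide +kernel) hG1 u u0,
      by rw [pw _ 2 2 rfl]; exact cj s s g1 2 _ _ _ hS hS hG1 S5 S5 (by decide +kernel) _ u u1,
      by rw [pw _ 2 2 rfl]; exact cj t t g1 2 _ _ _ hT hT hG1 T5 T5 (by decide +kernel) _ u u2⟩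
  have P2 : ∀ y, P y → P (y.1, 4 * y.2) := by
    rintro y ⟨u, u0, u1, u2⟩
    exact ⟨G2 u, ne0 _ _ (by decide +kernel) hG2 u u0,
      by simpa using cj s s g2 1 _ _ _ hS hS hG2 S5 S5 (by decide +kernel) _ u u1,
      by rw [pw _ 4 4 rfl]; exact cj t t g2 4 _ _ _ hT hT hG2 T5 T5 (by decide +kernel) _ u u2⟩
  have P3 : ∀ y, P y → P (y.2, 2 * y.1) := by
    rintro y ⟨u, u0, u1, u2⟩
    exact ⟨G3 u, ne0 _ _ (by decide +kernel) hG3 u u0,
      by simpa using cj s t g3 1 _ _ _ hS hT hG3 S5 T5 (by decide +kernel) _ u u2,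
      by rw [pw _ 2 2 rfl]; exact cj t s g3 2 _ _ _ hT hS hG3 T5 S5 (by decide +kernel) _ u u1⟩
  have P0 : P (1, ⟨j, hj⟩) := ⟨w, hw0, by simpa using hw, hμ⟩
  have it : ∀ (φ : Fin 5 × Fin 5 → Fin 5 × Fin 5), (∀ y, P y → P (φ y)) → ∀ n y, P y → P (φ^[n] y) := by
    intro φ hφ n
    induction n with
    | zero => exact fun y hy => hy
    | succ n ih => exact fun y hy => ih _ (hφ y hy)
  have Po : ∀ x, P (orb ⟨j, hj⟩ x) := fun x => it _ P1 _ _ (it _ P2 _ _ (it _ P3 _ _ P0))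
  by_cases j0 : (⟨j, hj⟩ : Fin 5) = 0
  · rw [j0] at Po
    have hL : SLb k (Fintype.card β - (({0, 1, 2, 3, 4} : Finset (Fin 10)).map e).card) 2 :=
      (SLb4 h2).up (by rw [hc, Finset.card_map]; decide)
    have two : ∀ i : Fin 5, (∃ y, P y ∧ y.1 = i) → 2 ≤ finrank k (Eg S (l ^ (i : ℕ))) := by
      rintro _ ⟨y, ⟨u, u0, u1, -⟩, rfl⟩
      refine h.res _ hL _ ((Submodule.ne_bot_iff _).2 ⟨u, mem_Eg.2 u1, u0⟩) fun z g hz hg => Eg_inv ?_ _
      exact h.odd_conj h2 (by decide) hS hS hg S5 S5 (hz.comm s (by decide +kernel)).symm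
    have b4 := Eg_sum S _ (prim_inj hl)
    rw [Fin.sum_univ_five] at b4
    have t0 := two 0 ⟨_, Po (0, 0, 1), by decide +kernel⟩
    have t1 := two 1 ⟨_, Po (0, 0, 0), by decide +kernel⟩
    have t2 := two 2 ⟨_, Po (1, 0, 0), by decide +kernel⟩
    have t3 := two 3 ⟨_, Po (3, 0, 0), by decide +kernel⟩
    have t4 := two 4 ⟨_, Po (2, 0, 0), by decide +kernel⟩
    omega
  · have := J_card ![S, T] (fun x => ![l ^ ((orb ⟨j, hj⟩ x).1 : ℕ), l ^ ((orb ⟨j, hj⟩ x).2 : ℕ)]) (fun x y q =>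
      orb_inj _ j0 (Prod.ext (prim_inj hl (congrFun q 0)) (prim_inj hl (congrFun q 1)))) ⊤ (fun x => by
        obtain ⟨u, u0, u1, u2⟩ := Po x
        exact ⟨u, trivial, u0, by rw [mem_J, Fin.forall_fin_two]; exact ⟨u1, u2⟩⟩)
    rw [finrank_top] at this
    simp only [Fintype.card_prod, Fintype.card_fin] at this
    omega

theorem SLb_weak [IsAlgClosed k] (h2 : (2 : k) ≠ 0) (r : ℕ) : 8 ≤ r → SLb k r (r - 2) := by
  induction r using Nat.strong_induction_on with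
  | _ r ih =>
    intro hr
    by_cases q : r ≤ 10
    · exact ((SLb8 h2).up hr).mono (by omega)
    · have := (ih (r - 3) (by omega) (by omega)).step h2 (by omega)
      rw [show r - 3 + 3 = r by omega] at this
      exact this.mono (by omega)

theorem SLb_all [IsAlgClosed k] (p : ℕ) [Fact p.Prime] [CharP k p] (h2 : (2 : k) ≠ 0) {r : ℕ} (hr : 9 ≤ r) :
    SLb k r (r - 1 - if p ∣ r then 1 else 0) := by
  by_cases q : r ≤ 9
  · exact ((SLb8 h2).up (by omega)).mono (by omega)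
  by_cases q1 : r = 10
  · subst q1
    split_ifs with hp
    · exact (SLb8 h2).up (by omega)
    · exact SLb10 h2 fun h5 => hp (((CharP.cast_eq_zero_iff k p 5).1 h5).trans (by norm_num))
  · have := (SLb_weak h2 (r - 3) (by omega)).step h2 (by omega)
    rw [show r - 3 + 3 = r by omega] at this
    exact this.mono (by omega)

end H28.Al
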