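import Cfsg.Agent.H28.Al6
import Cfsg.Agent.H16.Sm1

/-!
# Central extensions of alternating groups, change of field, abelian normal subgroups
-/

set_option autoImplicit false

open Module Equiv Equiv.Perm

namespace H28.Al

universe u v

theorem Lb_hom {k V : Type u} [Field k] [AddCommGroup V] [Module k V] [FiniteDimensional k V] {r d : ℕ}
    (hL : Lb k r d) (ψ : alternatingGroup (Fin r) →* End k V) (hψ : ∃ σ, ψ σ ≠ 1) : d ≤ finrank k V := by
  obtain ⟨σ, hσ⟩ := hψ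
  refine hL (Fin r) V (fun σ => if h : sign σ = 1 then ψ ⟨σ, h⟩ else 1) (Fintype.card_fin r) ⟨?_, fun a b ha hb => ?_⟩
    ⟨σ, σ.2, by rw [dif_pos (show sign (σ : Perm (Fin r)) = 1 from σ.2)]; exact hσ⟩
  · rw [dif_pos (map_one _)]; exact map_one ψ
  · rw [dif_pos ha, dif_pos hb, dif_pos (by rw [map_mul, ha, hb]; rfl)]
    exact map_mul ψ ⟨a, ha⟩ ⟨b, hb⟩

/-- change of field -/
theorem exists_ext (F : Type u) [Field F] (n : ℕ) :
    ∃ Φ : Matrix (Fin n) (Fin n) F →* End (AlgebraicClosure F) (Fin n → AlgebraicClosure F), Function.Injective Φ :=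
  ⟨(Matrix.toLinAlgEquiv' (R := AlgebraicClosure F) (n := Fin n)).toMulEquiv.toMonoidHom.comp
    (algebraMap F (AlgebraicClosure F)).mapMatrix.toMonoidHom,
    (Matrix.toLinAlgEquiv' (R := AlgebraicClosure F) (n := Fin n)).injective.comp
      (Matrix.map_injective (algebraMap F (AlgebraicClosure F)).injective)⟩

theorem autb {M : Type v} [CommGroup M] [Finite M] (l : ℕ) [Fact l.Prime] (hl : ∀ x : M, x ^ l = 1) {r : ℕ} (hr : 9 ≤ r)
    (ψ : alternatingGroup (Fin r) →* MulAut M) (hψ : ∃ σ, ψ σ ≠ 1) : 2 ^ (r - 2) ≤ Nat.card M := by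
  let _ : Module (ZMod l) (Additive M) := AddCommGroup.zmodModule (n := l) fun x => hl x.toMul
  have : Module.Finite (ZMod l) (Additive M) := Module.Finite.of_finite
  let θ : MulAut M →* End (ZMod l) (Additive M) :=
    { toFun := fun a => (MonoidHom.toAdditive a.toMonoidHom).toZModLinearMap l
      map_one' := rfl
      map_mul' := fun _ _ => rfl }
  have hθ : Function.Injective θ := fun a b q => MulEquiv.ext fun x => LinearMap.congr_fun q (Additive.ofMul x)
  let b := Module.finBasis (ZMod l) (Additive M)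
  obtain ⟨Φ, hΦ⟩ := exists_ext (ZMod l) (finrank (ZMod l) (Additive M))
  obtain ⟨σ, hσ⟩ := hψ
  have := Lb_hom (Lb_all (k := AlgebraicClosure (ZMod l)) l hr)
    (Φ.comp ((LinearMap.toMatrixAlgEquiv b).toMulEquiv.toMonoidHom.comp (θ.comp ψ))) ⟨σ, fun q => hσ (hθ
      ((LinearMap.toMatrixAlgEquiv b).injective (hΦ (q.trans (by simp)))))⟩
  rw [Module.finrank_fintype_fun_eq_card, Fintype.card_fin] at this
  have h1 : Nat.card (Additive M) = l ^ finrank (ZMod l) (Additive M) := by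
    rw [Module.natCard_eq_pow_finrank (K := ZMod l), Nat.card_zmod]
  change _ ≤ Nat.card (Additive M)
  rw [h1]
  exact (Nat.pow_le_pow_right two_pos (by split_ifs at this <;> omega)).trans
    (Nat.pow_le_pow_left (Fact.out : l.Prime).two_le _)

variable {k V : Type u} [Field k] [AddCommGroup V] [Module k V] [FiniteDimensional k V] {G : Type v} [Group G]

theorem inj4' {β : Type*} {a b c d : β} (h : a ≠ b ∧ a ≠ c ∧ a ≠ d ∧ b ≠ c ∧ b ≠ d ∧ c ≠ d) :
    Function.Injective ![a, b, c, d] := by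
  intro i j; fin_cases i <;> fin_cases j <;> simp_all [eq_comm]

theorem central [IsAlgClosed k] (p : ℕ) [Fact p.Prime] [CharP k p] {r : ℕ} (hr : 9 ≤ r)
    (φ : G →* alternatingGroup (Fin r)) (hφ : Function.Surjective φ) (ρ : G →* End k V) (hρ : Function.Injective ρ)
    (hK : ∀ g, φ g = 1 → ρ g = 1 ∨ ρ g = -1) : (r - 1 - if p ∣ r then 1 else 0) ≤ finrank k V := by
  obtain ⟨m, rfl⟩ : ∃ m, r = m + 1 := ⟨r - 1, by omega⟩
  let π : G →* Perm (Fin (m + 1)) := (Subgroup.subtype _).comp φ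
  have ex : ∀ σ, sign σ = 1 → ∃ g, π g = σ := fun σ hσ => by
    obtain ⟨g, hg⟩ := hφ ⟨σ, hσ⟩; exact ⟨g, congrArg Subtype.val hg⟩
  have hK' : ∀ g, π g = 1 → ρ g = 1 ∨ ρ g = -1 := fun g hg => hK g (Subtype.ext hg)
  by_cases hA : ∀ g a b c d, (a ≠ b ∧ a ≠ c ∧ a ≠ d ∧ b ≠ c ∧ b ≠ d ∧ c ≠ d) → π g = dt a b c d → g * g = 1
  · have : ∀ i, ∃ c : G, i + 1 < m → c ^ 3 = 1 ∧ π c = H16.Sm.s m i * H16.Sm.s m (i + 1) := fun i => by
      by_cases h : i + 1 < m
      · have h3 := H16.Sm.s_three h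
        obtain ⟨g, hg⟩ := ex _ h3.sign
        have h4 : π g ^ 3 = 1 := by rw [hg, ← h3.orderOf, pow_orderOf_eq_one]
        have h5 : g ^ 3 * g ^ 3 = 1 := hρ (by
          rcases hK' (g ^ 3) (by rw [map_pow, h4]) with q | q <;> simp only [map_mul, q, map_one] <;> simp)
        refine ⟨g ^ 4, fun _ => ⟨?_, by rw [map_pow, pow_succ, h4, one_mul, hg]⟩⟩
        calc (g ^ 4) ^ 3 = (g ^ 3 * g ^ 3) * (g ^ 3 * g ^ 3) := by group
          _ = 1 := by rw [h5, one_mul]
      · exact ⟨1, fun h' => absurd h' h⟩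
    choose c hc using this
    let x : ℕ → G := fun i => Nat.rec 1 (fun i y => y * c i) i
    have hx1 : ∀ i, x (i + 1) = x i * c i := fun _ => rfl
    have hx : ∀ i < m, π (x i) = H16.Sm.s m 0 * H16.Sm.s m i := fun i => by
      induction i with
      | zero => exact fun _ => by rw [H16.Sm.s_sq]; exact map_one π
      | succ i ih =>
        intro h
        rw [hx1, map_mul, ih (by omega), (hc i h).2, mul_assoc, ← mul_assoc (H16.Sm.s m i), H16.Sm.s_sq, one_mul]
    have hu : ∀ i < m, ∀ j < m, π ((x i)⁻¹ * x j) = H16.Sm.s m i * H16.Sm.s m j := fun i hi j hj => by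
      rw [map_mul, map_inv, hx i hi, hx j hj, mul_inv_rev, H16.Sm.s_inv, H16.Sm.s_inv, mul_assoc,
        ← mul_assoc (H16.Sm.s m 0), H16.Sm.s_sq, one_mul]
    obtain ⟨f, hf⟩ := L.exists_hom_alt (n := m) (fun i => x i) (fun i j h => by
      rw [← h, hx1, inv_mul_cancel_left]; exact (hc i (by omega)).1) (fun i j h => by
      rw [sq]
      refine hA _ ⟨i, by omega⟩ ⟨i + 1, by omega⟩ ⟨j, by omega⟩ ⟨j + 1, by omega⟩ (by simp [Fin.ext_iff]; omega) ?_
      rw [hu i i.2 j j.2, H16.Sm.s, H16.Sm.s, dif_pos i.2, dif_pos j.2]; rfl)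
    refine Lb_hom (Lb_all p hr) (ρ.comp f) ⟨⟨swap (⟨0, by omega⟩ : Fin m).castSucc (⟨0, by omega⟩ : Fin m).succ *
      swap (⟨1, by omega⟩ : Fin m).castSucc (⟨1, by omega⟩ : Fin m).succ, by
        rw [mem_alternatingGroup, map_mul, sign_swap Fin.castSucc_lt_succ.ne, sign_swap Fin.castSucc_lt_succ.ne]; rfl⟩,
      fun q => ?_⟩
    rw [MonoidHom.comp_apply, hf, ← map_one ρ] at q
    have h1 := hu 0 (by omega) 1 (by omega)
    rw [show (x 0)⁻¹ * x 1 = 1 from hρ q, map_one] at h1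
    exact (H16.Sm.s_three (m := m) (i := 0) (by omega)).isCycle.ne_one h1.symm
  · push Not at hA
    obtain ⟨g0, a, b, c, d, hd, hg0, hne⟩ := hA
    have dsq : ∀ a b c d : Fin (m + 1), (a ≠ b ∧ a ≠ c ∧ a ≠ d ∧ b ≠ c ∧ b ≠ d ∧ c ≠ d) → dt a b c d * dt a b c d = 1 := by
      intro a b c d hd
      have := congrArg (E ⟨![a, b, c, d], inj4' hd⟩) (show dt (0 : Fin 4) 1 2 3 * dt 0 1 2 3 = 1 by decide)
      rwa [map_one, map_mul, dt, map_mul, E_swap, E_swap] at this
    have hm : ρ (g0 * g0) = -1 := (hK' _ (by rw [map_mul, hg0, dsq a b c d hd])).resolve_left fun q =>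
      hne (hρ (q.trans (map_one ρ).symm))
    have h2 : (2 : k) ≠ 0 := fun q => hne (hρ (by
      rw [hm, map_one, neg_eq_iff_add_eq_zero, ← two_smul k, q, zero_smul]))
    have : Nontrivial V := by
      by_contra q
      rw [not_nontrivial_iff_subsingleton] at q
      exact hne (hρ (Subsingleton.elim _ _))
    have un : ∀ g g', π g = π g' → ρ g = ρ g' ∨ ρ g = -ρ g' := fun g g' q => by
      have e1 : ρ g = ρ g' * ρ (g'⁻¹ * g) := by rw [← map_mul, mul_inv_cancel_left]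
      rcases hK' (g'⁻¹ * g) (by rw [map_mul, map_inv, q, inv_mul_cancel]) with q1 | q1
      · left; rw [e1, q1, mul_one]
      · right; rw [e1, q1, mul_neg, mul_one]
    refine SLb_all p h2 hr (Fin (m + 1)) V (fun σ f => ∃ g, π g = σ ∧ (f = ρ g ∨ f = -ρ g)) (Fintype.card_fin _)
      ⟨fun σ hσ => ?_, ?_, ⟨1, map_one _, .inl (map_one ρ).symm⟩, ?_, ?_, ?_⟩
    · obtain ⟨g, hg⟩ := ex σ hσ; exact ⟨_, g, hg, .inl rfl⟩
    · rintro _ _ _ _ ⟨g, rfl, rfl | rfl⟩ ⟨g', rfl, rfl | rfl⟩ <;> exact ⟨g * g', map_mul _ _ _, by simp⟩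
    · rintro _ _ ⟨g, rfl, rfl | rfl⟩ <;> exact ⟨g, rfl, by simp⟩
    · rintro _ _ _ ⟨g, rfl, rfl | rfl⟩ ⟨g', q, rfl | rfl⟩ <;> rcases un g g' q.symm with q1 | q1 <;> simp [q1]
    · rintro a' b' c' d' f hd' ⟨g, hg, hf⟩
      obtain ⟨y, hy, hy1⟩ := trans_emb (m := 4) (by simp; omega) ⟨![a, b, c, d], inj4' hd⟩ ⟨![a', b', c', d'], inj4' hd'⟩
      obtain ⟨H, rfl⟩ := ex y hy
      have e1 : π (H * g0 * H⁻¹) = π g := by
        rw [hg, ← show π H a = a' from hy1 0, ← show π H b = b' from hy1 1, ← show π H c = c' from hy1 2,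
          ← show π H d = d' from hy1 3, dt, swap_apply_apply, swap_apply_apply, map_mul, map_mul, map_inv, hg0, dt]
        group
      have e2 : ρ (H * g0 * H⁻¹) * ρ (H * g0 * H⁻¹) = -1 := by
        rw [← map_mul, show H * g0 * H⁻¹ * (H * g0 * H⁻¹) = H * (g0 * g0) * H⁻¹ by group, map_mul, map_mul, hm,
          mul_neg, mul_one, neg_mul, ← map_mul, mul_inv_cancel, map_one]
      rcases un _ _ e1 with q | q <;> rw [q] at e2 <;> rcases hf with rfl | rfl <;> simpa using e2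

theorem common_eig [IsAlgClosed k] [Nontrivial V] {ι : Type*} (T : ι → End k V) (hT : ∀ i j, T i * T j = T j * T i) :
    ∃ χ : ι → k, J T χ ≠ ⊥ := by
  classical
  have hex : ∃ n, ∃ W : Submodule k V, W ≠ ⊥ ∧ (∀ i, ∀ w ∈ W, T i w ∈ W) ∧ finrank k W = n :=
    ⟨_, ⊤, top_ne_bot, fun _ _ _ => trivial, rfl⟩
  obtain ⟨W, h0, h1, h2⟩ := Nat.find_spec hex
  have : ∀ i, ∃ l : k, W ≤ Eg (T i) l := fun i => by
    obtain ⟨l, w, hw, hw0, hl⟩ := exists_eig (T i) W h0 (h1 i)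
    have h3 := Nat.find_min' hex ⟨W ⊓ Eg (T i) l, (Submodule.ne_bot_iff _).2 ⟨w, ⟨hw, mem_Eg.2 hl⟩, hw0⟩,
      fun j u hu => ⟨h1 j u hu.1, Eg_inv (hT i j) l u hu.2⟩, rfl⟩
    have h4 := Submodule.eq_of_le_of_finrank_le (inf_le_left : W ⊓ Eg (T i) l ≤ W) (h2 ▸ h3)
    exact ⟨l, h4 ▸ inf_le_right⟩
  choose χ hχ using this
  exact ⟨χ, fun q => h0 (eq_bot_iff.2 fun w hw => q ▸ fun i => mem_Eg.1 (hχ i hw))⟩

theorem fact_lt {r n : ℕ} (hr : 9 ≤ r) (hn : n ≤ r - 2) : n.factorial < r.factorial / 2 := by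
  obtain ⟨m, rfl⟩ : ∃ m, r = m + 2 := ⟨r - 2, by omega⟩
  have h1 := Nat.factorial_le (show n ≤ m by omega)
  have h2 := Nat.factorial_pos m
  rw [Nat.factorial_succ, Nat.factorial_succ, Nat.lt_div_iff_mul_lt' (by
    rw [← mul_assoc, mul_comm (m + 1 + 1)]; exact (Nat.even_mul_succ_self (m + 1)).two_dvd.mul_right _)]
  nlinarith [Nat.mul_le_mul (show 9 ≤ m + 1 + 1 by omega) (Nat.mul_le_mul (show 1 ≤ m + 1 by omega) (le_refl m.factorial))]

theorem ab_scalar [IsAlgClosed k] [Nontrivial V] [Finite G] {r : ℕ} (hr : 9 ≤ r) (hn : finrank k V ≤ r - 2)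
    (φ : G →* alternatingGroup (Fin r)) (hφ : Function.Surjective φ) (ρ : G →* End k V)
    (hN : ∀ N : Subgroup G, N.Normal → N ≤ φ.ker ∨ N = ⊤)
    (irr : ∀ W : Submodule k V, (∀ g, ∀ w ∈ W, ρ g w ∈ W) → W = ⊥ ∨ W = ⊤)
    (A : Subgroup G) [hA : A.Normal] (hc : ∀ a ∈ A, ∀ b ∈ A, a * b = b * a) : ∀ a ∈ A, ∃ l : k, ρ a = l • 1 := by
  classical
  let T : A → End k V := fun a => ρ a
  let X := {χ : A → k // J T χ ≠ ⊥}
  have act : ∀ (g : G) (χ : A → k), ∀ v ∈ J T χ, ρ g v ∈ J T fun a => χ ⟨g⁻¹ * a * g, hA.conj_mem' _ a.2 g⟩ := by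
    intro g χ v hv a
    have := hv ⟨g⁻¹ * a * g, hA.conj_mem' _ a.2 g⟩
    change ρ (g⁻¹ * a * g) v = _ at this
    change ρ a (ρ g v) = _
    rw [← map_smul, ← this, ← Module.End.mul_apply, ← Module.End.mul_apply, ← map_mul, ← map_mul]
    congr 2; group
  have ne0 : ∀ g v, v ≠ 0 → ρ g v ≠ 0 := fun g v hv q => hv (by
    have : ρ g⁻¹ (ρ g v) = v := by rw [← Module.End.mul_apply, ← map_mul, inv_mul_cancel, map_one]; rfl
    rw [← this, q, map_zero])
  let _ : MulAction G X :=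
    { smul := fun g χ => ⟨fun a => χ.1 ⟨g⁻¹ * a * g, hA.conj_mem' _ a.2 g⟩, by
        obtain ⟨v, hv, hv0⟩ := (Submodule.ne_bot_iff _).1 χ.2
        exact (Submodule.ne_bot_iff _).2 ⟨_, act g χ.1 v hv, ne0 g v hv0⟩⟩
      one_smul := fun χ => Subtype.ext (funext fun a => congrArg χ.1 (Subtype.ext (by simp)))
      mul_smul := fun g h χ => Subtype.ext (funext fun a => congrArg χ.1 (Subtype.ext (by simp [mul_assoc]))) }
  have hcard : ∀ (Y : Type v) [Fintype Y] (f : Y → X), Function.Injective f → Fintype.card Y ≤ finrank k V := by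
    intro Y _ f hf
    have := J_card T (fun y => (f y).1) (Subtype.val_injective.comp hf) ⊤ fun y => by
      obtain ⟨v, hv, hv0⟩ := (Submodule.ne_bot_iff _).1 (f y).2
      exact ⟨v, trivial, hv0, hv⟩
    rwa [finrank_top] at this
  have : Finite X := by
    by_contra q
    rw [not_finite_iff_infinite] at q
    have := hcard (ULift (Fin (finrank k V + 1))) (fun y => Infinite.natEmbedding X y.down)
      fun a b q => ULift.ext _ _ (Fin.ext ((Infinite.natEmbedding X).injective q))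
    simp at this
  have hX : Nat.card X ≤ finrank k V := by
    have := hcard (ULift (Fin (Nat.card X))) (fun y => (Finite.equivFin X).symm y.down)
      fun a b q => ULift.ext _ _ ((Finite.equivFin X).symm.injective q)
    simpa using this
  rcases hN (MulAction.toPermHom G X).ker inferInstance with q | q
  · have h1 := Subgroup.index_dvd_of_le q
    rw [Subgroup.index_ker, Subgroup.index_ker, MonoidHom.range_eq_top.2 hφ, Subgroup.card_top] at h1
    have : Nontrivial (Fin r) := Fin.nontrivial_iff_two_le.2 (by omega)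
    have h2 := Nat.le_of_dvd Nat.card_pos (h1.trans (Subgroup.card_subgroup_dvd_card _))
    rw [nat_card_alternatingGroup, Nat.card_perm, Nat.card_fin] at h2
    exact absurd h2 (not_le.2 (fact_lt hr (hX.trans hn)))
  · obtain ⟨χ, hχ⟩ := common_eig T fun a b => by simp only [T, ← map_mul, hc _ a.2 _ b.2]
    have h1 := (irr (J T χ) fun g v hv => by
      have h2 : g ∈ (MulAction.toPermHom G X).ker := by rw [q]; trivial
      have h3 : (fun a : A => χ ⟨g⁻¹ * a * g, hA.conj_mem' _ a.2 g⟩) = χ :=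
        congrArg Subtype.val (Equiv.congr_fun h2 (⟨χ, hχ⟩ : X))
      have h4 := act g χ v hv
      rwa [h3] at h4).resolve_left hχ
    intro a ha
    refine ⟨χ ⟨a, ha⟩, LinearMap.ext fun v => ?_⟩
    have : v ∈ J T χ := by rw [h1]; trivial
    exact this ⟨a, ha⟩

end H28.Al
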