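import Cfsg.Agent.H28.Al7
import Cfsg.Agent.S0892

/-!
# Alternating sections of linear groups
-/

set_option autoImplicit false

open Module Equiv Equiv.Perm
open scoped commutatorElement

namespace H28.Al

universe u v

variable {k V : Type u} [Field k] [AddCommGroup V] [Module k V] [FiniteDimensional k V] {G : Type v} [Group G]

theorem sq_lt_two_pow {m : ℕ} (h : 5 ≤ m) : m * m < 2 ^ m := by
  induction m, h using Nat.le_induction with
  | base => norm_num
  | succ m hm ih => rw [pow_succ]; nlinarith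

theorem perf_cen (hp : commutator G = ⊤) {x0 : G} (h1 : ∀ g : G, ⁅g, x0⁆ ∈ Subgroup.center G) :
    x0 ∈ Subgroup.center G := by
  let f : G →* G := MonoidHom.mk' (fun g => ⁅g, x0⁆) fun a b => by
    have := Subgroup.mem_center_iff.1 (h1 b) a
    rw [Subgroup.mem_center_iff.1 (h1 b)]
    calc ⁅a * b, x0⁆ = a * ⁅b, x0⁆ * a⁻¹ * ⁅a, x0⁆ := by group
      _ = _ := by rw [this]; group
  have h2 : commutator G ≤ f.ker := by
    rw [commutator_eq_closure, Subgroup.closure_le]
    rintro _ ⟨a, b, rfl⟩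
    change f ⁅a, b⁆ = 1
    rw [map_commutatorElement, commutatorElement_eq_one_iff_mul_comm]
    exact Subgroup.mem_center_iff.1 (h1 b) _
  exact Subgroup.mem_center_iff.2 fun g =>
    commutatorElement_eq_one_iff_mul_comm.1 (h2 (show g ∈ commutator G by rw [hp]; trivial))

theorem ker_central [Nontrivial V] [Finite G] {r : ℕ} (hr : 9 ≤ r) (hn : finrank k V ≤ r - 2)
    (φ : G →* alternatingGroup (Fin r)) (hφ : Function.Surjective φ) (ρ : G →* End k V) (hρ : Function.Injective ρ)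
    (hp : commutator G = ⊤) (hnil : Group.IsNilpotent φ.ker)
    (hab : ∀ A : Subgroup G, A.Normal → (∀ a ∈ A, ∀ b ∈ A, a * b = b * a) → ∀ a ∈ A, ∃ l : k, ρ a = l • 1) :
    φ.ker ≤ Subgroup.center G := by
  classical
  set K := φ.ker with hK
  set Z := Subgroup.center G with hZ
  have cen : ∀ A : Subgroup G, A.Normal → (∀ a ∈ A, ∀ b ∈ A, a * b = b * a) → A ≤ Z := fun A h1 h2 a ha => by
    obtain ⟨l, hl⟩ := hab A h1 h2 a ha
    exact Subgroup.mem_center_iff.2 fun g => hρ (by rw [map_mul, map_mul, hl]; simp)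
  have zk : ∀ x ∈ K, (∀ y ∈ K, x * y = y * x) → x ∈ Z := fun x hx h =>
    cen (K ⊓ Subgroup.centralizer K) inferInstance (fun a ha b hb => ha.2 b hb.1 |>.symm)
      ⟨hx, fun y hy => (h y hy).symm⟩
  by_contra hKZ
  obtain ⟨x, hx, hxZ, hxD⟩ : ∃ x ∈ K, x ∉ Z ∧ ∀ y ∈ K, ⁅x, y⁆ ∈ Z := by
    by_contra q
    push Not at q
    have h1 : Subgroup.upperCentralSeries K 1 = Subgroup.upperCentralSeries K 2 := by
      refine le_antisymm (Subgroup.upperCentralSeries_mono _ (by omega)) fun x hx => ?_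
      rw [Subgroup.upperCentralSeries_one]
      by_cases h2 : (x : G) ∈ Z
      · exact Subgroup.mem_center_iff.2 fun y => Subtype.ext (Subgroup.mem_center_iff.1 h2 y)
      · obtain ⟨y, hy, h3⟩ := q x x.2 h2
        have h4 := Subgroup.mem_upperCentralSeries_succ_iff.1 hx ⟨y, hy⟩
        rw [Subgroup.upperCentralSeries_one] at h4
        exact absurd (zk _ (⁅x, (⟨y, hy⟩ : K)⁆ : K).2 fun z hz =>
          (congrArg Subtype.val (Subgroup.mem_center_iff.1 h4 ⟨z, hz⟩)).symm) h3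
    have h2 := Subgroup.upperCentralSeries.eq_top (by omega) h1
    rw [Subgroup.upperCentralSeries_one] at h2
    exact hKZ fun x hx => zk x hx fun y hy => (congrArg Subtype.val
      (Subgroup.mem_center_iff.1 (show (⟨x, hx⟩ : K) ∈ Subgroup.center K by rw [h2]; trivial) ⟨y, hy⟩)).symm
  let mk := QuotientGroup.mk' Z
  have hx1 : mk x ≠ 1 := fun q => hxZ ((QuotientGroup.eq_one_iff x).1 q)
  obtain ⟨l, hl, hlo⟩ := Nat.exists_prime_and_dvd (n := orderOf (mk x)) (by rwa [Ne, orderOf_eq_one_iff])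
  have : Fact l.Prime := ⟨hl⟩
  have cmk : ∀ a b : G, ⁅a, b⁆ ∈ Z ↔ mk a * mk b = mk b * mk a := fun a b => by
    rw [← QuotientGroup.eq_one_iff]
    change mk ⁅a, b⁆ = 1 ↔ _
    rw [map_commutatorElement, commutatorElement_eq_one_iff_mul_comm]
  let Eb : Subgroup (G ⧸ Z) :=
    { carrier := {u | u ∈ K.map mk ∧ (∀ y ∈ K.map mk, u * y = y * u) ∧ u ^ l = 1}
      one_mem' := ⟨one_mem _, by simp, one_pow _⟩
      mul_mem' := by
        rintro a b ⟨a1, a2, a3⟩ ⟨b1, b2, b3⟩
        exact ⟨mul_mem a1 b1, fun y hy => by rw [mul_assoc, b2 y hy, ← mul_assoc, a2 y hy, mul_assoc],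
          by rw [Commute.mul_pow (a2 b b1), a3, b3, one_mul]⟩
      inv_mem' := by
        rintro a ⟨a1, a2, a3⟩
        exact ⟨inv_mem a1, fun y hy => (Commute.inv_left (a2 y hy)).eq, by rw [inv_pow, a3, inv_one]⟩ }
  have nK : (K.map mk).Normal := Subgroup.Normal.map inferInstance mk (QuotientGroup.mk'_surjective Z)
  have nE : Eb.Normal := ⟨by
    rintro a ⟨a1, a2, a3⟩ g
    refine ⟨nK.conj_mem a a1 g, fun y hy => ?_, by rw [conj_pow, a3, mul_one, mul_inv_cancel]⟩
    have := a2 _ (nK.conj_mem' y hy g)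
    calc g * a * g⁻¹ * y = g * (a * (g⁻¹ * y * g)) * g⁻¹ := by group
      _ = _ := by rw [this]; group⟩
  let _ : CommGroup Eb := { (inferInstance : Group Eb) with mul_comm := fun a b => Subtype.ext (a.2.2.1 b b.2.1) }
  let ψ0 : G →* MulAut Eb := MulAut.conjNormal.comp mk
  have hψ0 : K ≤ ψ0.ker := fun y hy => MulEquiv.ext fun a => Subtype.ext (by
    change mk y * a * (mk y)⁻¹ = a
    rw [← a.2.2.1 _ ⟨y, hy, rfl⟩, mul_inv_cancel_right])
  have hx0 : mk x ^ (orderOf (mk x) / l) ∈ Eb :=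
    ⟨pow_mem (Subgroup.mem_map_of_mem mk hx) _, by
      rintro _ ⟨y, hy, rfl⟩
      exact (Commute.pow_left ((cmk x y).1 (hxD y hy)) _).eq,
     by rw [← pow_mul, Nat.div_mul_cancel hlo, pow_orderOf_eq_one]⟩
  have hne : ∃ g, ψ0 g ≠ 1 := by
    by_contra q
    push Not at q
    set x0 := x ^ (orderOf (mk x) / l) with hx0'
    have h1 : ∀ g, ⁅g, x0⁆ ∈ Z := fun g => (cmk g x0).2 (by
      have := congrArg Subtype.val (MulEquiv.congr_fun (q g) ⟨_, hx0⟩)
      change mk g * _ * (mk g)⁻¹ = _ at this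
      rw [hx0', map_pow]
      exact mul_inv_eq_iff_eq_mul.1 this)
    have h3 : x0 ∈ Z := perf_cen hp h1
    have h4 : mk x ^ (orderOf (mk x) / l) = 1 := by rw [← map_pow]; exact (QuotientGroup.eq_one_iff _).2 h3
    have h5 := Nat.le_of_dvd (Nat.div_pos (Nat.le_of_dvd (orderOf_pos _) hlo) hl.pos) (orderOf_dvd_of_pow_eq_one h4)
    exact absurd (Nat.div_lt_self (orderOf_pos _) hl.one_lt) (not_lt.2 h5)
  obtain ⟨g, hg⟩ := hne
  have h1 := autb l (fun a : Eb => Subtype.ext a.2.2.2) hr (φ.liftOfSurjective hφ ⟨ψ0, hψ0⟩)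
    ⟨φ g, by rwa [MonoidHom.liftOfRightInverse_comp_apply]⟩
  have rep : ∀ a : Eb, ∃ x ∈ K, mk x = a := fun a => a.2.1
  choose t ht1 ht2 using rep
  have hsc : ∀ z : G, ∃ c : k, z ∈ Z → ρ z = c • 1 := fun z => by
    by_cases hz : z ∈ Z
    · obtain ⟨c, hc⟩ := hab Z inferInstance (fun a ha b _ => (Subgroup.mem_center_iff.1 ha b).symm) z hz
      exact ⟨c, fun _ => hc⟩
    · exact ⟨0, fun q => absurd q hz⟩
  choose sc hsc using hsc
  have hz : ∀ (a : Eb) (y : K), ⁅(y : G), t a⁆ ∈ Z := fun a y =>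
    (cmk _ _).2 (by rw [ht2]; exact (a.2.2.1 _ ⟨y, y.2, rfl⟩).symm)
  let _ := Fintype.ofFinite Eb
  have h2 := J_card (V := End k V) (fun y : K => (LinearMap.mulLeft k (ρ y)).comp (LinearMap.mulRight k (ρ (y : G)⁻¹)))
    (fun (a : Eb) y => sc ⁅(y : G), t a⁆) (fun a b q => by
      have q1 : ∀ y ∈ K, ⁅y, t a⁆ = ⁅y, t b⁆ := fun y hy => hρ (by
        rw [hsc _ (hz a ⟨y, hy⟩), hsc _ (hz b ⟨y, hy⟩)]; exact congrArg (· • (1 : End k V)) (congrFun q ⟨y, hy⟩))
      have q2 := zk ((t a)⁻¹ * t b) (mul_mem (inv_mem (ht1 a)) (ht1 b)) fun y hy => by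
        have q3 := q1 y⁻¹ (inv_mem hy)
        have q4 := Subgroup.mem_center_iff.1 (hz b ⟨y⁻¹, inv_mem hy⟩) (t a)⁻¹
        change (t a)⁻¹ * ⁅y⁻¹, t b⁆ = ⁅y⁻¹, t b⁆ * (t a)⁻¹ at q4
        calc (t a)⁻¹ * t b * y = y * (⁅y⁻¹, t a⁆ * t a)⁻¹ * (⁅y⁻¹, t b⁆ * t b) := by group
          _ = _ := by rw [q3]; group
      refine Subtype.ext ?_
      rw [← ht2, ← ht2]
      exact QuotientGroup.eq.2 q2) ⊤ fun a => ⟨ρ (t a), trivial, fun q => by
        have : ρ (t a) * ρ (t a)⁻¹ = 1 := by rw [← map_mul, mul_inv_cancel, map_one]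
        rw [q, zero_mul] at this
        exact zero_ne_one this, fun y => by
        change ρ y * (ρ (t a) * ρ (y : G)⁻¹) = _
        rw [← smul_one_mul, ← hsc _ (hz a y), ← map_mul, ← map_mul, ← map_mul]
        congr 1; group⟩
  rw [finrank_top, Module.finrank_linearMap, ← Nat.card_eq_fintype_card] at h2
  have h3 := sq_lt_two_pow (m := r - 2) (by omega)
  have h4 := Nat.mul_le_mul hn hn
  omega

theorem alt_nc {r : ℕ} (hr : 9 ≤ r) : ∃ a b : alternatingGroup (Fin r), a * b ≠ b * a := by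
  obtain ⟨e⟩ := exists_emb (α := Fin r) (m := 4) (by simp; omega)
  refine ⟨⟨E e (c3 0 1 2), by rw [mem_alternatingGroup, E_sign]; decide⟩,
    ⟨E e (c3 1 2 3), by rw [mem_alternatingGroup, E_sign]; decide⟩, fun q => ?_⟩
  have := congrArg Subtype.val q
  change E e _ * E e _ = E e _ * E e _ at this
  rw [← map_mul, ← map_mul] at this
  exact absurd (E_inj e this) (by decide)

theorem main (k : Type u) [Field k] [IsAlgClosed k] (p : ℕ) [Fact p.Prime] [CharP k p] {r : ℕ} (hr : 9 ≤ r) (n : ℕ) :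
    ∀ (V : Type u) [AddCommGroup V] [Module k V] [FiniteDimensional k V], finrank k V = n →
    ∀ (c : ℕ) (G : Type v) [Group G] [Finite G], Nat.card G = c →
    ∀ (φ : G →* alternatingGroup (Fin r)), Function.Surjective φ → ∀ ρ : G →* End k V, ρ.ker ≤ φ.ker →
    (r - 1 - if p ∣ r then 1 else 0) ≤ n := by
  induction n using Nat.strong_induction_on with
  | _ n ihn =>
  intro V _ _ _ hV c
  induction c using Nat.strong_induction_on with
  | _ c ihc =>
  intro G _ _ hc φ hφ ρ hker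
  by_contra hlt
  have hn : finrank k V ≤ r - 2 := by omega
  have hρ : Function.Injective ρ := by
    rw [← MonoidHom.ker_eq_bot_iff]
    by_contra h0
    refine hlt (ihc _ ?_ (G ⧸ ρ.ker) rfl (QuotientGroup.lift _ φ hker) ?_ (QuotientGroup.lift _ ρ le_rfl) ?_)
    · rw [← hc, Subgroup.card_eq_card_quotient_mul_card_subgroup ρ.ker]
      exact lt_mul_of_one_lt_right Nat.card_pos ((Subgroup.one_lt_card_iff_ne_bot _).2 h0)
    · intro σ; obtain ⟨g, rfl⟩ := hφ σ; exact ⟨g, rfl⟩
    · intro x hx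
      obtain ⟨g, rfl⟩ := QuotientGroup.mk_surjective x
      exact hker hx
  have hmin : ∀ H : Subgroup G, H.map φ = ⊤ → H = ⊤ := fun H hH => by
    by_contra h0
    refine hlt (ihc _ ?_ H rfl (φ.comp H.subtype) ?_ (ρ.comp H.subtype) fun x hx => hker hx)
    · rw [← hc]
      exact lt_of_le_of_ne (Subgroup.card_le_card_group H) fun q => h0 (Subgroup.eq_top_of_card_eq H q)
    · intro σ
      obtain ⟨g, hg, rfl⟩ : σ ∈ H.map φ := by rw [hH]; trivial
      exact ⟨⟨g, hg⟩, rfl⟩
  have h5 : 5 ≤ Nat.card (Fin r) := by simp; omega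
  have hN : ∀ N : Subgroup G, N.Normal → N ≤ φ.ker ∨ N = ⊤ := fun N hN => by
    have := hN.map φ hφ
    rcases alternatingGroup.normal_subgroup_eq_bot_or_eq_top h5 (N := N.map φ) with q | q
    · exact .inl ((Subgroup.map_eq_bot_iff _).1 q)
    · exact .inr (hmin N q)
  have hp : commutator G = ⊤ := hmin _ (by
    rw [map_commutator_eq, MonoidHom.range_eq_top.2 hφ]
    exact commutator_alternatingGroup_eq_top h5)
  have hnil : Group.IsNilpotent φ.ker := by
    have h1 : φ.ker ≤ frattini G := by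
      rw [frattini, Order.radical]
      refine le_iInf₂ fun M hM => ?_
      by_contra q
      have h2 := hM.2 (M ⊔ φ.ker) (left_lt_sup.2 q)
      refine hM.1 (hmin M ?_)
      have h3 := congrArg (Subgroup.map φ) h2
      rwa [Subgroup.map_sup, (Subgroup.map_eq_bot_iff _).2 le_rfl, sup_bot_eq, ← MonoidHom.range_eq_map,
        MonoidHom.range_eq_top.2 hφ] at h3
    have := frattini_nilpotent (G := G)
    exact Group.nilpotent_of_mulEquiv (Subgroup.subgroupOfEquivOfLe h1)
  obtain ⟨a0, b0, hab0⟩ := alt_nc hr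
  have nc : ¬∀ a b : G, a * b = b * a := fun q => by
    obtain ⟨a, rfl⟩ := hφ a0
    obtain ⟨b, rfl⟩ := hφ b0
    exact hab0 (by rw [← map_mul, q, map_mul])
  have : Nontrivial V := by
    by_contra q
    rw [not_nontrivial_iff_subsingleton] at q
    exact nc fun a b => hρ (Subsingleton.elim _ _)
  have irr : ∀ W : Submodule k V, (∀ g, ∀ w ∈ W, ρ g w ∈ W) → W = ⊥ ∨ W = ⊤ := fun W hW => by
    by_contra q
    push Not at q
    have r1 := Submodule.finrank_lt q.2
    have r2 := Submodule.finrank_quotient_add_finrank W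
    have r3 := Submodule.one_le_finrank_iff.2 q.1
    have k1 : (Representation.subrepresentation ρ W hW).ker = ⊤ := (hN _ inferInstance).resolve_left fun h =>
      hlt ((ihn _ (by omega) W rfl _ G rfl φ hφ _ h).trans (by omega))
    have k2 : (Representation.quotient ρ W hW).ker = ⊤ := (hN _ inferInstance).resolve_left fun h =>
      hlt ((ihn _ (by omega) (V ⧸ W) rfl _ G rfl φ hφ _ h).trans (by omega))
    have e1 : ∀ g, ∀ w ∈ W, ρ g w = w := fun g w hw => congrArg Subtype.val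
      (LinearMap.congr_fun (show Representation.subrepresentation ρ W hW g = 1 from k1.ge (Subgroup.mem_top g)) ⟨w, hw⟩)
    have e2 : ∀ g v, ρ g v - v ∈ W := fun g v => (Submodule.Quotient.eq W).1
      (LinearMap.congr_fun (show Representation.quotient ρ W hW g = 1 from k2.ge (Subgroup.mem_top g))
        (Submodule.Quotient.mk v))
    refine nc fun a b => hρ (LinearMap.ext fun v => ?_)
    have f1 := e1 a _ (e2 b v)
    have f2 := e1 b _ (e2 a v)
    rw [map_sub] at f1 f2
    rw [map_mul, map_mul, Module.End.mul_apply, Module.End.mul_apply, sub_eq_iff_eq_add.1 f1, sub_eq_iff_eq_add.1 f2]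
    abel
  have hab := fun (A : Subgroup G) (hA : A.Normal) => ab_scalar hr hn φ hφ ρ hN irr A
  have hZ := ker_central hr hn φ hφ ρ hρ hp hnil hab
  have h2 := Cfsg.Agent.S0892.result r (by omega) (by omega) (by omega) φ.ker hZ (by rw [hp]; exact le_top)
    (QuotientGroup.quotientKerEquivOfSurjective φ hφ)
  refine hlt (hV ▸ central p hr φ hφ ρ hρ fun g hg => ?_)
  obtain ⟨l, hl⟩ := hab φ.ker inferInstance (fun a _ b hb => Subgroup.mem_center_iff.1 (hZ hb) a) g hg
  have h3 : g ^ 2 = 1 := by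
    have h4 := pow_card_eq_one' (x := (⟨g, hg⟩ : φ.ker))
    have h6 : 0 < Nat.card φ.ker := Nat.card_pos
    have h7 := congrArg Subtype.val h4
    change g ^ _ = 1 at h7
    obtain q | q : Nat.card φ.ker = 1 ∨ Nat.card φ.ker = 2 := by omega
    · rw [q, pow_one] at h7; rw [h7, one_pow]
    · rwa [q] at h7
  have h4 := congrArg ρ h3
  rw [map_pow, map_one, hl, smul_pow, one_pow] at h4
  have h6 : l ^ 2 = 1 := smul_left_injective k (one_ne_zero (α := End k V)) (h4.trans (one_smul k _).symm)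
  rcases sq_eq_one_iff.1 h6 with q | q
  · left; rw [hl, q, one_smul]
  · right; rw [hl, q, neg_one_smul]

theorem final {F : Type u} [Field F] [Finite F] (p : ℕ) [Fact p.Prime] [CharP F p]
    (n : ℕ) (r : ℕ) (H : Subgroup (GL (Fin n) F)) (K : Subgroup H) [K.Normal]
    (h : Nonempty (H ⧸ K ≃* alternatingGroup (Fin r))) (hr : 9 ≤ r) :
    r - 1 - (if p ∣ r then 1 else 0) ≤ n := by
  obtain ⟨e⟩ := h
  obtain ⟨Φ, hΦ⟩ := exists_ext F n
  refine main (AlgebraicClosure F) p hr n (Fin n → AlgebraicClosure F) (by simp) _ H rfl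
    (e.toMonoidHom.comp (QuotientGroup.mk' K)) (e.surjective.comp (QuotientGroup.mk'_surjective K))
    (Φ.comp ((Units.coeHom _).comp H.subtype)) fun x hx => ?_
  have : x = 1 := Subtype.ext (Units.ext (hΦ (hx.trans (map_one Φ).symm)))
  rw [this]; exact one_mem _

end H28.Al
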