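import Cfsg.Agent.H28.Al8

/-!
# Eigenspace counts for elementary abelian 2-groups; small invariant sections
-/

set_option autoImplicit false

open Module

namespace H28.Ea
open H28.Al

universe u v

section LA
variable {k V : Type*} [Field k] [AddCommGroup V] [Module k V]

theorem diag_rk {ι : Type*} [Fintype ι] (b : Basis ι k V) (T : End k V) (a : ι → k) (h : ∀ i, T (b i) = a i • b i)
    (l : k) (P : ι → Prop) [DecidablePred P] (hP : ∀ i, P i ↔ a i = l) :
    finrank k (Eg T l) = (Finset.univ.filter P).card := by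
  classical
  have h1 : ∀ v i, b.repr (T v) i = a i * b.repr v i := fun v i => by
    conv_lhs => rw [← b.sum_repr v]
    simp only [map_sum, map_smul, h, Finsupp.finset_sum_apply, Finsupp.smul_apply, b.repr_self, smul_eq_mul]
    rw [Finset.sum_eq_single i (fun j _ hj => by simp [hj]) (by simp)]
    simp [mul_comm]
  have h2 : Eg T l = Submodule.span k (Set.range fun i : {i // P i} => b i) := by
    rw [show (Set.range fun i : {i // P i} => b i) = b '' {i | P i} from (Set.image_eq_range _ _).symm]
    ext v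
    rw [mem_Eg, b.mem_span_image]
    constructor
    · intro q i hi
      have q1 := h1 v i
      rw [q, map_smul, Finsupp.smul_apply, smul_eq_mul] at q1
      exact (hP i).2 (mul_right_cancel₀ (Finsupp.mem_support_iff.1 hi) q1).symm
    · intro q
      refine b.repr.injective (Finsupp.ext fun i => ?_)
      rw [h1, map_smul, Finsupp.smul_apply, smul_eq_mul]
      by_cases q1 : b.repr v i = 0
      · rw [q1, mul_zero, mul_zero]
      · rw [(hP i).1 (q (Finsupp.mem_support_iff.2 q1))]
  rw [h2, finrank_span_eq_card (b := fun i : {i // P i} => b i) (b.linearIndependent.comp _ Subtype.val_injective),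
    Fintype.card_subtype]

theorem eig_span (h2 : (2 : k) ≠ 0) {E : Type*} [Finite E] (T : E → End k V) (hc : ∀ a b, T a * T b = T b * T a)
    (hs : ∀ a, T a * T a = 1) : Submodule.span k {v | ∀ a, T a v = v ∨ T a v = -v} = ⊤ := by
  classical
  have := Fintype.ofFinite E
  have key : ∀ s : Finset E, ⊤ ≤ Submodule.span k {v | ∀ a ∈ s, T a v = v ∨ T a v = -v} := fun s => by
    induction s using Finset.induction_on with
    | empty => exact fun v _ => Submodule.subset_span (by simp)
    | insert a s ha ih =>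
      refine ih.trans (Submodule.span_le.2 fun v hv => ?_)
      have e1 : T a (T a v) = v := LinearMap.congr_fun (hs a) v
      have e2 : ∀ b, T b (T a v) = T a (T b v) := fun b => LinearMap.congr_fun (hc b a) v
      have e3 : v = (2 : k)⁻¹ • ((v + T a v) + (v - T a v)) := by
        rw [add_add_sub_cancel, ← two_smul k, smul_smul, inv_mul_cancel₀ h2, one_smul]
      rw [e3]
      refine Submodule.smul_mem _ _ (add_mem (Submodule.subset_span fun b hb => ?_) (Submodule.subset_span fun b hb => ?_))
      · rcases Finset.mem_insert.1 hb with rfl | hb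
        · left; rw [map_add, e1, add_comm]
        · rcases hv b hb with q | q
          · left; rw [map_add, e2, q]
          · right; rw [map_add, e2, q, map_neg, neg_add]
      · rcases Finset.mem_insert.1 hb with rfl | hb
        · right; rw [map_sub, e1, neg_sub]
        · rcases hv b hb with q | q
          · left; rw [map_sub, e2, q]
          · right; rw [map_sub, e2, q, map_neg]; abel
  simpa using top_le_iff.1 (key Finset.univ)

/-- the integral trace of an involution -/
noncomputable def tr (f : End k V) : ℤ := finrank k V - 2 * finrank k (Eg f (-1))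

theorem mom [FiniteDimensional k V] (h2 : (2 : k) ≠ 0) {E : Type*} [Group E] [Fintype E] (σ : E →* End k V)
    (hE : ∀ a : E, a * a = 1) : (∃ m : ℕ, ∑ a, tr (σ a) = Fintype.card E * m) ∧
      (Fintype.card E * finrank k V : ℤ) ≤ ∑ a, tr (σ a) ^ 2 := by
  classical
  have hc : ∀ a b : E, a * b = b * a := fun a b => by
    rw [← inv_eq_of_mul_eq_one_right (hE (a * b)), mul_inv_rev, inv_eq_of_mul_eq_one_right (hE a),
      inv_eq_of_mul_eq_one_right (hE b)]
  obtain ⟨s, h1, h3, h4⟩ := exists_linearIndependent k {v | ∀ a, σ a v = v ∨ σ a v = -v}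
  rw [eig_span h2 σ (fun a b => by rw [← map_mul, hc, map_mul]) fun a => by rw [← map_mul, hE, map_one]] at h3
  let b : Basis s k V := Basis.mk h4 (by rw [Subtype.range_coe, h3])
  have := h4.finite
  have := Fintype.ofFinite s
  have hb : ∀ i a, σ a (b i) = b i ∨ σ a (b i) = -b i := fun i => by rw [Basis.mk_apply]; exact h1 i.2
  have hn : ∀ i, b i ≠ -b i := fun i q => b.ne_zero i (by
    rw [eq_neg_iff_add_eq_zero, ← two_smul k] at q
    exact (smul_eq_zero.1 q).resolve_left h2)
  let ε : s → E →* ℤ := fun i =>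
    { toFun := fun a => if σ a (b i) = b i then 1 else -1
      map_one' := by simp
      map_mul' := fun a c => by
        rw [map_mul, Module.End.mul_apply]
        rcases hb i a with q | q <;> rcases hb i c with q' | q' <;> simp [q, q', (hn i).symm] }
  have he : ∀ i a, ε i a = if σ a (b i) = b i then 1 else -1 := fun _ _ => rfl
  have ht : ∀ a, tr (σ a) = ∑ i, ε i a := fun a => by
    rw [tr, diag_rk b (σ a) (fun i => if σ a (b i) = b i then 1 else -1) (fun i => by
      rcases hb i a with q | q <;> simp [q, (hn i).symm]) (-1) (fun i => ¬ σ a (b i) = b i) (fun i => by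
      by_cases q : σ a (b i) = b i
      · simp only [q, if_true, not_true, false_iff]; exact fun e => h2 (by linear_combination e)
      · simp [q]), finrank_eq_card_basis b, ← Finset.card_univ,
      ← Finset.card_filter_add_card_filter_not (s := Finset.univ) fun i => σ a (b i) = b i]
    simp only [he, Finset.sum_ite, Finset.sum_const, nsmul_eq_mul]
    push_cast; ring
  simp only [ht]
  constructor
  · refine ⟨(Finset.univ.filter fun i => ε i = 1).card, ?_⟩
    rw [Finset.sum_comm]
    simp only [sum_hom_units]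
    simp [Finset.sum_ite, mul_comm]
  · simp only [sq, Finset.sum_mul_sum]
    rw [Finset.sum_comm, finrank_eq_card_basis b, ← Finset.card_univ (α := s), mul_comm, ← nsmul_eq_mul, ← Finset.sum_const]
    refine Finset.sum_le_sum fun i _ => ?_
    rw [Finset.sum_comm]
    have q : ∀ j, ∑ a, ε i a * ε j a = if ε i * ε j = 1 then (Fintype.card E : ℤ) else 0 := fun j => by
      simpa using sum_hom_units (ε i * ε j)
    simp only [q]
    refine le_trans (le_of_eq ?_) (Finset.single_le_sum (f := fun j => if ε i * ε j = 1 then (Fintype.card E : ℤ) else 0)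
      (fun j _ => by split_ifs <;> simp) (Finset.mem_univ i))
    rw [if_pos (MonoidHom.ext fun a => by simp only [MonoidHom.mul_apply, he]; split_ifs <;> simp)]

theorem rk_conj [FiniteDimensional k V] {G : Type*} [Group G] (ρ : G →* End k V) (x y : G) (l : k) :
    finrank k (Eg (ρ (x * y * x⁻¹)) l) = finrank k (Eg (ρ y) l) := by
  have key : ∀ x y : G, finrank k (Eg (ρ y) l) ≤ finrank k (Eg (ρ (x * y * x⁻¹)) l) := fun x y =>
    rk_le (f := ρ x) (g := ρ x⁻¹) (by rw [← map_mul, inv_mul_cancel, map_one]) fun w hw => mem_Eg.2 (by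
      rw [← Module.End.mul_apply, ← map_mul, inv_mul_cancel_right, map_mul, Module.End.mul_apply, mem_Eg.1 hw, map_smul])
  refine le_antisymm ?_ (key x y)
  have := key x⁻¹ (x * y * x⁻¹)
  rwa [show x⁻¹ * (x * y * x⁻¹) * x⁻¹⁻¹ = y by group] at this

end LA

/-- all representations of dimension at most ten are trivial -/
def H10 (k : Type u) [Field k] (G : Type v) [Group G] : Prop :=
  ∀ (W : Type u) [AddCommGroup W] [Module k W] [FiniteDimensional k W] (ρ : G →* End k W), finrank k W ≤ 10 → ∀ g, ρ g = 1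

variable {k V : Type u} [Field k] [AddCommGroup V] [Module k V] [FiniteDimensional k V] {G : Type v} [Group G]

theorem tr10 (h : H10 k G) (ρ : G →* End k V) {U W : Submodule k V} (hU : ∀ g, ∀ w ∈ U, ρ g w ∈ U)
    (hW : ∀ g, ∀ w ∈ W, ρ g w ∈ W) (hUW : U ≤ W) (hd : finrank k W ≤ finrank k U + 10) (g : G) :
    ∀ w ∈ W, ρ g w - w ∈ U := fun w hw => by
  have r1 := Submodule.finrank_quotient_add_finrank (U.comap W.subtype)
  rw [(Submodule.comapSubtypeEquivOfLe hUW).finrank_eq] at r1
  have := h _ (Representation.quotient (Representation.subrepresentation ρ W hW) (U.comap W.subtype)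
    fun g w hw => hU g _ hw) (by omega) g
  exact (Submodule.Quotient.eq (U.comap W.subtype)).1 (LinearMap.congr_fun this (Submodule.Quotient.mk ⟨w, hw⟩))

theorem red2 (h2 : (2 : k) ≠ 0) (h : H10 k G) (ρ : G →* End k V) {z : G} (hz : ∀ g, g * z = z * g)
    (hd : finrank k (Eg (ρ z) (-1)) ≤ 21) {U : Submodule k V} (hU : ∀ g, ∀ w ∈ U, ρ g w ∈ U) (h1 : U ≤ Eg (ρ z) (-1))
    (h3 : ∃ w ∈ U, w ≠ 0) (h4 : ∃ w ∈ Eg (ρ z) (-1), w ∉ U) : False := by
  have e : ∀ (W : Submodule k V), ∀ w ∈ Eg (ρ z) (-1), ρ z w - w ∈ W → w ∈ W := fun W w hw q => by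
    rw [mem_Eg.1 hw, show (-1 : k) • w - w = (-2 : k) • w by module] at q
    exact (W.smul_mem_iff (neg_ne_zero.2 h2)).1 q
  by_cases q : finrank k U ≤ 10
  · obtain ⟨w, hw, h0⟩ := h3
    exact h0 (e ⊥ w (h1 hw) (tr10 h ρ (fun g w hw => by rw [hw]; simp) hU bot_le (by simpa using q) z w hw))
  · obtain ⟨w, hw, h0⟩ := h4
    exact h0 (e U w hw (tr10 h ρ hU (fun g => Eg_inv (by rw [← map_mul, ← hz, map_mul]) _) h1 (by omega) z w hw))

section grp
variable {G A : Type*} [Group G] [Group A]

theorem dih {x y : G} (hx : x * x = 1) (hy : y * y = 1) (h : Odd (orderOf (x * y))) : IsConj x y := by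
  obtain ⟨m, hm⟩ := h
  have e1 : x * (x * y)⁻¹ = (x * y) * x := by
    rw [mul_inv_rev, inv_eq_of_mul_eq_one_right hx, inv_eq_of_mul_eq_one_right hy, mul_assoc]
  have e2 : ∀ n : ℕ, x * ((x * y) ^ n)⁻¹ = (x * y) ^ n * x := fun n => by
    induction n with
    | zero => simp
    | succ n ih => rw [pow_succ, mul_inv_rev, ← mul_assoc, e1, mul_assoc (x * y), ih, ← mul_assoc, ← pow_succ', pow_succ]
  refine isConj_iff.2 ⟨(x * y) ^ m, ?_⟩
  have e3 : (x * y) ^ m * (x * y) ^ m * (x * y) = 1 := by rw [← pow_add, ← pow_succ, ← two_mul, ← hm, pow_orderOf_eq_one]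
  rw [mul_assoc, e2, ← mul_assoc, eq_inv_of_mul_eq_one_left e3, mul_inv_rev, inv_eq_of_mul_eq_one_right hx,
    inv_eq_of_mul_eq_one_right hy, mul_assoc, hx, mul_one]

theorem secA [Finite G] (φ : G →* A) (hφ : Function.Surjective φ) (hK : Odd (Nat.card φ.ker)) {E : Type*} [Group E]
    (hE : ∀ a : E, a * a = 1) (ι : E →* A) : ∃ s : E →* G, ∀ a, φ (s a) = ι a := by
  have := Finite.of_surjective φ hφ
  let M := ι.range.comap φ
  let P : Sylow 2 M := default
  let f : M →* ι.range := (φ.comp M.subtype).codRestrict _ fun x => x.2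
  have hf : Function.Surjective f := fun v => let ⟨x, hx⟩ := hφ v; ⟨⟨x, show φ x ∈ ι.range from hx ▸ v.2⟩, Subtype.ext hx⟩
  have hV : IsPGroup 2 ι.range := by
    rintro ⟨_, a, rfl⟩
    exact ⟨1, Subtype.ext (by change ι a ^ 2 ^ 1 = 1; rw [pow_one, sq, ← map_mul, hE, map_one])⟩
  have h1 : (P.mapSurjective hf : Subgroup ι.range) = ⊤ := ((P.mapSurjective hf).3 (hV.to_subgroup ⊤) le_top).symm
  have h2 : ∀ a, ∃ x : P, φ (x : M) = ι a := fun a => by
    obtain ⟨x, hx, e⟩ := h1.ge (Subgroup.mem_top (⟨_, a, rfl⟩ : ι.range))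
    exact ⟨⟨x, hx⟩, congrArg Subtype.val e⟩
  choose s hs using h2
  have h3 : Function.Injective (φ.comp (M.subtype.comp (P : Subgroup M).subtype)) := (injective_iff_map_eq_one _).2 fun x hx => by
    obtain ⟨n, hn⟩ := IsPGroup.iff_orderOf.1 P.isPGroup' x
    have h4 : orderOf x ∣ Nat.card φ.ker := by
      rw [← Subgroup.orderOf_coe, ← Subgroup.orderOf_coe]
      exact Subgroup.orderOf_dvd_natCard _ hx
    obtain _ | n := n
    · exact orderOf_eq_one_iff.1 hn
    · rw [hn] at h4
      exact absurd ((Dvd.intro_left _ (pow_succ 2 n).symm).trans h4) (Nat.two_dvd_ne_zero.2 (Nat.odd_iff.1 hK))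
  exact ⟨(M.subtype.comp (P : Subgroup M).subtype).comp (MonoidHom.mk' s fun a b => h3 (by
    rw [map_mul]; exact (hs _).trans (by rw [map_mul, ← hs, ← hs]; rfl))), hs⟩

end grp

end H28.Ea
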