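import Cfsg.Agent.H28.Ea1
import Cfsg.Agent.H04.Basic

/-!
# Alternating sections of groups whose involutions have trace `3` or `-5` in dimension 27
-/

set_option autoImplicit false

open Module Equiv Equiv.Perm

namespace H28.Ea
open H28.Al

universe u v

variable {k V : Type u} [Field k] [AddCommGroup V] [Module k V] [FiniteDimensional k V] {G : Type v} [Group G]

theorem tr_one (h2 : (2 : k) ≠ 0) : tr (1 : End k V) = finrank k V := by
  have : Eg (1 : End k V) (-1) = ⊥ := eq_bot_iff.2 fun v hv => by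
    have q : v = (-1 : k) • v := mem_Eg.1 hv
    rw [neg_one_smul, eq_neg_iff_add_eq_zero, ← two_smul k] at q
    exact (smul_eq_zero.1 q).resolve_left h2
  simp [tr, this]

theorem tr_conj (ρ : G →* End k V) {x y : G} (h : IsConj x y) : tr (ρ x) = tr (ρ y) := by
  obtain ⟨g, rfl⟩ := isConj_iff.1 h
  rw [tr, tr, rk_conj]

/-- the regular group of order eight -/
def i3 : Multiplicative (ZMod 2 × ZMod 2 × ZMod 2) →* Perm (Fin 8) := MonoidHom.mk' (fun x =>
  (dt 0 1 2 3 * dt 4 5 6 7) ^ x.toAdd.1.val * (dt 0 2 1 3 * dt 4 6 5 7) ^ x.toAdd.2.1.val *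
    (dt 0 4 1 5 * dt 2 6 3 7) ^ x.toAdd.2.2.val) (by decide +kernel)

/-- the product of two four-groups -/
def i4 : Multiplicative (ZMod 2 × ZMod 2 × ZMod 2 × ZMod 2) →* Perm (Fin 8) := MonoidHom.mk' (fun x =>
  dt 0 1 2 3 ^ x.toAdd.1.val * dt 0 2 1 3 ^ x.toAdd.2.1.val * dt 4 5 6 7 ^ x.toAdd.2.2.1.val *
    dt 4 6 5 7 ^ x.toAdd.2.2.2.val) (by decide +kernel)

/-- conjugating elements -/
def cj : List (Perm (Fin 8)) := [dt 0 5 2 7, dt 0 7 2 5, dt 0 4 2 6, dt 0 6 2 4] ++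
  [1, c3 1 2 3, c3 1 3 2].flatMap fun a => [1, c3 5 6 7, c3 5 7 6].flatMap fun b => [a * b, a * b * (dt 0 4 1 5 * dt 2 6 3 7)]

theorem cj_sign : ∀ g ∈ cj, sign g = 1 := by simp [cj, dt, c3, sign_swap']

theorem i3_chk : ∀ x, sign (i3 x) = 1 ∧ x * x = 1 ∧ (x = 1 ∨ ∃ g ∈ cj, g * i3 x * g⁻¹ = dt 0 1 2 3 * dt 4 5 6 7) := by
  decide +kernel

theorem i4_chk : ∀ x, sign (i4 x) = 1 ∧ x * x = 1 ∧ (x = 1 ∨ if x.toAdd.1 = 0 ∧ x.toAdd.2.1 = 0 ∨ x.toAdd.2.2 = 0 then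
    ∃ g ∈ cj, g * i4 x * g⁻¹ = dt 0 1 2 3 else ∃ g ∈ cj, g * i4 x * g⁻¹ = dt 0 1 2 3 * dt 4 5 6 7) := by
  decide +kernel

theorem oddK [Finite G] (h2 : (2 : k) ≠ 0) {r : ℕ} (hr : 8 ≤ r) (φ : G →* alternatingGroup (Fin r)) (hφ : Function.Surjective φ)
    (hK : Odd (Nat.card φ.ker)) (ρ : G →* End k V) (hV : finrank k V = 27)
    (hi : ∀ u, orderOf u = 2 → tr (ρ u) = 3 ∨ tr (ρ u) = -5) : False := by
  classical
  obtain ⟨e⟩ := exists_emb (α := Fin r) (m := 8) (by simpa using hr)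
  have cj1 : ∀ x y : G, x * x = 1 → y * y = 1 → ∀ g : Perm (Fin 8), sign g = 1 → E e g * φ x * (E e g)⁻¹ = φ y →
      tr (ρ x) = tr (ρ y) := fun x y hx hy g hg q => by
    obtain ⟨a, ha⟩ := hφ ⟨E e g, by rw [mem_alternatingGroup, E_sign, hg]⟩
    have q1 : φ (a * x * a⁻¹) = φ y := Subtype.ext (by rw [map_mul, map_mul, map_inv, ha]; exact q)
    refine (tr_conj ρ (isConj_iff.2 ⟨a, rfl⟩)).trans (tr_conj ρ (dih (by
      rw [show a * x * a⁻¹ * (a * x * a⁻¹) = a * (x * x) * a⁻¹ by group, hx, mul_one, mul_inv_cancel]) hy ?_))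
    exact hK.of_dvd_nat (Subgroup.orderOf_dvd_natCard _ (show φ _ = 1 by rw [map_mul, q1, ← map_mul, hy, map_one]))
  have sec : ∀ {X : Type} [Group X] (ι : X →* Perm (Fin 8)), (∀ x, sign (ι x) = 1) → (∀ x : X, x * x = 1) →
      ∃ s : X →* G, ∀ x, (φ (s x) : Perm (Fin r)) = E e (ι x) := fun ι h1 h3 => by
    obtain ⟨s, hs⟩ := secA φ hφ hK h3 (((E e).comp ι).codRestrict _ fun x => by
      rw [mem_alternatingGroup, MonoidHom.comp_apply, E_sign, h1])
    exact ⟨s, fun x => congrArg Subtype.val (hs x)⟩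
  obtain ⟨s3, h3⟩ := sec i3 (fun x => (i3_chk x).1) fun x => (i3_chk x).2.1
  obtain ⟨s4, h4⟩ := sec i4 (fun x => (i4_chk x).1) fun x => (i4_chk x).2.1
  have q3 : ∀ x, s3 x * s3 x = 1 := fun x => by rw [← map_mul, (i3_chk x).2.1, map_one]
  have q4 : ∀ x, s4 x * s4 x = 1 := fun x => by rw [← map_mul, (i4_chk x).2.1, map_one]
  let a := s4 (.ofAdd (1, 0, 0, 0))
  let b := s4 (.ofAdd (1, 0, 1, 0))
  have ea : (φ a : Perm (Fin r)) = E e (dt 0 1 2 3) := (h4 _).trans (congrArg _ (by decide +kernel))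
  have eb : (φ b : Perm (Fin r)) = E e (dt 0 1 2 3 * dt 4 5 6 7) := (h4 _).trans (congrArg _ (by decide +kernel))
  have o2 : ∀ y : G, y * y = 1 → ∀ σ, σ ≠ 1 → (φ y : Perm (Fin r)) = E e σ → orderOf y = 2 := fun y hy σ hσ q =>
    orderOf_eq_prime (by rw [sq, hy]) fun q1 => hσ (E_inj e (by rw [← q, q1, map_one, map_one]; rfl))
  have ta := hi a (o2 a (q4 _) _ (by decide) ea)
  have tb := hi b (o2 b (q4 _) _ (by decide) eb)
  obtain ⟨m3, m3'⟩ := (mom h2 (ρ.comp s3) fun x => (i3_chk x).2.1).1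
  obtain ⟨m4, m4'⟩ := (mom h2 (ρ.comp s4) fun x => (i4_chk x).2.1).1
  have t3 : ∀ x, tr ((ρ.comp s3) x) = if x = 1 then 27 else tr (ρ b) := fun x => by
    split_ifs with q
    · rw [q, map_one, tr_one h2, hV]; rfl
    · obtain ⟨g, hg, q1⟩ := (i3_chk x).2.2.resolve_left q
      exact cj1 _ _ (q3 x) (q4 _) g (cj_sign g hg) (by rw [h3, eb, ← q1, map_mul, map_mul, map_inv])
  have t4 : ∀ x, tr ((ρ.comp s4) x) = if x = 1 then 27 else
      if x.toAdd.1 = 0 ∧ x.toAdd.2.1 = 0 ∨ x.toAdd.2.2 = 0 then tr (ρ a) else tr (ρ b) := fun x => by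
    have q0 := (i4_chk x).2.2
    split_ifs with q q'
    · rw [q, map_one, tr_one h2, hV]; rfl
    · rw [if_pos q'] at q0
      obtain ⟨g, hg, q1⟩ := q0.resolve_left q
      exact cj1 _ _ (q4 x) (q4 _) g (cj_sign g hg) (by rw [h4, ea, ← q1, map_mul, map_mul, map_inv])
    · rw [if_neg q'] at q0
      obtain ⟨g, hg, q1⟩ := q0.resolve_left q
      exact cj1 _ _ (q4 x) (q4 _) g (cj_sign g hg) (by rw [h4, eb, ← q1, map_mul, map_mul, map_inv])
  simp only [t3, t4] at m3' m4'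
  rw [show Fintype.card (Multiplicative (ZMod 2 × ZMod 2 × ZMod 2)) = 8 from rfl] at m3'
  rw [show Fintype.card (Multiplicative (ZMod 2 × ZMod 2 × ZMod 2 × ZMod 2)) = 16 from rfl] at m4'
  rcases tb with tb | tb
  · rcases ta with ta | ta
    · rw [ta, tb, show (∑ _, _ : ℤ) = 72 by decide +kernel] at m4'
      omega
    · rw [ta, tb, show (∑ _, _ : ℤ) = 24 by decide +kernel] at m4'
      omega
  · rw [tb, show (∑ _, _ : ℤ) = -8 by decide +kernel] at m3'
    omega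

theorem cenZ [Finite G] (h2 : (2 : k) ≠ 0) {r : ℕ} (hr : 12 ≤ r) (φ : G →* alternatingGroup (Fin r)) (hφ : Function.Surjective φ)
    (hK : ¬ Odd (Nat.card φ.ker)) (hnil : Group.IsNilpotent φ.ker) (ρ : G →* End k V) (hV : finrank k V = 27)
    (hi : ∀ u, orderOf u = 2 → tr (ρ u) = 3 ∨ tr (ρ u) = -5) : ∃ z : G, orderOf z = 2 ∧ ∀ g, g * z = z * g := by
  classical
  set K := φ.ker with hK'
  let Z : Subgroup G :=
    { carrier := {u | u ∈ K ∧ (∀ y ∈ K, u * y = y * u) ∧ u ^ 2 = 1}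
      one_mem' := ⟨one_mem _, by simp, one_pow _⟩
      mul_mem' := by
        rintro a b ⟨a1, a2, a3⟩ ⟨b1, b2, b3⟩
        exact ⟨mul_mem a1 b1, fun y hy => by rw [mul_assoc, b2 y hy, ← mul_assoc, a2 y hy, mul_assoc],
          by rw [Commute.mul_pow (a2 b b1), a3, b3, one_mul]⟩
      inv_mem' := by
        rintro a ⟨a1, a2, a3⟩
        exact ⟨inv_mem a1, fun y hy => (Commute.inv_left (a2 y hy)).eq, by rw [inv_pow, a3, inv_one]⟩ }
  have nK : K.Normal := inferInstance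
  have nE : Z.Normal := ⟨by
    rintro a ⟨a1, a2, a3⟩ g
    refine ⟨nK.conj_mem a a1 g, fun y hy => ?_, by rw [conj_pow, a3, mul_one, mul_inv_cancel]⟩
    have := a2 _ (nK.conj_mem' y hy g)
    calc g * a * g⁻¹ * y = g * (a * (g⁻¹ * y * g)) * g⁻¹ := by group
      _ = _ := by rw [this]; group⟩
  let _ : CommGroup Z := { (inferInstance : Group Z) with mul_comm := fun a b => Subtype.ext (a.2.2.1 b b.2.1) }
  let ψ0 : G →* MulAut Z := MulAut.conjNormal
  have hψ0 : K ≤ ψ0.ker := fun y hy => MulEquiv.ext fun a => Subtype.ext (by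
    change y * a * y⁻¹ = a
    rw [← a.2.2.1 _ hy, mul_inv_cancel_right])
  by_cases hne : ∃ g, ψ0 g ≠ 1
  · exfalso
    obtain ⟨g, hg⟩ := hne
    have h1 := autb 2 (fun a : Z => Subtype.ext a.2.2.2) (by omega) (φ.liftOfSurjective hφ ⟨ψ0, hψ0⟩)
      ⟨φ g, by rwa [MonoidHom.liftOfRightInverse_comp_apply]⟩
    let _ := Fintype.ofFinite Z
    have h3 := (mom h2 (ρ.comp Z.subtype) fun a => Subtype.ext ((sq _).symm.trans a.2.2.2)).2
    have h4 : ∑ a : Z, tr ((ρ.comp Z.subtype) a) ^ 2 ≤ ∑ a : Z, (25 + if a = 1 then 704 else 0) :=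
      Finset.sum_le_sum fun a _ => by
        split_ifs with q
        · rw [q, map_one, tr_one h2, hV]; rfl
        · rcases hi a (orderOf_eq_prime a.2.2.2 fun e => q (Subtype.ext e)) with e | e <;>
            rw [show (ρ.comp Z.subtype) a = ρ a from rfl, e] <;> decide
    rw [Finset.sum_add_distrib, Finset.sum_ite_eq', if_pos (Finset.mem_univ _), Finset.sum_const, Finset.card_univ,
      nsmul_eq_mul] at h4
    rw [hV] at h3
    rw [Nat.card_eq_fintype_card] at h1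
    have h5 : 2 ^ 10 ≤ 2 ^ (r - 2) := Nat.pow_le_pow_right two_pos (by omega)
    push_cast at h3
    omega
  · push Not at hne
    let P : Sylow 2 K := default
    have : (P : Subgroup K).Normal := Sylow.normal_of_normalizerCondition normalizerCondition_of_isNilpotent P
    obtain ⟨z, z1, z2, z3⟩ := H04.exists_mem_center_of_normal (P : Subgroup K)
      (P.ne_bot_of_dvd_card (Nat.not_odd_iff_even.1 hK).two_dvd)
    obtain ⟨n, hn⟩ := IsPGroup.iff_orderOf.1 P.isPGroup' ⟨z, z1⟩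
    obtain _ | n := n
    · exact absurd (congrArg Subtype.val (orderOf_eq_one_iff.1 hn)) z2
    rw [← Subgroup.orderOf_coe, ← Subgroup.orderOf_coe] at hn
    have h1 : orderOf ((z : G) ^ 2 ^ n) = 2 := by
      rw [orderOf_pow, hn, Nat.gcd_eq_right (pow_dvd_pow _ n.le_succ), pow_succ, Nat.mul_div_cancel_left _ (pow_pos two_pos _)]
    have h3 : (z : G) ^ 2 ^ n ∈ Z := ⟨pow_mem z.2 _, fun y hy => (Commute.pow_left (show Commute (z : G) y from
      (congrArg Subtype.val (Subgroup.mem_center_iff.1 z3 ⟨y, hy⟩)).symm) _).eq, by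
      have := pow_orderOf_eq_one ((z : G) ^ 2 ^ n)
      rwa [h1] at this⟩
    exact ⟨_, h1, fun g => mul_inv_eq_iff_eq_mul.1 (congrArg Subtype.val (MulEquiv.congr_fun (hne g) ⟨_, h3⟩))⟩

end H28.Ea
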