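import Cfsg.Agent.H28.Ea1
import Cfsg.Agent.H16.E6c

/-!
# Centralizers of involutions in the isometry group of the cubic form of type `E₆`
-/

set_option autoImplicit false
set_option synthInstance.maxSize 4096

open Module

namespace H28.Ea
open H28.Al H16.E6 Cfsg.Lie

universe u v

variable {F : Type u} [Field F]

theorem ev_lin (L : ML) (x x' y y' z z' : I27 → F) (t : F) :
    (ev L (x + x') y z = ev L x y z + ev L x' y z ∧ ev L x (y + y') z = ev L x y z + ev L x y' z ∧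
      ev L x y (z + z') = ev L x y z + ev L x y z') ∧ ev L (t • x) y z = t * ev L x y z ∧
      ev L x (t • y) z = t * ev L x y z ∧ ev L x y (t • z) = t * ev L x y z := by
  induction L with
  | nil => simp [ev]
  | cons p L ih =>
    simp only [ev_cons, ih, Pi.add_apply, Pi.smul_apply, smul_eq_mul]
    refine ⟨⟨?_, ?_, ?_⟩, ?_, ?_, ?_⟩ <;> ring

theorem TT_add1 (x x' y z : I27 → F) : TT (x + x') y z = TT x y z + TT x' y z := (ev_lin _ x x' y y z z 0).1.1
theorem TT_add2 (x y y' z : I27 → F) : TT x (y + y') z = TT x y z + TT x y' z := (ev_lin _ x x y y' z z 0).1.2.1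
theorem TT_add3 (x y z z' : I27 → F) : TT x y (z + z') = TT x y z + TT x y z' := (ev_lin _ x x y y z z' 0).1.2.2
theorem TT_smul1 (t : F) (x y z : I27 → F) : TT (t • x) y z = t * TT x y z := (ev_lin _ x x y y z z t).2.1
theorem TT_smul2 (t : F) (x y z : I27 → F) : TT x (t • y) z = t * TT x y z := (ev_lin _ x x y y z z t).2.2.1
theorem TT_smul3 (t : F) (x y z : I27 → F) : TT x y (t • z) = t * TT x y z := (ev_lin _ x x y y z z t).2.2.2
theorem TT_zero1 (y z : I27 → F) : TT 0 y z = 0 := by simpa using TT_smul1 0 0 y z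
theorem TT_zero2 (y z : I27 → F) : TT y 0 z = 0 := by simpa using TT_smul2 0 y 0 z
theorem TT_zero3 (y z : I27 → F) : TT y z 0 = 0 := by simpa using TT_smul3 0 y z 0

/-- the natural representation -/
noncomputable def r0 : E6univ F →* End F (I27 → F) :=
  (Matrix.toLinAlgEquiv' (R := F) (n := I27)).toMulEquiv.toMonoidHom.comp ((Units.coeHom _).comp (E6univ F).subtype)

theorem r0_app (g : E6univ F) (x : I27 → F) : r0 g x = ac g x := Matrix.toLinAlgEquiv'_apply _ _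

/-- `D` is diagonal with entries `-1` on `N` and `1` elsewhere -/
def Dg (D : E6univ F) (N : I27 → Bool) : Prop := ∀ x v, ac D x v = (if N v then -1 else 1) * x v

/-- the weights on which the reflection in `r` is nontrivial -/
def ng (r : Fin 72) (v : I27) : Bool := sr r v ≠ 0 ∨ sr r.rev v ≠ 0

/-- the sixteen weights -/
def n1 (v : I27) : Bool := xor (ng 56 v) (ng 46 v)

theorem dg_hh (r : Fin 72) : Dg (hh r (-1 : F)) (ng r) := fun x v => by
  rw [ac_hh r (by simp), ng]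
  by_cases h1 : sr r v = 0 <;> by_cases h2 : sr r.rev v = 0 <;> simp [h1, h2]

theorem dg_n1 : Dg (hh 56 (-1 : F) * hh 46 (-1)) n1 := fun x v => by
  rw [ac_mul, dg_hh, dg_hh, n1]
  cases ng 56 v <;> cases ng 46 v <;> simp

variable (h2 : (2 : F) ≠ 0) {D : E6univ F} {N : I27 → Bool} (h : Dg D N)
include h2 h

theorem Dg.neg {x : I27 → F} : x ∈ Eg (r0 D) (-1) ↔ ∀ v, ¬ N v → x v = 0 := by
  rw [mem_Eg, r0_app, funext_iff]
  refine forall_congr' fun v => ?_
  rw [h, Pi.smul_apply, smul_eq_mul]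
  cases N v
  · simp only [Bool.false_eq_true, if_false, not_false_iff, true_imp_iff]
    exact ⟨fun q => (mul_eq_zero.1 (show 2 * x v = 0 by linear_combination q)).resolve_left h2, fun q => by simp [q]⟩
  · simp

theorem Dg.pos {x : I27 → F} : x ∈ Eg (r0 D) 1 ↔ ∀ v, N v → x v = 0 := by
  rw [mem_Eg, r0_app, funext_iff]
  refine forall_congr' fun v => ?_
  rw [h, Pi.smul_apply, smul_eq_mul]
  cases N v
  · simp
  · simp only [if_true, true_imp_iff]
    exact ⟨fun q => (mul_eq_zero.1 (show 2 * x v = 0 by linear_combination -q)).resolve_left h2, fun q => by simp [q]⟩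

theorem Dg.rk : finrank F (Eg (r0 D) (-1)) = (Finset.univ.filter fun v => N v).card ∧
    finrank F (Eg (r0 D) 1) = (Finset.univ.filter fun v => ¬ N v).card := by
  have e : ∀ i, r0 D (Pi.basisFun F I27 i) = (if N i then (-1 : F) else 1) • Pi.basisFun F I27 i := fun i => by
    funext v
    rw [r0_app, h, Pi.smul_apply, smul_eq_mul, Pi.basisFun_apply]
    by_cases q : v = i <;> simp [q]
  have n : (1 : F) ≠ -1 := fun q => h2 (by linear_combination q)
  exact ⟨diag_rk _ _ _ e _ _ fun i => by cases N i <;> simp [n], diag_rk _ _ _ e _ _ fun i => by cases N i <;> simp [n.symm]⟩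

theorem Dg.eneg {s : I27} (hs : N s) : (ee s : I27 → F) ∈ Eg (r0 D) (-1) :=
  (h.neg h2).2 fun _ hv => ee_ne fun q => hv (q ▸ hs)

theorem Dg.epos {s : I27} (hs : ¬ N s) : (ee s : I27 → F) ∈ Eg (r0 D) 1 :=
  (h.pos h2).2 fun _ hv => ee_ne fun q => hs (q ▸ hv)

omit h
variable {G : Type v} [Group G] (hG : H10 F G) (j : G →* E6univ F) {z : G} (hz : ∀ g, g * z = z * g)
include hG hz

theorem b1 (h : Dg (j z) n1) : False := by
  have hK : ∃ a : F, a ≠ 0 ∧ a ≠ 1 := ⟨-1, by simp, fun q => h2 (by linear_combination -q)⟩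
  let ρ := r0.comp j
  have ra : ∀ g x, ρ g x = ac (j g) x := fun g x => r0_app _ _
  have iv : ∀ g l, ∀ x ∈ Eg (r0 (j z)) l, ρ g x ∈ Eg (r0 (j z)) l := fun g l =>
    Eg_inv (show ρ z * ρ g = ρ g * ρ z by rw [← map_mul, ← hz, map_mul]) l
  have mv : ∀ g x y w, TT x y w = TT (ρ g x) (ρ g y) (ρ g w) := fun g x y w => by rw [ra, ra, ra, TT_ac hK]
  have ci : ∀ g x, ρ g⁻¹ (ρ g x) = x := fun g x => by rw [ra, ra, map_inv, inv_ac]
  let U : Submodule F (I27 → F) :=
    { carrier := {v | v ∈ Eg (r0 (j z)) 1 ∧ ∀ a ∈ Eg (r0 (j z)) (-1), ∀ b, TT v a b = 0}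
      add_mem' := fun hx hy => ⟨add_mem hx.1 hy.1, fun a ha b => by rw [TT_add1, hx.2 a ha, hy.2 a ha, add_zero]⟩
      zero_mem' := ⟨zero_mem _, fun a _ b => TT_zero1 a b⟩
      smul_mem' := fun t x hx => ⟨Submodule.smul_mem _ _ hx.1, fun a ha b => by rw [TT_smul1, hx.2 a ha, mul_zero]⟩ }
  have u1 : (ee (0, 2, 2) : I27 → F) ∈ U := ⟨h.epos h2 (by decide +kernel), fun a ha b => TT_ee_zero (fun v hv =>
    (h.neg h2).1 ha v ((by decide +kernel : ∀ v, Mt (0, 2, 2) v → ¬ n1 v) v hv)) b⟩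
  have u2 := pos_rk u1 fun q => one_ne_zero ((ee_self _).symm.trans (congrFun q _))
  have u3 := fun g => tr10 hG ρ (U := U) (fun g x hx => ⟨iv g _ x hx.1, fun a ha b => by
    rw [mv g⁻¹, ci, hx.2 _ (iv _ _ a ha)]⟩) (fun g => iv g 1) (fun x hx => hx.1) (by
      rw [(h.rk h2).2, show Finset.card _ = 11 by decide +kernel]; omega) g _ (h.epos h2 (s := (0, 0, 0)) (by decide +kernel))
  let R : Submodule F (I27 → F) :=
    { carrier := {a | a ∈ Eg (r0 (j z)) (-1) ∧ ∀ b, TT (ee (0, 0, 0)) a b = 0}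
      add_mem' := fun hx hy => ⟨add_mem hx.1 hy.1, fun b => by rw [TT_add2, hx.2, hy.2, add_zero]⟩
      zero_mem' := ⟨zero_mem _, fun b => TT_zero2 _ b⟩
      smul_mem' := fun t x hx => ⟨Submodule.smul_mem _ _ hx.1, fun b => by rw [TT_smul2, hx.2, mul_zero]⟩ }
  refine red2 h2 hG ρ hz (U := R) ((h.rk h2).1.le.trans (by decide +kernel)) (fun g x hx => ⟨iv g _ x hx.1, fun b => ?_⟩)
    (fun x hx => hx.1) ⟨ee (0, 0, 2), ⟨h.eneg h2 (by decide +kernel), fun b => ?_⟩,
      fun q => one_ne_zero ((ee_self _).symm.trans (congrFun q _))⟩ ⟨ee (0, 1, 2), h.eneg h2 (by decide +kernel), fun q => ?_⟩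
  · rw [mv g⁻¹, ci, ← sub_add_cancel (ρ g⁻¹ (ee _)) (ee (0, 0, 0)), TT_add1, (u3 g⁻¹).2 _ hx.1, hx.2, add_zero]
  · rw [TT_ee, show c2 _ _ = 0 by decide +kernel]; simp
  · have := q.2 (ee (thd (0, 0, 0) (0, 1, 2)))
    rw [TT_ee, ee_self, mul_one] at this
    exact c2_ne (by decide +kernel) this

omit h2 hG hz in
theorem b2_chk : ∀ u a : I27, ¬ ng 56 u ∨ ¬ ng 56 a ∨ (u.1 = 0 ∧ u.2.1 = 0 ∧ a.1 = 0 ∧ a.2.1 = 0) ∨
    ∃ b c, ng 56 b ∧ ¬ ng 56 c ∧ Mt c b ∧ thd c b = u ∧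
      (c2 c a = 0 ∨ ((thd c a).1 = 0 ∧ (thd c a).2.1 = 0 ∧ b.1 = 0 ∧ b.2.1 = 0)) := by decide +kernel

theorem b2 (h : Dg (j z) (ng 56)) : False := by
  have hK : ∃ a : F, a ≠ 0 ∧ a ≠ 1 := ⟨-1, by simp, fun q => h2 (by linear_combination -q)⟩
  let ρ := r0.comp j
  have ra : ∀ g x, ρ g x = ac (j g) x := fun g x => r0_app _ _
  have iv : ∀ g l, ∀ x ∈ Eg (r0 (j z)) l, ρ g x ∈ Eg (r0 (j z)) l := fun g l =>
    Eg_inv (show ρ z * ρ g = ρ g * ρ z by rw [← map_mul, ← hz, map_mul]) l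
  have mv : ∀ g x y w, TT x y w = TT (ρ g x) (ρ g y) (ρ g w) := fun g x y w => by rw [ra, ra, ra, TT_ac hK]
  have ci : ∀ g x, ρ g⁻¹ (ρ g x) = x := fun g x => by rw [ra, ra, map_inv, inv_ac]
  let M : Submodule F (End F (I27 → F)) :=
    { carrier := {f | (∀ v, f v ∈ Eg (r0 (j z)) (-1)) ∧ (∀ c ∈ Eg (r0 (j z)) 1, f c = 0) ∧
        ∀ a ∈ Eg (r0 (j z)) (-1), ∀ b ∈ Eg (r0 (j z)) (-1), ∀ c ∈ Eg (r0 (j z)) 1, TT c (f a) b + TT c a (f b) = 0}
      add_mem' := fun {f g} hf hg => ⟨fun v => add_mem (hf.1 v) (hg.1 v), fun c hc => by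
        rw [LinearMap.add_apply, hf.2.1 c hc, hg.2.1 c hc, add_zero], fun a ha b hb c hc => by
        rw [LinearMap.add_apply, LinearMap.add_apply, TT_add2, TT_add3]
        linear_combination hf.2.2 a ha b hb c hc + hg.2.2 a ha b hb c hc⟩
      zero_mem' := ⟨fun _ => zero_mem _, fun _ _ => rfl, fun a _ b _ c _ => by
        rw [LinearMap.zero_apply, LinearMap.zero_apply, TT_zero2, TT_zero3, add_zero]⟩
      smul_mem' := fun t f hf => ⟨fun v => Submodule.smul_mem _ _ (hf.1 v), fun c hc => by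
        rw [LinearMap.smul_apply, hf.2.1 c hc, smul_zero], fun a ha b hb c hc => by
        rw [LinearMap.smul_apply, LinearMap.smul_apply, TT_smul2, TT_smul3, ← mul_add, hf.2.2 a ha b hb c hc, mul_zero]⟩ }
  let L : M →ₗ[F] (Fin 3 × Fin 3 → F) :=
    { toFun := fun f p => f.1 (ee (0, 0, p.1)) (0, 0, p.2)
      map_add' := fun _ _ => rfl
      map_smul' := fun _ _ => rfl }
  have hL0 : ∀ f ∈ M, (∀ p : Fin 3 × Fin 3, f (ee (0, 0, p.1)) (0, 0, p.2) = 0) → f = 0 := fun f hf hf0 => by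
    have e1 : ∀ u a : I27, u.1 = 0 ∧ u.2.1 = 0 ∧ a.1 = 0 ∧ a.2.1 = 0 → f (ee a) u = 0 := by
      rintro ⟨_, _, u⟩ ⟨_, _, a⟩ ⟨rfl, rfl, rfl, rfl⟩
      exact hf0 (a, u)
    refine (Pi.basisFun F I27).ext fun a => funext fun u => ?_
    rw [Pi.basisFun_apply]
    change f (ee a) u = 0
    by_cases ha : ng 56 a
    · rcases b2_chk u a with q | q | q | ⟨b, c, q1, q2, q3, rfl, q4⟩
      · exact (h.neg h2).1 (hf.1 _) u q
      · exact absurd ha q
      · exact e1 u a q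
      · have := hf.2.2 _ (h.eneg h2 ha) _ (h.eneg h2 q1) _ (h.epos h2 q2)
        rw [TT_ee, show TT (ee c) (f (ee a)) (ee b) = TT (ee c) (ee b) (f (ee a)) from ev_symm _ _ _ _, TT_ee] at this
        refine (mul_eq_zero.1 ?_).resolve_left (c2_ne q3)
        rcases q4 with q4 | q4
        · simpa [q4] using this
        · simpa [e1 _ _ q4] using this
    · rw [hf.2.1 _ (h.epos h2 ha)]; rfl
  have hL : Function.Injective L := fun a b q =>
    Subtype.ext (sub_eq_zero.1 (hL0 (a.1 - b.1) (sub_mem a.2 b.2) fun p => sub_eq_zero.2 (congrFun q p)))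
  have hM := LinearMap.finrank_le_finrank_of_injective hL
  rw [Module.finrank_fintype_fun_eq_card] at hM
  let X : End F (I27 → F) := r0 (yy 56 1) - 1
  have x1 : ∀ x v, X x v = sr (56 : Fin 72) v * x (src (56 : Fin 72) v) := fun x v => by
    change r0 _ x v - x v = _
    rw [r0_app, ac_yy]; ring
  have x2 : ∀ t x, ac (yy 56 t) x = x + t • X x := fun t x => funext fun v => by
    rw [ac_yy, Pi.add_apply, Pi.smul_apply, x1, smul_eq_mul]
  have x3 : ∀ c ∈ Eg (r0 (j z)) 1, X c = 0 := fun c hc => funext fun v => by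
    rw [x1]
    rcases (by decide +kernel : ∀ v, sr (56 : Fin 72) v = 0 ∨ ng 56 (src (56 : Fin 72) v)) v with q | q
    · rw [q, Int.cast_zero, zero_mul]; rfl
    · rw [(h.pos h2).1 hc _ q, mul_zero]; rfl
  have x4 : X ∈ M := ⟨fun x => (h.neg h2).2 fun v hv => by
    rw [x1, (by decide +kernel : ∀ v, ¬ ng 56 v → sr (56 : Fin 72) v = 0) v hv]; simp, x3, fun a _ b _ c hc => by
    have e1 := TT_ac hK (yy 56 1) c a b
    have e2 := TT_ac hK (yy 56 (-1)) c a b
    simp only [x2, x3 c hc, smul_zero, add_zero, TT_add2, TT_add3, TT_smul2, TT_smul3] at e1 e2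
    exact (mul_eq_zero.1 (show (2 : F) * (TT c (X a) b + TT c a (X b)) = 0 by linear_combination e1 - e2)).resolve_left h2⟩
  let ρc : G →* End F (End F (I27 → F)) :=
    { toFun := fun g => (LinearMap.mulLeft F (ρ g)).comp (LinearMap.mulRight F (ρ g⁻¹))
      map_one' := by ext1 f; simp
      map_mul' := fun a b => by ext1 f; simp [mul_assoc] }
  have c1 : ∀ g f x, ρc g f x = ρ g (f (ρ g⁻¹ x)) := fun _ _ _ => rfl
  have c2' : ∀ g x, ρ g (X (ρ g⁻¹ x)) = X x := fun g x => by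
    have := tr10 hG ρc (U := ⊥) (W := M) (fun g w hw => by rw [hw]; simp) (fun g f hf => ⟨fun v => iv _ _ _ (hf.1 _),
      fun c hc => by rw [c1, hf.2.1 _ (iv _ _ c hc), map_zero], fun a ha b hb c hc => by
        rw [c1, c1, mv g⁻¹, mv g⁻¹ c a, ci, ci]
        exact hf.2.2 _ (iv _ _ a ha) _ (iv _ _ b hb) _ (iv _ _ c hc)⟩) bot_le (by simp at hM ⊢; omega) g X x4
    exact LinearMap.congr_fun (sub_eq_zero.1 this) x
  refine red2 h2 hG ρ hz (U := LinearMap.ker X ⊓ Eg (r0 (j z)) (-1)) ((h.rk h2).1.le.trans (by decide +kernel))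
    (fun g x hx => ⟨?_, iv g _ x hx.2⟩) inf_le_right ⟨ee (0, 0, 0), ⟨?_, h.eneg h2 (by decide +kernel)⟩,
      fun q => one_ne_zero ((ee_self _).symm.trans (congrFun q _))⟩ ⟨ee (0, 0, 1), h.eneg h2 (by decide +kernel), fun q => ?_⟩
  · change X _ = 0
    rw [← c2' g, ci, show X x = 0 from hx.1, map_zero]
  · change X _ = 0
    have := x2 1 (ee (0, 0, 0))
    rw [yy_fix (by decide +kernel), one_smul] at this
    exact left_eq_add.1 this
  · have := congrFun (show X _ = 0 from q.1) (0, 0, 0)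
    rw [x1, show src _ _ = (0, 0, 1) by decide +kernel, ee_self, mul_one] at this
    exact sr_ne (by decide +kernel) this

end H28.Ea
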