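import Mathlib
import Cfsg.Agent.H28.El25

/-!
# Elements conjugate into subfield subgroups (namespace `H28.El`)
-/

set_option autoImplicit false

open Module Polynomial H24.Sim Matrix Cfsg.Geo

namespace H28.El

theorem rank_map {K L n : Type*} [Field K] [Field L] [Fintype n] [DecidableEq n] (f : K →+* L) (A : Matrix n n K) :
    (A.map f).rank = A.rank := by
  classical
  obtain ⟨U, V, D, rfl⟩ := Pivot.exists_list_transvec_mul_diagonal_mul_list_transvec A
  have h1 := TransvectionStruct.det_toMatrix_prod U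
  have h2 := TransvectionStruct.det_toMatrix_prod V
  generalize (U.map TransvectionStruct.toMatrix).prod = U at h1
  generalize (V.map TransvectionStruct.toMatrix).prod = V at h2
  have h3 : ∀ U : Matrix n n K, U.det = 1 → IsUnit (U.map f).det := fun U h => by
    rw [← RingHom.mapMatrix_apply, ← RingHom.map_det, h, map_one]; exact isUnit_one
  rw [Matrix.map_mul, Matrix.map_mul, diagonal_map (map_zero f), rank_mul_eq_left_of_isUnit_det _ _ (h3 V h2),
    rank_mul_eq_left_of_isUnit_det V _ (h2 ▸ isUnit_one), rank_mul_eq_right_of_isUnit_det _ _ (h3 U h1),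
    rank_mul_eq_right_of_isUnit_det U _ (h1 ▸ isUnit_one), rank_diagonal, rank_diagonal]
  simp

theorem geom_mul {a : ℕ} (ha : 0 < a) (k : ℕ) : a ^ k - 1 = (a - 1) * ∑ i ∈ Finset.range k, a ^ i :=
  (geom_sum_mul_of_one_le ha k).symm.trans (mul_comm _ _)

theorem dvd_geom {r a k : ℕ} (h : r ∣ ∑ i ∈ Finset.range k, a ^ i) (ha : 0 < a) (h1 : r ∣ a - 1) : r ∣ k := by
  rw [← ZMod.natCast_eq_zero_iff] at h ⊢
  simpa [(ZMod.natCast_eq_natCast_iff _ _ _).2 ((Nat.modEq_iff_dvd' ha).2 h1).symm] using h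

theorem idx_arith {r S a G P E T Q : ℕ} (h1 : r * S * (a * G) ∣ P * (E * G) * T) (h2 : a * S = P * Q) (hP : P ≠ 0) (hG : G ≠ 0) :
    r ∣ E * T := dvd_cancel (A := Q) (by convert h1 using 1; exacts [by linear_combination (r * G) * h2.symm, by ring]) (mul_ne_zero hP hG)

variable {ι : Type} [Fintype ι] [DecidableEq ι] {F : Type*} [Field F] {K : Subfield F} {g y : End F (ι → F)} {r : ℕ} {c z : F}
  {A : Matrix ι ι K}

theorem mem_iff_pow [Fintype K] (t : F) : t ^ Fintype.card K = t ↔ t ∈ K := by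
  classical
  have h : (X ^ Fintype.card K - X : K[X]).Splits := (splits_iff_card_roots.2 (by
    rw [FiniteField.roots_X_pow_card_sub_X, FiniteField.X_pow_card_sub_X_natDegree_eq _ Fintype.one_lt_card]; rfl))
  have := h.roots_map K.subtype ▸ Multiset.mem_map (b := t)
  simpa [sub_eq_zero, iff_comm, FiniteField.X_pow_card_sub_X_ne_zero F Fintype.one_lt_card,
    FiniteField.roots_X_pow_card_sub_X] using this

/-- extension of scalars of a matrix -/
def mp (A : Matrix ι ι K) : End F (ι → F) := toLin' (A.map K.subtype)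

variable (K) in
/-- conjugate to a matrix over the subfield -/
def RT (g : End F (ι → F)) : Prop := ∃ A : Matrix ι ι K, Iso g (mp A)

theorem mem_sub {x : GL ι F} : x ∈ subfieldSubgroup K 1 ↔ ∃ c : F, ∃ A : Matrix ι ι K, x.1 = c • A.map K.subtype := by
  rw [subfieldSubgroup, map_one, show (1 : MulAut (GL ι F)).toMonoidHom = MonoidHom.id _ from rfl, Subgroup.map_id]
  refine ⟨fun h => ?_, fun ⟨c, A, h⟩ => ?_⟩
  · obtain ⟨_, ⟨a, rfl⟩, b, hb, rfl⟩ := Subgroup.mem_sup_of_normal_right.1 h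
    obtain ⟨c, hc⟩ := (mem_scalars_iff b).1 hb
    exact ⟨c, a.1, by simp [hc]⟩
  · have h1 := GeneralLinearGroup.det_ne_zero x
    rw [h, det_smul, ← RingHom.mapMatrix_apply, ← RingHom.map_det] at h1
    obtain ⟨a, rfl⟩ := (isUnit_iff_isUnit_det A).2 ((_root_.map_ne_zero _).1 (right_ne_zero_of_mul h1)).isUnit
    refine Subgroup.mem_sup_of_normal_right.2 ⟨_, ⟨a, rfl⟩, (GeneralLinearGroup.map K.subtype a)⁻¹ * x, ?_, by simp⟩
    cases isEmpty_or_nonempty ι
    · exact (mem_scalars_iff _).2 ⟨1, Subsingleton.elim _ _⟩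
    refine (mem_scalars_iff _).2 ⟨Units.mk0 c fun k => by simp [k] at h1, ?_⟩
    rw [Units.val_mul, h, Matrix.mul_smul]
    exact congrArg _ (GeneralLinearGroup.map K.subtype a).inv_mul

theorem scalars_le : scalars ι F ≤ subfieldSubgroup K 1 := fun x h => by
  obtain ⟨c, hc⟩ := (mem_scalars_iff x).1 h
  exact mem_sub.2 ⟨c, 1, by simp [hc]⟩

theorem RT.gc (h : RT K g) (h0 : LinearMap.det g ≠ 0) : GC (subfieldSubgroup K 1) g := by
  obtain ⟨A, h⟩ := h
  obtain ⟨x, hx⟩ := (isUnit_iff_isUnit_det _).2 (LinearMap.det_toLin' (A.map K.subtype) ▸ h.det ▸ h0).isUnit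
  exact ⟨x, mem_sub.2 ⟨1, A, by simp [hx]⟩, hx ▸ h⟩

theorem GC.rt (h : GC (subfieldSubgroup K 1) g) : ∃ (c : F) (A : Matrix ι ι K), Iso g (c • mp A) := by
  obtain ⟨x, h1, h2⟩ := h
  obtain ⟨c, A, h⟩ := mem_sub.1 h1
  exact ⟨c, A, by rwa [h, map_smul] at h2⟩

theorem mp_pow (A : Matrix ι ι K) (k : ℕ) : mp A ^ k = mp (A ^ k) := by rw [mp, mp, Matrix.map_pow, toLin'_pow]

theorem mp_smul (a : K) (A : Matrix ι ι K) : mp (a • A) = (a : F) • mp A := by
  rw [mp, mp, ← map_smul]; congr 1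

theorem mp_one : mp (1 : Matrix ι ι K) = 1 := by simp [mp, End.one_eq_id]

theorem mp_inj : Function.Injective (mp : Matrix ι ι K → _) := toLin'.injective.comp (Matrix.map_injective K.subtype.injective)

theorem map_sub_one (A : Matrix ι ι K) (k : ℕ) : (A.map K.subtype - 1) ^ k = ((A - 1) ^ k).map K.subtype := by
  rw [Matrix.map_pow, Matrix.map_sub _ (map_sub _), Matrix.map_one _ (map_zero _) (map_one _)]

theorem mv_mp (A : Matrix ι ι K) : finrank F (mv (mp A)) = finrank K (mv (toLin' A)) := by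
  rw [mp, ← rank_sub_one, ← rank_sub_one, ← pow_one (_ - 1), map_sub_one, rank_map, pow_one]

theorem isConj_map {B : Matrix ι ι K} (hA : IsNilpotent (A - 1)) (hB : IsNilpotent (B - 1)) (h : Iso (mp A) (mp B)) :
    IsConj A B := isConj_of_unip_rank hA hB fun k => by
  rw [← rank_map K.subtype, ← rank_map K.subtype, ← map_sub_one, ← map_sub_one]
  have := IsConj.rank_aeval ((isConj_iff_iso _ _).2 h) ((X - 1) ^ k)
  rwa [map_pow, map_pow, map_sub, map_sub, aeval_X, aeval_X, map_one, map_one] at this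

theorem rt_unip {k : ℕ} (h : (y - 1) ^ k = 0) : RT K y := by
  obtain ⟨B, rfl⟩ := toLin'.surjective y
  have h1 : IsNilpotent (B - 1) := ⟨k, toLin'.injective (by simpa [End.one_eq_id] using h)⟩
  obtain ⟨μ, h2, h3, h4⟩ := exists_utyp h1
  obtain ⟨A, h5⟩ := exists_of_utyp (F := K) h2 h3
  obtain ⟨l, hl⟩ := nilpotent_of_utyp h5
  refine ⟨A, (isConj_iff_iso _ _).1 (isConj_of_unip_rank h1 ⟨l, by rw [map_sub_one, hl, Matrix.map_zero _ (map_zero _)]⟩ fun j => ?_)⟩
  have := rank_pow_add h4 j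
  have := rank_pow_add h5 j
  rw [map_sub_one, rank_map]; omega

theorem dvd_of_typ {B : Matrix ι ι F} {m : ℕ} (h : toLin' B ^ m = 1) : ∀ f ∈ typ B, f ∣ X ^ m - 1 :=
  (aeval_eq_zero_iff B _).1 (toLin'.injective (by simpa [sub_eq_zero, End.one_eq_id] using h))

variable [Fintype F]

theorem irred_typ {B : Matrix ι ι F} {m : ℕ} (h0 : (m : F) ≠ 0) (h : toLin' B ^ m = 1) : ∀ f ∈ typ B, Irreducible f := by
  obtain ⟨p, _⟩ := CharP.exists F
  haveI := Fact.mk (CharP.char_is_prime F p)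
  exact irred_of_pow_eq_one p ((Nat.Prime.coprime_iff_not_dvd Fact.out).2 (mt (CharP.cast_eq_zero_iff F p m).2 h0)).symm
    (toLin'.injective (by simpa [End.one_eq_id] using h))

theorem rt_charpoly (h0 : (r : F) ≠ 0) (hy : y ^ r = 1) (h : y.charpoly ∈ lifts K.subtype) : RT K y := by
  obtain ⟨B, rfl⟩ := toLin'.surjective y
  rw [charpoly_toLin'] at h
  obtain ⟨P, h1, h2, h3⟩ := lifts_and_natDegree_eq_and_monic h B.charpoly_monic
  obtain ⟨A, h4, rfl⟩ := exists_irred_typ (n := ι) h3 (h2.trans B.charpoly_natDegree_eq_dim)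
  have h5 : A ^ r = 1 := by
    have := (aeval_eq_zero_iff A (X ^ r - 1)).2 fun f hf => by_contra fun k => (h4 f hf).not_isUnit <| (isUnit_map K.subtype).1 <|
      (Multiset.prod_induction (IsCoprime (f.map K.subtype)) (typ B) (fun _ _ => IsCoprime.mul_right) isCoprime_one_right
        fun b hb => (((h4 f hf).coprime_iff_not_dvd.2 k).map (mapRingHom K.subtype)).of_isCoprime_of_dvd_right
          (by simpa using dvd_of_typ hy b hb)).isUnit_of_dvd' dvd_rfl
        (by rw [prod_typ, ← h1, ← prod_typ]; exact Polynomial.map_dvd _ (Multiset.dvd_prod hf))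
    simpa [sub_eq_zero] using this
  exact ⟨A, (isConj_iff_iso _ _).1 (isConj_of_charpoly (irred_typ h0 hy) (irred_typ h0 ((mp_pow A r).trans (h5 ▸ mp_one)))
    (by rw [charpoly_map, h1]))⟩

variable [Fintype K] [hr : Fact r.Prime]

local notation "bb" => orderOf ((Fintype.card F : ℕ) : ZMod r)
local notation "b₀" => orderOf ((Fintype.card K : ℕ) : ZMod r)
local notation "qq" => Fintype.card F
local notation "q₀" => Fintype.card K
local notation "HH" => subfieldSubgroup K (1 : GL ι F)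

omit [Fintype F] [Fintype K] hr in
theorem cast_ne (h0 : (r : F) ≠ 0) : (r : K) ≠ 0 := fun k => h0 (by simpa using congrArg K.subtype k)

theorem rt_ord (h0 : (r : F) ≠ 0) (hy : y ^ r = 1) (h : b₀ = bb) : RT K y := by
  classical
  refine rt_charpoly h0 hy ?_
  obtain ⟨B, rfl⟩ := toLin'.surjective y
  rw [charpoly_toLin', ← prod_typ]
  refine multiset_prod_mem _ fun f hf => ?_
  have h1 := irred_typ h0 hy f hf
  have h2 := (isTyp_typ B).monic hf
  by_cases h3 : f ∣ X - 1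
  · exact ⟨X - 1, by simp [eq_of_monic_of_associated h2 monic_X_sub_one (h1.associated_of_dvd irred_X_sub_one h3)]⟩
  have h4 : (X ^ r - 1 : K[X]) ≠ 0 := X_pow_sub_C_ne_zero hr.out.pos 1
  obtain ⟨_, h5, h6⟩ := h1.prime.exists_mem_multiset_dvd (s := (UniqueFactorizationMonoid.normalizedFactors (X ^ r - 1 : K[X])).map
    (Polynomial.map K.subtype)) ((dvd_of_typ hy f hf).trans (by
      rw [← Polynomial.map_multiset_prod]
      simpa using Polynomial.map_dvd K.subtype (UniqueFactorizationMonoid.prod_normalizedFactors h4).symm.dvd))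
  obtain ⟨f₀, h7, rfl⟩ := Multiset.mem_map.1 h5
  obtain ⟨k1, k2, k3⟩ := (Polynomial.mem_normalizedFactors_iff h4).1 h7
  refine ⟨f₀, (eq_of_monic_of_dvd_of_natDegree_le h2 (k2.map _) h6 ?_)⟩
  rw [coe_mapRingHom, natDegree_map, natDegree_of_dvd (cast_ne h0) k1 k3 fun k => h3 (h6.trans (by simpa using Polynomial.map_dvd K.subtype k)),
    natDegree_of_dvd h0 h1 (dvd_of_typ hy f hf) h3, h]

omit [Fintype F] hr in
theorem ed_frob (A : Matrix ι ι K) (a : F) : ed (mp A) (a ^ q₀) = ed (mp A) a := by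
  have h : ∀ a, ed (mp A) a + (A.map K.subtype - a • 1).rank = Fintype.card ι := fun a => by
    have := kd_add_rank (A.map K.subtype) (X - C a)
    rwa [map_sub, aeval_X, aeval_C, Algebra.algebraMap_eq_smul_one] at this
  have h1 := h a
  have h2 := h (a ^ q₀)
  rw [← rank_map (FiniteField.frobeniusAlgHom K F).toRingHom] at h1
  refine Nat.add_right_cancel (h2.trans (Eq.trans ?_ h1).symm)
  congr 2
  ext i j
  rw [Matrix.map_apply, Matrix.sub_apply, Matrix.sub_apply, map_sub]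
  by_cases k : i = j <;> simp [k, (mem_iff_pow _).2 (A _ _).2]

omit hr in
theorem rt_sym (h0 : (r : F) ≠ 0) (hd : r ∣ q₀ + 1) {N : Multiset F} (h1 : Dg y N) (hy : y ^ r = 1) (h3 : N.map (·⁻¹) = N) :
    RT K y := by
  refine rt_charpoly h0 hy ((lifts_iff_coeff_lifts _).2 fun i => ?_)
  have h : y.charpoly.map (FiniteField.frobeniusAlgHom K F).toRingHom = y.charpoly := by
    rw [h1.charpoly, Polynomial.map_multiset_prod, Multiset.map_map]
    conv_rhs => rw [← h3, Multiset.map_map]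
    refine congrArg _ (Multiset.map_congr rfl fun a ha => ?_)
    obtain ⟨t, ht⟩ := hd
    simp [eq_inv_of_mul_eq_one_left (show a ^ q₀ * a = 1 by
      rw [← pow_succ, ht, pow_mul, h1.pow_iff.1 (hy.trans (one_smul _ _).symm) a ha, one_pow])]
  exact ⟨⟨_, (mem_iff_pow _).1 ((coeff_map _ _).symm.trans (congrArg (coeff · i) h))⟩, rfl⟩

omit [Fintype F] [Fintype K] hr in
theorem sub_pow [Nonempty ι] (h : Iso g (c • mp A)) (hg : g ^ r = z • 1) (hz : z ≠ 0) :
    ∃ u : K, u ≠ 0 ∧ A ^ r = u • 1 ∧ c ^ r * u = z := by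
  obtain ⟨i⟩ := ‹Nonempty ι›
  have h1 := (iso_pow h).1 hg
  rw [_root_.smul_pow, mp_pow] at h1
  have h2 : c ^ r * (A ^ r) i i = z := by simpa [mp] using congrFun (LinearMap.congr_fun h1 (Pi.single i 1)) i
  refine ⟨_, fun k => hz (by simp [← h2, k]), mp_inj (smul_right_injective _ (left_ne_zero_of_mul (h2 ▸ hz)) ?_), h2⟩
  simp only [h1, mp_smul, mp_one, smul_smul, h2]

omit [Fintype F] in
theorem sub_scalar [Nonempty ι] (hd : ¬ r ∣ q₀ - 1) (h : GC HH g) (hg : g ^ r = z • 1) (hz : z ≠ 0) :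
    ∃ (c : F) (A : Matrix ι ι K), A ^ r = 1 ∧ c ^ r = z ∧ Iso g (c • mp A) := by
  obtain ⟨c, A, h⟩ := h.rt
  obtain ⟨u, h1, h2, h3⟩ := sub_pow h hg hz
  obtain ⟨v, rfl⟩ := exists_root hd u
  have h4 : v ≠ 0 := by rintro rfl; simp [hr.out.ne_zero] at h1
  exact ⟨c * v, v⁻¹ • A, by rw [_root_.smul_pow, h2, smul_smul, inv_pow, inv_mul_cancel₀ h1, one_smul], by simp [mul_pow, ← h3],
    by rwa [mp_smul, smul_smul, Subfield.coe_inv, mul_inv_cancel_right₀ (by simpa)]⟩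

omit [Fintype F] hr in
theorem GC.frob [Nonempty ι] (h : GC HH g) (h0 : LinearMap.det g ≠ 0) : ∃ c, c ≠ 0 ∧ ∀ a, ed g ((a / c) ^ q₀ * c) = ed g a := by
  obtain ⟨c, A, h⟩ := h.rt
  have hc : c ≠ 0 := by rintro rfl; simp [h.det] at h0
  exact ⟨c, hc, fun a => by rw [iso_ed h, iso_ed h, ed_smul hc, ed_frob, ← ed_smul hc, div_mul_cancel₀ _ hc]⟩

omit [Fintype F] [Fintype K] hr in
theorem det_ne_of_pow {V : Type*} [AddCommGroup V] [Module F V] {y : End F V} (hr : r ≠ 0) (h : y ^ r = 1) :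
    LinearMap.det y ≠ 0 := fun k => by simpa [k, hr] using congrArg LinearMap.det h

omit hr in
theorem sq_of_mem (hq : qq = q₀ ^ 2) (h2 : (2 : F) ≠ 0) (u : K) : ∃ w : F, w ^ 2 = u := by
  obtain ⟨x, hx⟩ := H10.exists_norm_eq (Nat.card_eq_fintype_card.trans hq) ((mem_iff_pow _).2 u.2)
  have := odd_card (cast_ne (K := K) h2)
  exact ⟨x ^ ((q₀ + 1) / 2), by rw [← pow_mul, Nat.div_mul_cancel (by omega), pow_succ, hx]⟩

omit [Fintype F] [Fintype K] hr in
theorem det_sq {V : Type*} [AddCommGroup V] [Module F V] [FiniteDimensional F V] {y B : End F V} (h : fx y = mv y)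
    (hc : Commute B y) : ∃ w, w ^ 2 = LinearMap.det B := by
  have h1 : Commute B (y - 1) := hc.sub_right (Commute.one_right B)
  have h2 : fx y ≤ (fx y).comap B := inv_ker h1
  let e := (y - 1).quotKerEquivRange.trans (LinearEquiv.ofEq _ _ h.symm)
  refine ⟨_, Eq.symm ((B.det_eq_det_mul_det _ h2).trans ((congrArg _ (Iso.det ⟨e, fun v => ?_⟩)).trans (sq _).symm))⟩
  induction v using Submodule.Quotient.induction_on
  exact Subtype.ext (LinearMap.congr_fun h1.eq.symm _)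

omit [Fintype F] [Fintype K] hr in
theorem exists_det [Nonempty ι] {d : F} (hd : d ≠ 0) : ∃ P : GL ι F, P.1.det = d := by
  obtain ⟨i⟩ := ‹Nonempty ι›
  have h : (diagonal (Pi.mulSingle i d)).det = d := by simp [Finset.prod_pi_mulSingle']
  obtain ⟨P, hP⟩ := (isUnit_iff_isUnit_det _).2 (h.symm ▸ hd.isUnit)
  exact ⟨P, hP ▸ h⟩

variable {k : ℕ} (hq : Fintype.card F = Fintype.card K ^ k)
include hq

theorem sub_index [Nonempty ι] (h0 : (r : F) ≠ 0) (hk : k.Prime) (h : r ∣ (HH).relIndex (specialLinear ι F)) :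
    r = k ∨ ∃ j, 2 ≤ j ∧ j ≤ Fintype.card ι ∧ ¬ b₀ ∣ j ∧ bb ∣ j := by
  have h1 := idx_dvd (S := (specialLinear ι K).map (GeneralLinearGroup.map K.subtype)) h
    (by rintro _ ⟨a, -, rfl⟩; exact mem_sub.2 ⟨1, a.1, (one_smul _ _).symm⟩) (by
      rintro _ ⟨a, ha, rfl⟩
      exact H09.mem_specialLinear.2 ((K.subtype.map_det a.1).symm.trans (by rw [H09.mem_specialLinear.1 ha, map_one])))
  rw [Subgroup.card_map_of_injective fun a b k => Units.ext (Matrix.map_injective K.subtype.injective (congrArg Units.val k))] at h1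
  have h2 := H09.card_SL_mul (ι := ι) (F := K)
  rw [Nat.card_congr (H09.slEquivKerDet (ι := ι) (R := K)).toEquiv, H09.card_GL, prod_gl] at h2
  have h3 : ∀ i, qq ^ i - 1 = (q₀ ^ i - 1) * ∑ j ∈ Finset.range k, (q₀ ^ i) ^ j := fun i => by
    rw [hq, pow_right_comm, geom_mul (pow_pos Fintype.card_pos _)]
  obtain ⟨n, hn⟩ := Nat.exists_eq_add_one.2 (Fintype.card_pos (α := ι))
  have h4 := h3 1
  rw [pow_one, pow_one] at h4
  simp only [h3, Finset.prod_mul_distrib] at h1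
  rw [h4, hn, Finset.prod_range_succ' fun i => ∑ j ∈ Finset.range k, (q₀ ^ (i + 1)) ^ j, zero_add, pow_one] at h1
  have h5 : ∑ j ∈ Finset.range k, q₀ ^ j ≠ 0 := fun l => by have := Fintype.one_lt_card (α := F); rw [l] at h4; omega
  rw [hn] at h2
  obtain ⟨i, hi, h8⟩ := (hr.out.prime.dvd_finset_prod_iff _).1 (dvd_of_dvd_mul_pow hr.out h0 
    (idx_arith h1 h2 (pp_ne id (n + 1)) h5))
  by_cases h9 : b₀ ∣ i + 1 + 1
  · exact .inl ((Nat.prime_dvd_prime_iff_eq hr.out hk).1 (dvd_geom h8 (pow_pos Fintype.card_pos _)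
      ((ord_dvd_iff Fintype.card_pos).1 h9)))
  · rw [Finset.mem_range] at hi
    exact .inr ⟨i + 1 + 1, by omega, by omega, h9, (ord_dvd_iff Fintype.card_pos).2 (h3 _ ▸ h8.mul_left _)⟩

omit hr in
theorem sub_two [Nonempty ι] (hk : k.Prime) (h : 2 ∣ (HH).relIndex (specialLinear ι F)) :
    (∀ g, LinearMap.det g = 1 → PE 2 g → GC HH g) ↔ (Odd qq → k = 2 ∧ padicValNat 2 (Fintype.card ι) ≤ padicValNat 2 (qq - 1)) := by
  by_cases h2 : (2 : F) = 0
  · haveI : CharP F 2 := (CharP.charP_iff_prime_eq_zero Nat.prime_two).2 h2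
    exact iff_of_true ((lin_two (by simpa using not_dvd_pow_sub_one (F := F) (p := 2) one_pos) (GC.smul scalars_le)).2
      fun y k1 _ => (rt_unip (pow_char_iff.1 k1)).gc (det_ne_of_pow two_ne_zero k1)) fun k => absurd h2 (two_ne_of_odd k)
  have h3 := odd_card h2
  have h4 := odd_card (cast_ne (K := K) h2)
  have h5 := (ord_one_iff (F := K) (r := 2)).2 (by omega)
  obtain rfl : 2 = k := (sub_index hq h2 hk h).resolve_right fun ⟨j, _, _, l, _⟩ => l (h5 ▸ one_dvd j)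
  have h6 : qq % 4 = 1 := by
    obtain ⟨t, ht⟩ : ∃ t, q₀ = 2 * t + 1 := ⟨q₀ / 2, by omega⟩
    rw [hq, ht, show (2 * t + 1) ^ 2 = 1 + 4 * (t * t + t) by ring, Nat.add_mul_mod_self_left]
  rw [lin_one (r := 2) (R := False) (by omega) (GC.smul scalars_le) (fun y k1 => (rt_ord h2 k1 (h5.trans
    ((ord_one_iff (r := 2)).2 (by omega)).symm)).gc (det_ne_of_pow two_ne_zero k1)) fun g z k1 k2 => iff_false_intro fun l => ?_]
  · simp [h6, Nat.odd_iff.2 h3]
  · obtain ⟨c, A, l⟩ := l.rt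
    obtain ⟨u, -, -, l⟩ := sub_pow l k2 (nonpow_ne_zero Nat.prime_two k1)
    obtain ⟨v, hv⟩ := sq_of_mem hq h2 u
    exact k1 (c * v) (by rw [mul_pow, hv, l])

theorem sub_odd (hn : 2 ≤ Fintype.card ι) (hk : k.Prime) (h0 : (r : F) ≠ 0) (ho : Odd r) (h6 : ¬ (Fintype.card ι = 6 ∧ r = 3))
    (hg : r = k → r ∣ q₀ - 1 → padicValNat r (Fintype.card ι) ≤ padicValNat r (qq - 1))
    (h : r ∣ (HH).relIndex (specialLinear ι F)) : (∀ g, LinearMap.det g = 1 → PE r g → GC HH g) ↔ r = k ∨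
      (k = 2 ∧ r = Fintype.card ι ∧ (Fintype.card ι = 3 ∨ Fintype.card ι = 5) ∧ padicValNat r (q₀ + 1) = 1) := by
  classical
  haveI : Nonempty ι := Fintype.card_pos_iff.1 (by omega)
  have hr2 : r ≠ 2 := by rintro rfl; exact absurd ho (by decide)
  have hn' := finrank_fintype_fun_eq_card F (η := ι)
  by_cases hrk : r = k
  · subst hrk
    have h1 : b₀ = bb := by rw [hq, Nat.cast_pow, ZMod.pow_card]
    refine iff_of_true (fun g k1 k2 => ?_) (.inl rfl)
    obtain ⟨w, y, l1, rfl, l2, -⟩ | ⟨z, l1, l2⟩ := k2.cases hr.out.ne_zero (k1 ▸ one_ne_zero)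
    · exact ((rt_ord h0 l2 h1).gc (det_ne_of_pow hr.out.ne_zero l2)).smul scalars_le _ _ l1
    · have h2 : r ∣ qq - 1 := by_contra fun k => (exists_root k z).elim l1
      exact absurd ⟨hn' ▸ hg rfl (ord_one_iff.1 (h1.trans (ord_one_iff.2 h2))), fun k => absurd k hr2⟩
        ((exists_nonsplit_iff h2).1 ⟨g, z, k1, l1, l2⟩)
  rw [or_iff_right hrk]
  obtain ⟨j, j1, j2, j3, j4⟩ := (sub_index hq h0 hk h).resolve_left hrk
  have h1 : ¬ r ∣ q₀ - 1 := fun k => j3 (ord_one_iff.2 k ▸ one_dvd j)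
  have h2 : k = 2 → qq - 1 = (q₀ + 1) * (q₀ - 1) := by rintro rfl; rw [hq, ← Nat.sq_sub_sq, one_pow]
  have := Fintype.one_lt_card (α := K)
  have h3 : k = 2 → padicValNat r (qq - 1) = padicValNat r (q₀ + 1) := fun l => by
    rw [h2 l, padicValNat.mul (by omega) (by omega), padicValNat.eq_zero_of_not_dvd h1, add_zero]
  by_cases hd : r ∣ qq - 1
  swap
  · refine iff_of_false (fun H => ?_) fun ⟨l1, _, _, l⟩ => hd (dvd_of_one_le_padicValNat (h3 l1 ▸ l.ge))
    have := ord_pos h0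
    obtain ⟨y, -, k1, k2, -⟩ := exists_ord (V := ι → F) h0 (s := 1) (by have := Nat.le_of_dvd (by omega) j4; omega)
    obtain ⟨c, A, l1, l2, l3⟩ := sub_scalar h1 ((lin_two hd (GC.smul scalars_le)).1 H y k1 (by
      rintro rfl; rw [mv_one, finrank_bot] at k2; omega)) (k1.trans (one_smul _ _).symm) one_ne_zero
    rw [eq_one_of_pow_eq_one hd l2, one_smul] at l3
    obtain ⟨s, hs⟩ := exists_blocks (cast_ne h0) (y := toLin' A) (by rw [← toLin'_pow, l1, toLin'_one]; rfl)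
    exact j3 ((Dvd.intro_left s (by rw [← hs, ← mv_mp, ← iso_mv l3, k2, one_mul])).trans j4)
  obtain ⟨ζ, hζ⟩ := exists_prim hd
  by_cases hex : (r = 3 ∨ r = 5) ∧ Fintype.card ι = r ∧ padicValNat r (qq - 1) = 1
  · have h4 : k = 2 := by
      have l1 := ((Nat.dvd_prime hk).1 ((ord_dvd_iff Fintype.card_pos).2 (hq ▸ hd))).resolve_left (h1 ∘ ord_one_iff.1)
      have l2 := l1 ▸ ord_dvd (cast_ne (K := K) h0)
      refine (Nat.prime_dvd_prime_iff_eq hk Nat.prime_two).1 (hk.dvd_of_dvd_pow (n := 2) (l2.trans ?_))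
      rcases hex.1 with rfl | rfl <;> decide
    refine iff_of_true (fun g k1 k2 => ?_) ⟨h4, hex.2.1.symm, by omega, h3 h4 ▸ hex.2.2⟩
    obtain ⟨w, y, N, l1, rfl, l2, l3, -, l5⟩ := exc_sym hex.1 (hn'.trans hex.2.1) hex.2.2 k1 k2
    exact ((rt_sym h0 ((hr.out.dvd_mul.1 (h2 h4 ▸ hd)).resolve_right h1) l3 l2 l5).gc
      (det_ne_of_pow hr.out.ne_zero l2)).smul scalars_le _ _ l1
  refine iff_of_false (fun H => ?_) fun ⟨l1, l2, l3, l4⟩ => hex ⟨by omega, l2.symm, (h3 l1).trans l4⟩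
  by_cases hv : padicValNat r (Fintype.card ι) ≤ padicValNat r (qq - 1)
  swap
  · obtain ⟨g, z, k1, k2, k3⟩ := (exists_nonsplit_iff (V := ι → F) hd).2 fun k => hv (hn' ▸ k.1)
    obtain ⟨c, -, -, l, -⟩ := sub_scalar h1 (H g k1 (pe_of_nonsplit k2 k3)) k3 (nonpow_ne_zero hr.out k2)
    exact k2 c l
  have hz := hζ.ne_zero hr.out.ne_zero
  rcases hn.eq_or_lt with hn | hn
  · obtain ⟨g, k1⟩ := exists_dg' (V := ι → F) (N := {ζ, ζ⁻¹}) (by simp [hn])
    have k2 : ¬ r ∣ 2 := fun k => hr2 ((Nat.prime_dvd_prime_iff_eq hr.out Nat.prime_two).1 k)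
    have k3 : ζ ≠ ζ⁻¹ := fun k => k2 (hζ.dvd_of_pow_eq_one 2 (by rw [sq, ← mul_inv_cancel₀ hz, ← k]))
    have k4 : LinearMap.det g = 1 := by simp [k1.det, hz]
    obtain ⟨c, k5, k6⟩ := (H g k4 (k1.pe (z := 1) (by simp [hζ.pow_eq_one]) (by simp) (by simp) k3)).frob (k4 ▸ one_ne_zero)
    have k7 : ∀ a ∈ ({ζ, ζ⁻¹} : Multiset F), (a / c) ^ q₀ = ζ / c ∨ (a / c) ^ q₀ = ζ⁻¹ / c := fun a ha => by
      have := Multiset.count_pos.1 (k1.ed _ ▸ k6 a ▸ k1.ed a ▸ Multiset.count_pos.2 ha)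
      simpa [eq_div_iff k5] using this
    have k8 : (ζ / c) ^ q₀ ≠ (ζ⁻¹ / c) ^ q₀ := fun k =>
      k3 ((div_left_inj' k5).1 ((FiniteField.frobeniusAlgHom K F).toRingHom.injective k))
    have k9 : (ζ ^ 2) ^ q₀ = (ζ / c) ^ q₀ / (ζ⁻¹ / c) ^ q₀ := by rw [← div_pow]; congr 1; field_simp
    refine j3 (show j = 2 by omega ▸ (ord_dvd_iff Fintype.card_pos).2 ((hr.out.dvd_mul.1 (hζ.dvd_of_pow_eq_one (2 * (q₀ ^ 2 - 1))
      (mul_right_cancel₀ (pow_ne_zero 2 hz) ?_))).resolve_left k2))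
    rw [pow_mul, ← pow_succ, Nat.sub_add_cancel (Nat.one_le_pow _ _ Fintype.card_pos), sq q₀, pow_mul, one_mul]
    rcases k7 ζ (by simp) with l1 | l1 <;> rcases k7 ζ⁻¹ (by simp) with l2 | l2
    · exact absurd (l1.trans l2.symm) k8
    · rw [l1, l2, show ζ / c / (ζ⁻¹ / c) = ζ ^ 2 by field_simp] at k9; rw [k9, k9]
    · rw [l1, l2, show ζ⁻¹ / c / (ζ / c) = (ζ ^ 2)⁻¹ by field_simp] at k9; rw [k9, inv_pow, k9, inv_inv]
    · exact absurd (l1.trans l2.symm) k8
  obtain ⟨g, ξ, k1, k2, k3, k4, α, k5, k6, k7⟩ := exists_asy (V := ι → F) ho hd (by omega) (hn' ▸ hv) (hn' ▸ h6) (hn' ▸ hex)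
  obtain ⟨c, l1, l2⟩ := (H g k3 k4).frob (k3 ▸ one_ne_zero)
  have l3 := k7 _ (l2 _)
  rw [mul_div_right_comm, mul_pow, mul_right_comm, k6 _ (l2 _), ← Nat.sub_add_cancel this.le, pow_succ] at l3
  exact k1 ((pow_eq_one_iff_of_coprime (hr.out.coprime_iff_not_dvd.2 h1)).1 ⟨k2, mul_right_cancel₀
    (by rintro rfl; simp [hr.out.ne_zero] at k2) ((mul_left_cancel₀ k5 l3).trans (one_mul ξ).symm)⟩)

omit hr in
theorem sub_three [CharP F 3] (hn : 2 ≤ Fintype.card ι) (hk : k.Prime) : (∀ g, LinearMap.det g = 1 → PE 3 g → SC HH g) ↔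
    Odd (Fintype.card ι) ∨ Even (Fintype.card ι) ∧ 2 < k := by
  haveI := Fact.mk Nat.prime_three
  haveI : Nonempty ι := Fintype.card_pos_iff.1 (by omega)
  have h1 : ¬ 3 ∣ qq - 1 := by simpa using not_dvd_pow_sub_one (F := F) (p := 3) one_pos
  have h2 : (2 : F) ≠ 0 := natCast_ne_zero (p := 3) Nat.prime_two (by decide)
  rw [lin_two h1 (SC.smul scalars_le)]
  refine ⟨fun H => by_contra fun hc => ?_, fun h y k1 _ => ((rt_unip (pow_char_iff.1 k1)).gc
    (det_ne_of_pow three_ne_zero k1)).sc fun c hc => ?_⟩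
  · rw [not_or, Nat.not_odd_iff_even] at hc
    obtain rfl : k = 2 := le_antisymm (not_lt.1 fun k => hc.2 ⟨hc.1, k⟩) hk.two_le
    obtain ⟨m, hm⟩ := hc.1
    obtain ⟨A, hA⟩ := exists_of_utyp (n := ι) (F := K) (μ := .replicate m 2) (by simp +contextual [Multiset.mem_replicate]) (by simp; omega)
    have k1 := (pow_eq_zero_iff_utyp hA 2).2 (by simp +contextual [Multiset.mem_replicate])
    have k2 := rank_add_card (by simp +contextual [Multiset.mem_replicate]) hA
    have k3 : (mp A.1 - 1) ^ 2 = 0 := by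
      rw [mp, End.one_eq_id, ← toLin'_one, ← map_sub, ← toLin'_pow, map_sub_one, k1]; simp
    have k4 : finrank F (mv (mp A.1)) = m := by rw [mv_mp, ← rank_sub_one]; simp at k2; omega
    have k5 : fx (mp A.1) = mv (mp A.1) := (Submodule.eq_of_le_of_finrank_eq (LinearMap.range_le_ker_iff.2 ((sq _).symm.trans k3)) (by
      have := finrank_fx_add (g := mp A.1); rw [finrank_fintype_fun_eq_card] at this; exact Eq.trans k4 (by unfold fx at this; omega))).symm
    obtain ⟨d, hd⟩ := FiniteField.exists_nonsquare (F := F) (by rw [ringChar.eq F 3]; decide)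
    obtain ⟨P, hP⟩ := exists_det (ι := ι) (d := d) (by rintro rfl; simp at hd)
    set a := GeneralLinearGroup.map K.subtype A
    have k6 : Iso (mp A.1) (toLin' (P * a * P⁻¹).1) := (isConj_iff_iso _ _).1 ((isConj_GL_iff a _).1 (isConj_iff.2 ⟨P, rfl⟩))
    have k7 := (iso_pow_one k6).1 (pow_char_iff.2 (pow_eq_zero_of_le (by decide) k3))
    obtain ⟨s, l1, l2⟩ := sc_gl.2 (H _ k7 fun k => by rw [iso_mv k6, k, mv_one, finrank_bot] at k4; omega)
    have k8 : Iso (toLin' (P * a * P⁻¹).1) (toLin' (s⁻¹ * (P * a * P⁻¹) * s).1) :=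
      (isConj_iff_iso _ _).1 ((isConj_GL_iff _ _).1 (isConj_iff.2 ⟨s⁻¹, by simp⟩))
    obtain ⟨c, B, l3⟩ := mem_sub.1 l2
    rw [l3, map_smul] at k8
    obtain ⟨u, -, -, l4⟩ := sub_pow k8 (k7.trans (one_smul _ _).symm) one_ne_zero
    obtain ⟨v, rfl⟩ := exists_root (r := 3) (by simpa using not_dvd_pow_sub_one (F := K) (p := 3) one_pos) u
    obtain rfl : c = (v⁻¹ : K) := eq_inv_of_mul_eq_one_left (eq_one_of_pow_eq_one h1 (by simpa [mul_pow] using l4))
    replace k8 : Iso _ (mp (v⁻¹ • B)) := (mp_smul v⁻¹ B).symm ▸ k8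
    obtain ⟨R, hR⟩ := (isConj_iff_GL _ _).1 (isConj_map ⟨2, k1⟩ ⟨_, (pow_char_pow_eq_one_iff 3 _ 1).1
      (mp_inj ((mp_pow _ 3).symm.trans (((iso_pow_one k8).1 k7).trans mp_one.symm)))⟩ (k6.trans k8))
    set τ := GeneralLinearGroup.map K.subtype R
    have l5 : s⁻¹ * (P * a * P⁻¹) * s = τ * a * τ⁻¹ := by
      rw [← map_inv, ← map_mul, ← map_mul]
      exact Units.ext (l3.trans (congrArg (Matrix.map · K.subtype) hR).symm)
    have l6 : (τ⁻¹ * s⁻¹ * P) * a = a * (τ⁻¹ * s⁻¹ * P) := by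
      rw [show τ⁻¹ * s⁻¹ * P * a = τ⁻¹ * (s⁻¹ * (P * a * P⁻¹) * s) * s⁻¹ * P by group, l5]; group
    obtain ⟨w, hw⟩ := det_sq k5 (B := toLin' (τ⁻¹ * s⁻¹ * P).1) (by
      have := congrArg (toLin' ·.1) l6
      simp only [Units.val_mul _ a, Units.val_mul a, toLin'_mul] at this
      exact this)
    obtain ⟨w', hw'⟩ := sq_of_mem hq h2 R.1.det
    refine hd ⟨w' * w, ?_⟩
    rw [mul_mul_mul_comm, ← sq, ← sq, hw, hw', LinearMap.det_toLin', show (R.1.det : F) = τ.1.det from K.subtype.map_det _, ← det_mul,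
      ← Units.val_mul, ← mul_assoc, ← mul_assoc, mul_inv_cancel, one_mul, Units.val_mul, det_mul, hP,
      H09.mem_specialLinear.1 (inv_mem l1), one_mul]
  · obtain ⟨μ, k2, k3⟩ := exists_utyp' (pow_char_iff.1 k1)
    have key : ∀ e ∈ μ, ∀ (d : F) (u : K), d ^ e * u = c → ∃ B : Matrix ι ι F, ∃ k ∈ HH, Commute (toLin' B) y ∧ B.det * k.1.det = c :=
      fun e he d u l => by
        obtain ⟨B, l1, l2⟩ := ds_part (fun e he => (k2 e he).1) k3 he d
        obtain ⟨P, hP⟩ := exists_det (ι := ι) (d := u) (by rintro rfl; simp [← l] at hc)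
        exact ⟨B, GeneralLinearGroup.map K.subtype P, mem_sub.2 ⟨1, P.1, (one_smul _ _).symm⟩, l1,
          l2 ▸ l ▸ congrArg _ (hP ▸ (K.subtype.map_det _).symm)⟩
    by_cases l1 : 1 ∈ μ
    · exact key 1 l1 c 1 (by simp)
    by_cases l3 : 3 ∈ μ
    · obtain ⟨d, rfl⟩ := exists_root h1 c
      exact key 3 l3 d 1 (by simp)
    have l2 := Multiset.eq_replicate_card.2 fun e he => show e = 2 by
      have := k2 e he; have : e ≠ 1 := fun k => l1 (k ▸ he); have : e ≠ 3 := fun k => l3 (k ▸ he); omega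
    have l4 := HasTyp.sum_utyp k3
    rw [l2, Multiset.sum_replicate, finrank_fintype_fun_eq_card, smul_eq_mul] at l4
    have l5 := (h.resolve_left (by rw [Nat.odd_iff]; omega)).2
    have := odd_card (cast_ne (K := K) h2)
    have l6 := geom_mul (Fintype.card_pos (α := K)) k
    obtain ⟨t, ht⟩ := Nat.not_even_iff_odd.1 fun l => l5.ne ((Nat.prime_dvd_prime_iff_eq Nat.prime_two hk).1
      (dvd_geom (a := q₀) l.two_dvd Fintype.card_pos (by omega)))
    refine key 2 (l2 ▸ Multiset.mem_replicate.2 ⟨by omega, rfl⟩) (c ^ t)⁻¹ ⟨c ^ (2 * t + 1), (mem_iff_pow _).1 ?_⟩ (by field_simp; ring)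
    rw [← Nat.sub_add_cancel (Fintype.card_pos (α := K)), pow_succ, ← pow_mul, mul_comm _ (_ - 1), ← ht, ← l6, ← hq,
      FiniteField.pow_card_sub_one_eq_one c hc, one_mul]

end H28.El
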