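import Mathlib
import Cfsg.Agent.H10.MxG
import Cfsg.Agent.H28.El26

/-!
# Elements conjugate into extension field subgroups (namespace `H28.El`)
-/

set_option autoImplicit false

open Module Polynomial H24.Sim

namespace H28.El

section
variable {F V E : Type*} [Field F] [AddCommGroup V] [Module F V] {g x y : End F V} {r : ℕ} {c z : F} [FiniteDimensional F V]

theorem exists_invol (h2 : (2 : F) ≠ 0) {k : ℕ} (hk : k ≤ finrank F V) : ∃ y : End F V, y ^ 2 = 1 ∧ finrank F (mv y) = k := by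
  classical
  obtain ⟨y, h⟩ := exists_dg' (V := V) (N := .replicate k (-1) + .replicate (finrank F V - k) (1 : F)) (by simp [hk])
  have h1 : y ^ 2 = 1 := (h.pow_iff.2 (by simp +contextual [Multiset.mem_replicate, or_imp])).trans (one_smul _ _)
  have h3 : (1 : F) ≠ -1 := fun k => h2 (by linear_combination k)
  exact ⟨y, h1, by simp [← ed_neg_one h2 h1, h.ed, Multiset.count_replicate, h3]⟩

theorem mv_eq_one (hn : finrank F V = 2) (hy : y ^ 2 = 1) (h : PE 2 y) : finrank F (mv y) = 1 := by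
  have h1 := Submodule.finrank_eq_zero.not.2 (mv_ne_bot h.ne_one)
  have h2 := Submodule.finrank_lt (s := mv y) fun k => h.2 (-1) (LinearMap.ext fun v => by simp [neg_of_mem_mv hy (k.ge trivial)])
  omega

theorem iso_regular (hr : r.Prime) {ζ : F} (hζ : IsPrimitiveRoot ζ r) (hn : finrank F V = r) (hx : x ^ r = 1) (hy : y ^ r = 1)
    (h1 : ∀ c, c ≠ 0 → ed x c ≤ 1) (h2 : ∀ c, c ≠ 0 → ed y c ≤ 1) : Iso x y := by
  classical
  have key : ∀ y : End F V, y ^ r = 1 → (∀ c, c ≠ 0 → ed y c ≤ 1) → Dg y (nthRoots r 1) := fun y hy h => by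
    obtain ⟨N, hN⟩ := exists_dg hr hζ hy
    have k := hN.pow_iff.1 (hy.trans (one_smul _ _).symm)
    rwa [← Multiset.eq_of_le_of_card_le (s := N) ((Multiset.le_iff_subset (Multiset.nodup_iff_count_le_one.2 fun a => ?_)).2
      fun a ha => (mem_nthRoots hr.pos).2 (k a ha)) ((card_nthRoots r 1).trans (hN.card.trans hn).ge)]
    by_cases ha : a ∈ N
    · exact hN.ed a ▸ h a (by rintro rfl; simpa [hr.ne_zero] using k _ ha)
    · simp [ha]
  exact (key x hx h1).iso (key y hy h2)

variable [Fintype F]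

local notation "qq" => Fintype.card F

theorem lin_even (h2 : (2 : F) ≠ 0) (hn : 2 ≤ finrank F V) {P : End F V → Prop} (hP : ∀ (c : F) g, c ≠ 0 → P g → P (c • g))
    (h1 : ∀ y, y ^ 2 = 1 → Even (finrank F (mv y)) → P y) (h3 : ∀ g z, (∀ w : F, w ^ 2 ≠ z) → g ^ 2 = z • 1 → P g)
    (h4 : ∀ y, y ^ 2 = 1 → finrank F (mv y) = 1 → ¬ P y) :
    (∀ g, LinearMap.det g = 1 → PE 2 g → P g) ↔ padicValNat 2 (qq - 1) ≤ padicValNat 2 (finrank F V) := by
  refine ⟨fun h => by_contra fun k => ?_, fun h g k1 k2 => ?_⟩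
  · obtain ⟨w, ζ, k1, k2, k3, k4⟩ := exists_root_pow (F := F) (r := 2) (n := finrank F V) (by omega) (not_le.1 k)
    obtain rfl := (mul_self_eq_one_iff.1 (sq ζ ▸ k3)).resolve_left k2
    obtain ⟨y, l1, l2⟩ := exists_invol h2 (one_le_two.trans hn)
    refine h4 y l1 l2 (inv_smul_smul₀ k1 y ▸ hP _ _ (inv_ne_zero k1) (h _ (by rw [LinearMap.det_smul, det_invol l1, l2, pow_one, k4])
      ((pe_invol l1 ?_ ?_).smul k1))) <;> rintro rfl
    · rw [mv_one, finrank_bot] at l2; omega
    · rw [mv_neg_one h2, finrank_top] at l2; omega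
  · obtain ⟨w, y, l1, rfl, l2, -⟩ | ⟨z, l1, l2⟩ := k2.cases two_ne_zero (k1 ▸ one_ne_zero)
    · refine hP _ _ l1 (h1 y l2 (by_contra fun k => ?_))
      rw [LinearMap.det_smul, det_invol l2, (Nat.not_even_iff_odd.1 k).neg_one_pow] at k1
      have := Fintype.one_lt_card (α := F)
      refine pow_succ_padicValNat_not_dvd (p := 2) (n := qq - 1) (by omega) ((pow_dvd_pow 2 (by omega)).trans
        ((two_pow_dvd (n := finrank F V) (by omega) (orderOf_dvd_of_pow_eq_one ?_) fun k => h2 ?_).trans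
        (orderOf_dvd_of_pow_eq_one (FiniteField.pow_card_sub_one_eq_one w l1))))
      · rw [pow_mul']; linear_combination (1 - w ^ finrank F V) * k1
      · linear_combination -k1 - orderOf_dvd_iff_pow_eq_one.1 k
    · exact h3 g z l1 l2

theorem exists_tv {p : ℕ} [hp : Fact p.Prime] [CharP F p] (hn : 2 ≤ finrank F V) :
    ∃ y : End F V, LinearMap.det y = 1 ∧ PE p y ∧ finrank F (mv y) = 1 := by
  have hd : ¬ p ∣ qq - 1 := by simpa using not_dvd_pow_sub_one (F := F) (p := p) one_pos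
  obtain ⟨y, k1, k2⟩ := exists_one_block le_rfl hn
  have k3 := pow_char_iff.2 (pow_eq_zero_of_le hp.out.two_le k1)
  rw [pow_one] at k2
  exact ⟨y, det_eq_one_of_pow hd k3, pe_of_pow hd k3 (by rintro rfl; rw [sub_self, LinearMap.range_zero, finrank_bot] at k2; omega), k2⟩

variable [hr : Fact r.Prime]

local notation "bb" => orderOf ((Fintype.card F : ℕ) : ZMod r)

theorem iso_of_mv (h0 : (r : F) ≠ 0) (hb : bb = r - 1) (hx : x ^ r = 1) (hy : y ^ r = 1)
    (h : finrank F (mv x) = finrank F (mv y)) : Iso x y := by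
  refine H16.Cc.iso_of_sqfree (X_pow_sub_one_separable_iff.2 h0).squarefree (by simp [hx]) (by simp [hy]) fun f k1 k2 k3 => ?_
  by_cases k4 : f ∣ X - 1
  · have := finrank_fx_add (g := x)
    have := finrank_fx_add (g := y)
    rw [eq_of_monic_of_associated k1 monic_X_sub_one (k2.associated_of_dvd irred_X_sub_one k4), ← finrank_fx_eq_kd, ← finrank_fx_eq_kd]
    omega
  have k5 := k2.coprime_iff_not_dvd.2 k4
  have k6 : X ^ r - 1 = f * (X - 1) := eq_of_monic_of_dvd_of_natDegree_le (k1.mul monic_X_sub_one) (monic_X_pow_sub_C 1 hr.out.ne_zero)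
    (k5.mul_dvd k3 (by simpa using sub_dvd_pow_sub_pow (X : F[X]) 1 r)) (by
      rw [k1.natDegree_mul monic_X_sub_one, natDegree_of_dvd h0 k2 k3 k4, hb, natDegree_X_sub_one, ← C_1, natDegree_X_pow_sub_C]
      omega)
  have key : ∀ y : End F V, y ^ r = 1 → kd y f = finrank F (mv y) := fun y hy => le_antisymm (by
    have := finrank_fx_add (g := y)
    have := finrank_sup_of_disjoint (U := LinearMap.ker (aeval y f)) (W := fx y) (Submodule.disjoint_def.2 fun v l1 l2 =>
      eq_zero_of_coprime k5 l1 (by simpa [sub_eq_zero] using mem_fx.1 l2))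
    have := Submodule.finrank_le (LinearMap.ker (aeval y f) ⊔ fx y)
    unfold kd; omega) (Submodule.finrank_mono (LinearMap.range_le_ker_iff.2 (by
      simpa [hy, End.mul_eq_comp] using congrArg (aeval y) k6.symm)))
  rw [key x hx, key y hy, h]

theorem exists_pm (h2 : r ≠ 2) (hd : r ∣ qq - 1) (hn : 3 ≤ finrank F V) : ∃ (y : End F V) (ζ : F), LinearMap.det y = 1 ∧ PE r y ∧
    ed y 1 + 2 = finrank F V ∧ ed y ζ = 1 := by
  classical
  obtain ⟨ζ, hζ⟩ := exists_prim hd
  have hz := hζ.ne_zero hr.out.ne_zero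
  have k1 := hζ.ne_one hr.out.one_lt
  have k3 : ζ ≠ ζ⁻¹ := fun k => h2 ((Nat.prime_dvd_prime_iff_eq hr.out Nat.prime_two).1
    (hζ.dvd_of_pow_eq_one 2 (by rw [sq, ← mul_inv_cancel₀ hz, ← k])))
  obtain ⟨y, h⟩ := exists_dg' (V := V) (N := ζ ::ₘ ζ⁻¹ ::ₘ .replicate (finrank F V - 2) 1) (by simp; omega)
  exact ⟨y, ζ, by simp [h.det, hz], h.pe (z := 1) (by simp +contextual [hζ.pow_eq_one, Multiset.mem_replicate]) (by simp) (by simp) k3,
    by simp [h.ed, k1.symm, (inv_ne_one.2 k1).symm]; omega, by simp [h.ed, k3, Multiset.count_replicate, k1.symm]⟩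

end

section
variable {F V E : Type*} [Field F] [AddCommGroup V] [Module F V] [Field E] [Algebra F E] [Module E V] [IsScalarTower F E V]
  {g x y : End F V} {r : ℕ} {c z : F}

variable (E) in
/-- semilinear over the extension field -/
def NE (g : End F V) : Prop := ∀ e : E, ∃ e' : E, ∀ y, g (e • y) = e' • g y

variable (E) in
/-- conjugate to a semilinear map -/
def GN (g : End F V) : Prop := ∃ x : End F V, Iso g x ∧ NE E x

theorem NE.smul (h : NE E g) (c : F) : NE E (c • g) := fun e => (h e).imp fun e' k y => by simp [k, smul_comm c e']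

theorem GN.smul (c : F) (g : End F V) (_ : c ≠ 0) (h : GN E g) : GN E (c • g) := h.elim fun _ k => ⟨_, iso_smul k.1 c, k.2.smul c⟩

theorem ne_lin (L : End E V) : NE E (L.restrictScalars F) := fun e => ⟨e, fun y => by simp⟩

omit [Algebra F E] [IsScalarTower F E V] in
theorem NE.comm (h : NE E g) {e : E} {u : V} (hu : u ≠ 0) (h1 : g u = u) (h2 : g (e • u) = e • u) (v : V) : g (e • v) = e • g v := by
  obtain ⟨e', k⟩ := h e
  rw [k, show e' = e from smul_left_injective E hu (((k u).trans (congrArg _ h1)).symm.trans h2)]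

theorem finrank_mv_res (L : End E V) : finrank F (mv (L.restrictScalars F)) = finrank F E * finrank E (mv L) :=
  (finrank_mul_finrank F E (mv L)).symm

variable [FiniteDimensional F V]

theorem not_gn (hk : 2 ≤ finrank F E) (hn : 3 ≤ finrank F V) (h : finrank F (mv y) = 1) : ¬ GN E y := fun ⟨x, h1, h2⟩ => by
  rw [iso_mv h1] at h
  have h3 := finrank_fx_add (g := x)
  have h4 := (fx x).finrank_quotient_add_finrank
  have h5 : ∀ (e : E) v, x (e • v) = e • x v := fun e => by
    obtain ⟨u, k1, k2⟩ := (Submodule.ne_bot_iff _).1 (LinearMap.ker_ne_bot_of_finrank_lt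
      (f := (fx x).mkQ ∘ₗ (e • (1 : End E V)).restrictScalars F ∘ₗ (fx x).subtype) (by omega))
    exact h2.comm (Subtype.coe_ne_coe.2 k2) (mem_fx.1 u.2) (mem_fx.1 (by simpa using k1))
  have := Nat.eq_one_of_mul_eq_one_right ((finrank_mv_res (F := F) ⟨x.toAddHom, h5⟩).symm.trans h)
  omega

theorem GN.ed_le (hk : (finrank F E).Prime) (hn : finrank F V = finrank F E) (h : GN E g) (h' : PE r g) (c : F) (hc : c ≠ 0) :
    ed g c ≤ 1 := by
  by_contra! h0
  obtain ⟨x, h1, h2⟩ := h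
  replace h2 := h2.smul c⁻¹
  rw [iso_ed h1, ← ed_smul (inv_ne_zero hc), mul_inv_cancel₀ hc, ed_one] at h0
  refine h'.2 c ((pow_one g).symm.trans ((iso_pow h1).2 ((pow_one x).trans ((inv_smul_eq_iff₀ hc).1 ?_))))
  generalize c⁻¹ • x = x at h0 h2
  obtain ⟨u, k1, k2⟩ := (Submodule.ne_bot_iff (fx x)).1 (by intro k; rw [k, finrank_bot] at h0; omega)
  obtain ⟨v, k3, k4⟩ := SetLike.not_le_iff_exists.1 fun k : fx x ≤ F ∙ u => by
    have := Submodule.finrank_mono k; rw [finrank_span_singleton k2] at this; omega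
  have k5 := (finrank_eq_one_iff_of_nonzero' (K := E) u k2).1
    (mul_left_cancel₀ hk.ne_zero ((finrank_mul_finrank F E V).trans (hn.trans (mul_one _).symm)))
  obtain ⟨e, rfl⟩ := k5 v
  let S : Subalgebra F E :=
    { carrier := {a | ∀ v, x (a • v) = a • x v}
      mul_mem' := fun ha hb v => by rw [mul_smul, ha, hb, mul_smul]
      add_mem' := fun ha hb v => by rw [add_smul, map_add, ha, hb, add_smul]
      algebraMap_mem' := fun a v => by simp }
  rcases (Subalgebra.isSimpleOrder_of_finrank_prime F E hk).eq_bot_or_eq_top S with k | k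
  · obtain ⟨a, rfl⟩ := Algebra.mem_bot.1 (k.le (h2.comm k2 (mem_fx.1 k1) (mem_fx.1 k3)))
    exact absurd (Submodule.mem_span_singleton.2 ⟨a, by simp⟩) k4
  · ext w
    obtain ⟨a, rfl⟩ := k5 w
    rw [k.ge (Algebra.mem_top (x := a)), mem_fx.1 k1, End.one_apply]

theorem gn_even (h2 : (2 : F) ≠ 0) (hk : finrank F E = 2) (y : End F V) (hy : y ^ 2 = 1) (h : Even (finrank F (mv y))) : GN E y := by
  obtain ⟨t, ht⟩ := h
  haveI := Module.Finite.of_restrictScalars_finite F E V
  have := finrank_mul_finrank F E V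
  have := Submodule.finrank_le (mv y)
  obtain ⟨L, h3, h4⟩ := exists_invol (F := E) (V := V) (map_ofNat (algebraMap F E) 2 ▸ (_root_.map_ne_zero (algebraMap F E)).2 h2) (k := t)
    (by rw [hk] at *; omega)
  exact ⟨_, iso_invol hy (LinearMap.ext fun v => LinearMap.congr_fun h3 v) (by rw [finrank_mv_res, hk]; omega), ne_lin L⟩

variable [Fintype F] [FiniteDimensional F E]

theorem gn_sq (hk : finrank F E = 2) (g : End F V) (z : F) (hz : ∀ w : F, w ^ 2 ≠ z) (hg : g ^ 2 = z • 1) : GN E g := by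
  haveI := Module.finite_of_finite F (M := E)
  obtain ⟨θ, h⟩ := H10.exists_root_quadratic hk z 0
  exact ⟨_, iso_nonsplit Nat.prime_two hz hg (LinearMap.ext fun v => by simp [sq, smul_smul, h]), ne_lin (θ • 1)⟩

theorem exists_frob (hk : finrank F E = r) (hn : finrank F V = r) (hr : 1 < r) : ∃ x : End F V, NE E x ∧ x ^ r = 1 ∧ PE r x := by
  haveI := Module.finite_of_finite F (M := E)
  haveI := Module.Finite.of_restrictScalars_finite F E V
  let e : E ≃ₗ[E] V := LinearEquiv.ofFinrankEq _ _ (mul_left_cancel₀ (a := r) (by omega)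
    (by rw [finrank_self, mul_one, ← hk, finrank_mul_finrank, hk, hn]))
  let σ := FiniteField.frobeniusAlgEquivOfAlgebraic F E
  have h1 : orderOf σ = r := (FiniteField.orderOf_frobeniusAlgEquivOfAlgebraic F E).trans hk
  have h2 : (e.restrictScalars F).conj σ.toLinearMap ^ r = 1 := by
    rw [conj_pow, ← AlgEquiv.pow_toLinearMap, ← h1, pow_orderOf_eq_one]; exact LinearEquiv.conj_id _
  refine ⟨_, fun a => ⟨σ a, fun v => by simp [LinearEquiv.conj_apply, ← map_smul e]⟩, h2, ⟨1, by simpa⟩, fun z hz => ?_⟩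
  have h3 : ∀ a, σ a = z • a := fun a => (e.restrictScalars F).injective
    (by rw [map_smul]; simpa [LinearEquiv.conj_apply] using LinearMap.congr_fun hz (e a))
  rw [show σ = 1 from AlgEquiv.ext fun a => by rw [h3, ← mul_one a, ← mul_smul_comm, ← h3, map_one]; rfl, orderOf_one] at h1
  omega

local notation "qq" => Fintype.card F

theorem fld_two (hk : finrank F E = 2) (hn : 2 ≤ finrank F V) : (∀ g : End F V, LinearMap.det g = 1 → PE 2 g → GN E g) ↔
    finrank F V = 2 ∨ Odd qq ∧ padicValNat 2 (qq - 1) ≤ padicValNat 2 (finrank F V) := by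
  rcases hn.eq_or_lt with h | h
  · refine iff_of_true (fun g k1 k2 => ?_) (.inl h.symm)
    obtain ⟨w, y, l1, rfl, l2, l3⟩ | ⟨z, l1, l2⟩ := k2.cases two_ne_zero (k1 ▸ one_ne_zero)
    · obtain ⟨x, m1, m2, m3⟩ := exists_frob hk h.symm one_lt_two
      exact GN.smul _ _ l1 ⟨x, iso_invol l2 m2 ((mv_eq_one h.symm l2 l3).trans (mv_eq_one h.symm m2 m3).symm), m1⟩
    · exact gn_sq hk g z l1 l2
  rw [or_iff_right h.ne']
  by_cases h2 : (2 : F) = 0
  · haveI : CharP F 2 := (CharP.charP_iff_prime_eq_zero Nat.prime_two).2 h2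
    obtain ⟨y, k1, k2, k3⟩ := exists_tv (p := 2) hn
    exact iff_of_false (fun k => not_gn hk.ge h k3 (k y k1 k2)) fun k => two_ne_of_odd k.1 h2
  rw [lin_even h2 hn GN.smul (gn_even h2 hk) (gn_sq hk) fun y _ => not_gn hk.ge h, and_iff_right (Nat.odd_iff.2 (odd_card h2))]

variable [hr : Fact r.Prime]

local notation "bb" => orderOf ((Fintype.card F : ℕ) : ZMod r)

theorem gn_of_ord (hk : finrank F E = r) (hn : finrank F V = r) (h2 : r ≠ 2) (h0 : (r : F) ≠ 0) (hb : bb = r - 1) :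
    ∀ g : End F V, LinearMap.det g = 1 → PE r g → GN E g := by
  have h3 := two_lt_of_ne h2
  refine (lin_two (fun k => by have := ord_one_iff.2 k; omega) GN.smul).2 fun y k1 k2 => ?_
  obtain ⟨x, m1, m2, m3⟩ := exists_frob hk hn hr.out.one_lt
  have key : ∀ y : End F V, y ^ r = 1 → y ≠ 1 → finrank F (mv y) = r - 1 := fun y k1 k2 => by
    obtain ⟨s, hs⟩ := exists_blocks h0 k1
    have := Submodule.finrank_eq_zero.not.2 (mv_ne_bot k2)
    have := Submodule.finrank_le (mv y)
    rw [hb] at hs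
    rcases (show s = 0 ∨ s = 1 ∨ 2 ≤ s by omega) with rfl | rfl | k
    · omega
    · omega
    · have := Nat.mul_le_mul_right (r - 1) k
      have := exists_blocks h0 m2
      by_contra
      have h4 : r = 4 ∨ r = 3 ∨ r < 2 * (r - 1) := by omega
      omega
  exact ⟨x, iso_of_mv h0 hb k1 m2 ((key y k1 k2).trans (key x m2 m3.ne_one).symm), m1⟩

theorem fld_prime (hk : finrank F E = r) (hn : finrank F V = r) (h3 : 3 < r) (h0 : (r : F) ≠ 0) :
    (∀ g : End F V, LinearMap.det g = 1 → PE r g → GN E g) ↔ bb = r - 1 := by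
  refine ⟨fun h => by_contra fun hb => ?_, gn_of_ord hk hn (by omega) h0⟩
  have key : ∀ y : End F V, LinearMap.det y = 1 → PE r y → ed y 1 ≤ 1 := fun y k1 k2 =>
    (h y k1 k2).ed_le (hk ▸ hr.out) (hn.trans hk.symm) k2 1 one_ne_zero
  by_cases hd : r ∣ qq - 1
  · obtain ⟨y, -, k1, k2, k3, -⟩ := exists_pm (V := V) (by omega) hd (by omega)
    have := key y k1 k2
    omega
  · have := Nat.le_of_dvd (by omega) (ord_dvd h0)
    have := ord_pos h0
    obtain ⟨y, -, k1, k2, -⟩ := exists_ord (V := V) h0 (s := 1) (by omega)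
    have := key y (det_eq_one_of_pow hd k1) (pe_of_pow hd k1 (by rintro rfl; rw [mv_one, finrank_bot] at k2; omega))
    have := finrank_fx_add (g := y)
    rw [ed_one] at *
    omega

omit hr in
theorem fld_three (hk : finrank F E = 3) (hn : finrank F V = 3) (h : qq % 3 = 2 → qq % 9 = 8) :
    (∀ g : End F V, LinearMap.det g = 1 → PE 3 g → GN E g) ↔ qq % 9 = 4 ∨ qq % 9 = 7 ∨ qq % 9 = 8 := by
  haveI := Fact.mk Nat.prime_three
  have := Fintype.one_lt_card (α := F)
  by_cases h0 : ((3 : ℕ) : F) = 0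
  · haveI : CharP F 3 := (CharP.charP_iff_prime_eq_zero Nat.prime_three).2 h0
    obtain ⟨y, k1, k2, k3⟩ := exists_tv (p := 3) (hn.ge.trans' (by decide))
    have := dvd_card_field (F := F) (p := 3)
    exact iff_of_false (fun k => not_gn (by omega) hn.ge k3 (k y k1 k2)) (by omega)
  by_cases hd : 3 ∣ qq - 1
  swap
  · have h1 := ((Nat.dvd_prime Nat.prime_two).1 (ord_dvd h0)).resolve_left (hd ∘ ord_one_iff.1)
    have := (ii_two (by decide)).1 h1
    exact iff_of_true (gn_of_ord hk hn (by decide) h0 h1) (by omega)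
  have h1 := (padicValNat_dvd_iff_le (p := 3) (a := qq - 1) (n := 2) (by omega))
  have h2 := one_le_padicValNat_of_dvd (by omega) hd
  by_cases h9 : 9 ∣ qq - 1
  · refine iff_of_false (fun k => ?_) (by omega)
    obtain ⟨w, ζ, k1, k2, k3, k4⟩ := exists_root_pow (F := F) (r := 3) (n := 3) (by omega) (by rw [padicValNat_self]; exact h1.1 h9)
    obtain ⟨y, k5⟩ := exists_dg' (V := V) (N := {ζ, 1, 1}) (by simp [hn])
    have k6 := (k5.pe (r := 3) (z := 1) (by simp [k3]) (by simp) (by simp) k2).smul k1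
    have := (k _ (by simp [k5.det, hn, k4]) k6).ed_le (hk ▸ Nat.prime_three) (hn.trans hk.symm) k6 _ (mul_ne_zero one_ne_zero k1)
    classical
    rw [ed_smul k1, k5.ed] at this
    simp [k2.symm] at this
  refine iff_of_true (fun g k1 k2 => ?_) (by omega)
  obtain ⟨ζ, hζ⟩ := exists_prim hd
  obtain ⟨w, y, M, l1, rfl, l2, l3, l4, l5, l6⟩ := exc_split (by decide) hζ hn (by have := mt h1.2 h9; omega) k1 k2
  obtain ⟨x, m1, m2, m3⟩ := exists_frob hk hn (by decide)
  refine GN.smul _ _ l1 ⟨x, iso_regular Nat.prime_three hζ hn l2 m2 (fun c _ => ?_)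
    (GN.ed_le (hk ▸ Nat.prime_three) (hn.trans hk.symm) ⟨x, .refl x, m1⟩ m3), m1⟩
  classical
  obtain ⟨a, b, d, rfl⟩ := Multiset.card_eq_three.1 l5
  rcases sym_three a b d (by simpa [add_assoc] using l6) with ⟨rfl, rfl⟩ | k
  · exact absurd ((pow_one y).symm.trans (l4.pow_iff.2 (by simp; rfl))) (l3.2 _)
  · rw [l4.ed, k]
    exact Multiset.nodup_iff_count_le_one.1 (Multiset.Nodup.map (fun a b l => ZMod.val_injective 3
      (hζ.pow_inj a.val_lt b.val_lt l)) (by decide)) c

end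

section gl
open Matrix Cfsg.Geo
variable {ι : Type} [Fintype ι] [DecidableEq ι] {F E : Type*} [Field F] {K : Subalgebra F (Matrix ι ι F)} [Field E] [Algebra F E]
  [Module E (ι → F)] [IsScalarTower F E (ι → F)] (h1 : ∀ a, a ∈ K ↔ ∃ e : E, ∀ v : ι → F, a *ᵥ v = e • v)
  (h2 : ∀ e : E, ∃ a ∈ K, ∀ v : ι → F, a *ᵥ v = e • v)
include h1 h2

omit [Algebra F E] [IsScalarTower F E (ι → F)] in
theorem gc_fld {r : ℕ} : (∀ g, LinearMap.det g = 1 → PE r g → GC (subalgebraNormalizer K) g) ↔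
    ∀ g : End F (ι → F), LinearMap.det g = 1 → PE r g → GN E g := by
  refine forall₃_congr fun g h0 _ => ⟨fun ⟨x, k1, k2⟩ => ⟨_, k2, (H10.Mx.mem_nrm_iff h1 h2).1 k1⟩, fun ⟨x, k1, k2⟩ => ?_⟩
  obtain ⟨A, rfl⟩ := toLin'.surjective x
  obtain ⟨x, rfl⟩ := (isUnit_iff_isUnit_det A).2 (by rw [← LinearMap.det_toLin', ← k1.det, h0]; exact isUnit_one)
  exact ⟨x, (H10.Mx.mem_nrm_iff h1 h2).2 k2, k1⟩

theorem fld_nine [Fintype F] [FiniteDimensional F E] (hk : finrank F E = 3) (hn : Fintype.card ι = 3)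
    (h : 3 ∣ (subalgebraNormalizer K).relIndex (specialLinear ι F)) (hq : Fintype.card F % 3 = 2) : Fintype.card F % 9 = 8 := by
  haveI := Fact.mk Nat.prime_three
  haveI : Nonempty ι := Fintype.card_pos_iff.1 (by omega)
  obtain ⟨x, k1, k2, k3⟩ := exists_frob (V := ι → F) hk (by simpa) (by decide)
  have k4 := det_eq_one_of_pow (by omega) k2
  obtain ⟨A, rfl⟩ := toLin'.surjective x
  rw [LinearMap.det_toLin'] at k4
  obtain ⟨x, rfl⟩ := (isUnit_iff_isUnit_det A).2 (k4 ▸ isUnit_one)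
  have := idx_dvd (S := Subgroup.zpowers x) h (Subgroup.zpowers_le_of_mem ((H10.Mx.mem_nrm_iff h1 h2).2 k1))
    (Subgroup.zpowers_le_of_mem (H09.mem_specialLinear.2 k4))
  rw [Nat.card_zpowers, ord_iff.2 ⟨k2, k3.ne_one⟩, hn] at this
  replace this := (ZMod.natCast_eq_zero_iff _ 9).2 ((dvd_mul_right _ _).trans this)
  have h3 := fun k => Nat.one_le_pow k _ (Fintype.card_pos (α := F))
  simp only [Finset.prod_range_succ, Finset.sum_range_succ, Finset.range_zero, Finset.prod_empty, Finset.sum_empty, Nat.cast_mul,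
    Nat.cast_sub (h3 _), Nat.cast_pow, ← ZMod.natCast_mod (Fintype.card F) 9] at this
  rcases (show Fintype.card F % 9 = 2 ∨ Fintype.card F % 9 = 5 ∨ Fintype.card F % 9 = 8 by omega) with k | k | k
  exacts [absurd (k ▸ this) (by decide), absurd (k ▸ this) (by decide), k]

end gl

end H28.El
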