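import Mathlib
import Cfsg.Agent.H28.El27
import Cfsg.Agent.H16.Fx5

/-!
# Elements of prime order and tensor decompositions of linear groups (namespace `H28.El`)
-/

set_option autoImplicit false
set_option linter.style.haveILetI false

open Module H24.Sim H16.Fx

namespace H28.El

section
variable {F V U W : Type*} [Field F] [AddCommGroup V] [Module F V] [AddCommGroup U] [Module F U] [AddCommGroup W]
  [Module F W] {t : U →ₗ[F] W →ₗ[F] V} {g x : End F V} {A : End F U} {B : End F W} {r : ℕ}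

variable (t) in
/-- similar to a tensor product of two maps -/
def GT (g : End F V) : Prop := ∃ x A B, Iso g x ∧ KP t x A B

theorem GT.smul (c : F) (g : End F V) (_ : c ≠ 0) (h : GT t g) : GT t (c • g) := by
  obtain ⟨x, A, B, k1, k2⟩ := h
  exact ⟨_, c • A, B, iso_smul k1 c, fun u w => by simp [k2 u w]⟩

variable [FiniteDimensional F U] [FiniteDimensional F W] [FiniteDimensional F V] (h : TP t)
include h

theorem GT.dvd_ed (k : GT t g) (hd : finrank F (mv g) < finrank F W) (c : F) : finrank F U ∣ ed g c := by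
  obtain ⟨x, A, B, k1, k2⟩ := k
  obtain ⟨a, rfl⟩ := h.scal k2 (iso_mv k1 ▸ hd)
  have k3 := h.rank_one (g := x - c • 1 + 1) (B := a • B - c • 1 + 1) fun u w => by simp [k2.smul u w]
  rw [mv, add_sub_cancel_right] at k3
  have k4 := ed_add x c
  rw [k3, h.finrank_eq, ← iso_ed k1] at k4
  exact (Nat.dvd_add_left (dvd_mul_right _ _)).1 (k4 ▸ dvd_mul_right _ _)

theorem GT.dvd_mv (k : GT t g) (hd : finrank F (mv g) < finrank F W) : finrank F U ∣ finrank F (mv g) := by
  have k4 := ed_add g 1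
  rw [h.finrank_eq, one_smul] at k4
  exact (Nat.dvd_add_right (k.dvd_ed h hd 1)).1 (k4 ▸ dvd_mul_right _ _)

theorem gt_even (h2 : (2 : F) ≠ 0) (ha : finrank F U = 2) (y : End F V) (hy : y ^ 2 = 1) (k : Even (finrank F (mv y))) :
    GT t y := by
  obtain ⟨j, hj⟩ := k
  have := Submodule.finrank_le (mv y)
  obtain ⟨B, k1, k2⟩ := exists_invol (V := W) h2 (k := j) (by rw [h.finrank_eq, ha] at this; omega)
  exact ⟨_, 1, B, iso_invol hy (h.uniq ((h.kp 1 B).pow 2) (by rw [k1, one_pow]; exact fun _ _ => rfl))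
    (by rw [h.rank_one (h.kp 1 B), ha]; omega), h.kp 1 B⟩

omit [FiniteDimensional F W] in
theorem gt_sq (ha : finrank F U = 2) (g : End F V) (z : F) (hz : ∀ w : F, w ^ 2 ≠ z) (hg : g ^ 2 = z • 1) : GT t g := by
  obtain ⟨A, k⟩ := exists_nonsplit (V := U) two_ne_zero z (s := 1) ha
  exact ⟨_, A, 1, iso_nonsplit Nat.prime_two hz hg (h.uniq ((h.kp A 1).pow 2) (by rw [k, one_pow]; exact fun _ _ => by simp)),
    h.kp A 1⟩

variable [Fintype F] [hr : Fact r.Prime]

local notation "qq" => Fintype.card F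
local notation "bb" => orderOf ((Fintype.card F : ℕ) : ZMod r)

theorem tens (ha : 2 ≤ finrank F U) (hlt : finrank F U < finrank F W) (hb : (r : F) ≠ 0 → bb ≤ finrank F V) :
    (∀ g, LinearMap.det g = 1 → PE r g → GT t g) ↔
      r = 2 ∧ finrank F U = 2 ∧ Odd qq ∧ padicValNat 2 (qq - 1) ≤ padicValNat 2 (finrank F V) := by
  have hn : 2 * finrank F W ≤ finrank F V := h.finrank_eq ▸ Nat.mul_le_mul_right _ ha
  have one : ∀ y : End F V, finrank F (mv y) = 1 → ¬ GT t y := fun y k1 k2 => by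
    have := Nat.dvd_one.1 (k1 ▸ k2.dvd_mv h (by omega)); omega
  by_cases h0 : (r : F) = 0
  · haveI : CharP F r := (CharP.charP_iff_prime_eq_zero hr.out).2 h0
    obtain ⟨y, k1, k2, k3⟩ := exists_tv (F := F) (V := V) (p := r) (by omega)
    exact iff_of_false (fun k => one y k3 (k y k1 k2)) fun ⟨k4, _, k5, _⟩ => two_ne_of_odd k5 (by simpa [k4] using h0)
  by_cases h2 : r = 2
  · subst h2
    replace h0 : (2 : F) ≠ 0 := h0
    rcases ha.eq_or_lt with ha | ha
    · rw [lin_even h0 (by omega) GT.smul (gt_even h h0 ha.symm) (gt_sq h ha.symm) fun y _ => one y]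
      simp [ha.symm, Nat.odd_iff.2 (odd_card h0)]
    obtain ⟨y, l1, l2⟩ := exists_invol (V := V) h0 (k := 2) (by omega)
    refine iff_of_false (fun k => ?_) (by omega)
    refine ha.not_ge (Nat.le_of_dvd two_pos (l2 ▸ (k y (by simp [det_invol l1, l2]) (pe_invol l1 ?_ ?_)).dvd_mv h (by omega)))
    · rintro rfl; rw [mv_one, finrank_bot] at l2; omega
    · rintro rfl; rw [mv_neg_one h0, finrank_top] at l2; omega
  refine iff_of_false (fun k => ?_) fun k => h2 k.1
  by_cases hd : r ∣ qq - 1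
  · obtain ⟨y, ζ, k1, k2, k3, k4⟩ := exists_pm (V := V) h2 hd (by omega)
    have := ed_add y 1
    rw [one_smul] at this
    have := Nat.dvd_one.1 (k4 ▸ (k y k1 k2).dvd_ed h (by rw [mv]; omega) ζ)
    omega
  obtain ⟨y, -, k1, k2, -⟩ := exists_ord (V := V) h0 (s := 1) (by simpa using hb h0)
  have := ord_pos h0
  obtain ⟨x, A, B, l1, l2⟩ := k y (det_eq_one_of_pow hd k1) (pe_of_pow hd k1 (ne_one_of_pos (by omega)))
  haveI : Nontrivial U := nontrivial_of_finrank_pos (R := F) (by omega)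
  haveI : Nontrivial W := nontrivial_of_finrank_pos (R := F) (by omega)
  rw [iso_pow_one l1] at k1
  rw [iso_mv l1] at k2
  obtain ⟨a, rfl⟩ : ∃ a : F, A = a • 1 := by_contra fun e => e (h.scal l2 (by
    have := (h.bound l2 h0 hd k1 (not_exists.1 e)).1; omega))
  obtain ⟨s, hs⟩ := exists_blocks h0 (h.pow_eq l2.smul k1)
  rw [h.rank_one l2.smul, hs, ← mul_assoc] at k2
  have := Nat.eq_one_of_mul_eq_one_right (Nat.eq_of_mul_eq_mul_right (ord_pos h0) k2)
  omega

end

section gl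
open Matrix Cfsg.Geo
variable {ι : Type} [Fintype ι] [DecidableEq ι] {F : Type*} [Field F] {r : ℕ}

theorem exists_gl {g : End F (ι → F)} (h : Function.Injective g) : ∃ x : GL ι F, toLin' x.1 = g := by
  obtain ⟨A, rfl⟩ := toLin'.surjective g
  obtain ⟨x, rfl⟩ := (isUnit_iff_isUnit_det A).2 (by
    rw [← LinearMap.det_toLin', ← LinearMap.isUnit_iff_isUnit_det, End.isUnit_iff]
    exact ⟨h, LinearMap.injective_iff_surjective.1 h⟩)
  exact ⟨x, rfl⟩

theorem gc_tens {m k : ℕ} [NeZero m] [NeZero k] (e : ι ≃ Fin m × Fin k) (P : GL ι F) :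
    (∀ g, LinearMap.det g = 1 → PE r g → GC (tensorProductSubgroup m k e P) g) ↔
    ∀ g : End F (ι → F), LinearMap.det g = 1 → PE r g → GT (H24.NM.tau e P) g := by
  refine forall₃_congr fun g h0 _ => ⟨fun ⟨x, k1, k2⟩ => ?_, fun ⟨x, A, B, k1, k2⟩ => ?_⟩
  · obtain ⟨a, b, k⟩ := (mem_tens e P).1 k1
    exact ⟨_, _, _, k2, k⟩
  have k3 : Function.Injective x := ((End.isUnit_iff _).1 ((LinearMap.isUnit_iff_isUnit_det _).2
    (by rw [← k1.det, h0]; exact isUnit_one))).1
  obtain ⟨x, rfl⟩ := exists_gl k3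
  obtain ⟨a, rfl⟩ := exists_gl (g := A) ((injective_iff_map_eq_zero _).2 fun u hu =>
    (tp_tau e P).eq_zero (y := 1) one_ne_zero (k3 (by rw [k2, hu]; simp)))
  obtain ⟨b, rfl⟩ := exists_gl (g := B) ((injective_iff_map_eq_zero _).2 fun u hu =>
    (tp_tau e P).flip.eq_zero (y := 1) one_ne_zero (k3 (by rw [k2.flip, hu]; simp)))
  exact ⟨x, (mem_tens e P).2 ⟨a, b, k2⟩, k1⟩

theorem ord_le_of_idx [Fintype F] [hr : Fact r.Prime] [Nonempty ι] {H : Subgroup (GL ι F)}
    (h : r ∣ H.relIndex (specialLinear ι F)) (h0 : (r : F) ≠ 0) :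
    orderOf ((Fintype.card F : ℕ) : ZMod r) ≤ Fintype.card ι := by
  obtain ⟨i, k1, k2⟩ := (hr.out.prime.dvd_finsetProd_iff _).1 (dvd_of_dvd_mul_pow hr.out h0
    (((dvd_mul_right _ _).mul_right _).trans (idx_dvd (S := ⊥) h bot_le bot_le)))
  exact (Nat.le_of_dvd i.succ_pos ((ord_dvd_iff Fintype.card_pos).2 k2)).trans (Finset.mem_range.1 k1)

end gl

end H28.El
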