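import Cfsg.Agent.H06.J0

/-! Abstract half of part H of S5566: `H28.JA.hx` gives `Hx 1 K Y` from `K / Y ≅ A₆`. -/

set_option autoImplicit false
set_option linter.unusedSimpArgs false
set_option linter.unusedSectionVars false
open Subgroup

namespace H28.JA
universe u v

section
variable {α : Type v} [Fintype α] [DecidableEq α] (hα : Fintype.card α = 6)
include hα

theorem cA : Nat.card (alternatingGroup α) = 360 := by
  haveI : Nontrivial α := Fintype.one_lt_card_iff_nontrivial.1 (by omega)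
  have := two_mul_nat_card_alternatingGroup (α := α)
  rw [Nat.card_perm, Nat.card_eq_fintype_card (α := α), hα] at this
  simp only [Nat.factorial] at this
  omega

theorem si : IsSimpleGroup (alternatingGroup α) := alternatingGroup.isSimpleGroup (by rw [Nat.card_eq_fintype_card]; omega)

theorem ix (J : Subgroup (alternatingGroup α)) (h : J.index ≤ 5) : J = ⊤ := by
  haveI := si hα
  rcases J.normalCore_normal.eq_bot_or_eq_top with e | e
  · have h1 := J.normalCore.card_mul_index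
    have h2 : J.normalCore.index ∣ J.index.factorial := by
      rw [J.normalCore_eq_ker, index_ker, J.index_eq_card, ← Nat.card_perm]
      exact card_subgroup_dvd_card _
    rw [e, index_bot, cA hα] at h2
    have := Nat.le_of_dvd (Nat.factorial_pos _) (h2.trans (Nat.factorial_dvd_factorial h))
    norm_num [Nat.factorial] at this
  · exact top_le_iff.1 (e ▸ J.normalCore_le)

theorem e4 (E : Subgroup (alternatingGroup α)) (h : ∀ g ∈ E, g * g = 1) : Nat.card E ≤ 4 := by
  by_contra n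
  haveI : Fact (Nat.Prime 2) := ⟨Nat.prime_two⟩
  have pE : IsPGroup 2 E := fun g => ⟨1, Subtype.ext (by simpa [pow_two] using h g g.2)⟩
  obtain ⟨k, hk⟩ := IsPGroup.iff_card.1 pE
  obtain ⟨S, hS⟩ := pE.exists_le_sylow
  have cS : Nat.card S = 8 := by
    rw [S.card_eq_multiplicity, cA hα, show 360 = 2 ^ 3 * 45 by norm_num, Nat.factorization_mul (by norm_num) (by norm_num),
      Nat.prime_two.factorization_pow]
    simp [ Nat.factorization_eq_zero_of_not_dvd (show ¬ 2 ∣ 45 by norm_num)]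
  have k3 : 3 ≤ k := by
    by_contra m
    have : 2 ^ k ≤ 2 ^ 2 := Nat.pow_le_pow_right (by norm_num) (by omega)
    omega
  have ES : E = S := eq_of_le_of_card_ge hS (by
    change Nat.card S ≤ _
    rw [cS, hk]; exact Nat.pow_le_pow_right (n := 2) (by norm_num) k3)
  let e := Fintype.equivFinOfCardEq hα
  let g0 : Equiv.Perm (Fin 6) := Equiv.swap 0 1 * Equiv.swap 1 2 * Equiv.swap 2 3 * Equiv.swap 4 5
  let g : alternatingGroup α := ⟨e.symm.permCongrHom g0, by
    rw [Equiv.Perm.mem_alternatingGroup]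
    exact (Equiv.Perm.sign_permCongr e.symm g0).trans (by decide)⟩
  have g4 : g ^ 2 ^ 2 = 1 := Subtype.ext (by
    show e.symm.permCongrHom g0 ^ 2 ^ 2 = 1
    rw [← map_pow, show g0 ^ 2 ^ 2 = 1 by decide, map_one])
  have g2 : g * g ≠ 1 := fun q => by
    have : e.symm.permCongrHom (g0 * g0) = 1 := by rw [map_mul]; exact congrArg Subtype.val q
    exact absurd ((map_eq_one_iff _ (MulEquiv.injective _)).1 this) (by decide)
  have pg : IsPGroup 2 (zpowers g) := fun x => ⟨2, Subtype.ext (by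
    obtain ⟨i, hi⟩ := mem_zpowers_iff.1 x.2
    show x.1 ^ 2 ^ 2 = 1
    rw [← hi, ← zpow_natCast, ← zpow_mul, mul_comm, zpow_mul, zpow_natCast, g4, one_zpow])⟩
  obtain ⟨S', hS'⟩ := pg.exists_le_sylow
  obtain ⟨c, hc⟩ := MulAction.exists_smul_eq (alternatingGroup α) S' S
  have m : c * g * c⁻¹ ∈ E := by
    rw [ES, ← hc]
    exact smul_mem_pointwise_smul g (MulAut.conj c) S' (hS' (mem_zpowers g))
  have := h _ m
  rw [conj_mul] at this
  exact g2 (by simpa using this)
end

variable {Γ : Type u} [Group Γ] [Finite Γ] {K Y : Subgroup Γ} {α : Type v} [Fintype α] [DecidableEq α]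
  (hα : Fintype.card α = 6) (φ : K →* alternatingGroup α) (sur : Function.Surjective φ)
  (ker : ∀ k : K, φ k = 1 ↔ (k : Γ) ∈ Y)
include hα sur ker

theorem cm {J : Subgroup Γ} (YJ : Y ≤ J) : ((J.subgroupOf K).map φ).comap φ = J.subgroupOf K :=
  comap_map_eq_self fun k hk => YJ ((ker k).1 hk)

theorem s1 {J : Subgroup Γ} (YJ : Y ≤ J) (h : J.relIndex K ≤ 5) : K ≤ J := by
  have e := ix hα ((J.subgroupOf K).map φ) (by
    rw [← index_comap_of_surjective _ sur, cm hα φ sur ker YJ]; exact h)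
  have := cm hα φ sur ker YJ
  rw [e, comap_top] at this
  exact subgroupOf_eq_top.1 this.symm

theorem s2 {N : Subgroup Γ} (YN : Y ≤ N) (h : ∀ k ∈ K, ∀ n ∈ N, k * n * k⁻¹ ∈ N) : K ≤ N ∨ N ⊓ K ≤ Y := by
  haveI := si hα
  have n : (N.subgroupOf K).Normal := ⟨fun a ha k => h k k.2 a ha⟩
  have := cm hα φ sur ker YN
  rcases (n.map φ sur).eq_bot_or_eq_top with e | e
  · rw [e] at this
    exact Or.inr fun g hg => (ker ⟨g, hg.2⟩).1 (show (⟨g, hg.2⟩ : K) ∈ (⊥ : Subgroup _).comap φ from this ▸ hg.1)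
  · rw [e, comap_top] at this
    exact Or.inl (subgroupOf_eq_top.1 this.symm)

theorem s3 {E : Subgroup Γ} (EK : E ≤ K) (h : ∀ g ∈ E, g * g = 1) : Nat.card E ≤ 4 * Nat.card ↥(E ⊓ Y) := by
  let ψ := φ.comp (inclusion EK)
  have h1 := ψ.ker.card_mul_index
  have h2 : ψ.ker = (E ⊓ Y).subgroupOf E := by
    ext g; rw [MonoidHom.mem_ker, mem_subgroupOf]; exact (ker _).trans ⟨fun a => ⟨g.2, a⟩, fun a => a.2⟩
  have h3 := e4 hα ψ.range (by
    rintro _ ⟨g, rfl⟩
    rw [← map_mul, show g * g = 1 from Subtype.ext (h g g.2), map_one])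
  rw [index_ker, h2, Nat.card_congr (subgroupOfEquivOfLe inf_le_left).toEquiv] at h1
  rw [← h1, mul_comm]
  exact Nat.mul_le_mul_right _ h3

theorem nY (YK : Y ≤ K) : ∀ k ∈ K, ∀ y ∈ Y, k * y * k⁻¹ ∈ Y := fun k hk y hy =>
  (ker (⟨k, hk⟩ * ⟨y, YK hy⟩ * ⟨k, hk⟩⁻¹)).1 (by rw [map_mul, map_mul, (ker ⟨y, YK hy⟩).2 hy, mul_one, map_inv, mul_inv_cancel])

theorem tr (YK : Y ≤ K) (cY : Nat.card Y = 16) (Y2 : ∀ y ∈ Y, y * y = 1) (cen : ∀ k ∈ K, (∀ y ∈ Y, k * y = y * k) → k ∈ Y) :
    ∀ y ∈ Y, ∀ y' ∈ Y, y ≠ 1 → y' ≠ 1 → ∃ k ∈ K, k * y * k⁻¹ = y' := by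
  have ny := nY hα φ sur ker YK
  have ab : ∀ a ∈ Y, ∀ b ∈ Y, a * b = b * a := fun a ha b hb => by
    have h1 := Y2 _ (Y.mul_mem ha hb)
    calc a * b = a * (a * b * (a * b)) * b := by rw [h1, mul_one]
      _ = (a * a) * (b * a) * (b * b) := by group
      _ = b * a := by rw [Y2 a ha, Y2 b hb, one_mul, mul_one]
  let O : Γ → Set Γ := fun y => {x | ∃ k ∈ K, k * y * k⁻¹ = x}
  have ci : ∀ y, (O y).ncard = (centralizer {y}).relIndex K := fun y => by
    let act : MulAction K Γ := MulAction.compHom Γ ((MulAut.conj : Γ →* MulAut Γ).comp K.subtype)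
    have h := @MulAction.index_stabilizer K Γ _ act y
    have e1 : @MulAction.stabilizer K Γ _ act y = (centralizer {y}).subgroupOf K := by
      ext k
      exact (show (k : Γ) * y * (k : Γ)⁻¹ = y ↔ _ from mul_inv_eq_iff_eq_mul).trans mem_centralizer_singleton_iff.symm
    have e2 : @MulAction.orbit K Γ act.toSMul y = O y := by
      ext x
      exact ⟨fun ⟨k, hk⟩ => ⟨k, k.2, hk⟩, fun ⟨k, a, hk⟩ => ⟨⟨k, a⟩, hk⟩⟩
    rw [e1, e2] at h
    exact h.symm
  have cK : Nat.card K = 16 * 360 := by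
    have h1 := φ.ker.card_mul_index
    have h2 : φ.ker = Y.subgroupOf K := Subgroup.ext ker
    rw [index_ker, MonoidHom.range_eq_top.2 sur, card_top, cA hα, h2, Nat.card_congr (subgroupOfEquivOfLe YK).toEquiv, cY] at h1
    exact h1.symm
  haveI : Fact (Nat.Prime 5) := ⟨by norm_num⟩
  have d5 : ∀ y ∈ Y, y ≠ 1 → 5 ∣ (centralizer {y}).relIndex K := fun y hy y1 => by
    classical
    have h1 := ((centralizer {y}).subgroupOf K).card_mul_index
    rw [cK] at h1
    refine ((Nat.Prime.dvd_mul Fact.out).1 (h1 ▸ (by norm_num : 5 ∣ 16 * 360))).resolve_left fun h => ?_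
    obtain ⟨f, hf⟩ := exists_prime_orderOf_dvd_card' 5 h
    have o : orderOf (f.1.1 : Γ) = 5 := by rw [orderOf_coe, orderOf_coe, hf]
    have fK := f.1.2
    have fy : (f.1.1 : Γ) ∈ centralizer {y} := f.2
    generalize (f.1.1 : Γ) = f at o fK fy
    let σ : Function.End Y := fun x => ⟨f * x * f⁻¹, ny f fK x x.2⟩
    have s : ∀ (i : ℕ) (x : Y), ((σ ^ i) x : Γ) = f ^ i * x * (f ^ i)⁻¹ := fun i => by
      induction i with
      | zero => intro x; simp; rfl
      | succ i ih => intro x; rw [pow_succ', pow_succ']; show f * ((σ ^ i) x : Γ) * f⁻¹ = _; rw [ih]; group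
    haveI := Fintype.ofFinite Y
    have m := Equiv.Perm.card_fixedPoints_modEq (f := σ) (p := 5) (n := 1) (funext fun x => Subtype.ext (by
      rw [s, pow_one, ← o, pow_orderOf_eq_one]; simp; rfl))
    let C := (centralizer {f}).subgroupOf Y
    have e : Fintype.card σ.fixedPoints = Nat.card C := by
      rw [← Nat.card_eq_fintype_card]
      refine congrArg (fun S : Set Y => Nat.card S) (Set.ext fun x => ?_ : σ.fixedPoints = (C : Set Y))
      exact Subtype.ext_iff.trans ((show f * x * f⁻¹ = x ↔ _ from mul_inv_eq_iff_eq_mul).trans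
        (eq_comm.trans mem_centralizer_singleton_iff.symm))
    have dv := card_subgroup_dvd_card C
    have n1 : Nat.card C ≠ 1 := fun q => by
      have a : (⟨y, hy⟩ : Y) ∈ C := mem_centralizer_singleton_iff.2 (mem_centralizer_singleton_iff.1 fy).symm
      rw [card_eq_one.1 q, mem_bot] at a
      exact y1 (congrArg Subtype.val a)
    rw [e, ← Nat.card_eq_fintype_card, cY] at m
    rw [cY] at dv
    have le := Nat.le_of_dvd (by norm_num) dv
    have c16 : Nat.card C = 16 := by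
      unfold Nat.ModEq at m
      generalize Nat.card C = n at *
      interval_cases n <;> omega
    have ct : C = ⊤ := (card_eq_iff_eq_top C).1 (c16.trans cY.symm)
    have fY := cen f fK fun x hx => (mem_centralizer_singleton_iff.1 (show (⟨x, hx⟩ : Y) ∈ C from ct ▸ mem_top _)).symm
    have := orderOf_dvd_of_pow_eq_one ((pow_two f).trans (Y2 f fY))
    rw [o] at this
    norm_num at this
  have t10 : ∀ y ∈ Y, y ≠ 1 → 10 ≤ (O y).ncard := fun y hy y1 => by
    have a := d5 y hy y1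
    have b : (centralizer {y}).relIndex K ≠ 0 := FiniteIndex.index_ne_zero
    rw [ci]
    by_contra n
    have := s1 hα φ sur ker (J := centralizer {y}) (fun x hx => mem_centralizer_singleton_iff.2 (ab x hx y hy)) (by omega)
    rw [relIndex_eq_one.2 this] at a
    norm_num at a
  intro y hy y' hy' y1 y1'
  by_contra n
  have dj : Disjoint (O y) (O y') := Set.disjoint_left.2 fun x ⟨k, a, e⟩ ⟨l, b, e'⟩ =>
    n ⟨l⁻¹ * k, K.mul_mem (K.inv_mem b) a, by
      rw [show l⁻¹ * k * y * (l⁻¹ * k)⁻¹ = l⁻¹ * (k * y * k⁻¹) * l by group, e, ← e']; group⟩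
  have sub : O y ∪ O y' ⊆ Y := by
    rintro _ (⟨k, a, rfl⟩ | ⟨k, a, rfl⟩)
    · exact ny k a y hy
    · exact ny k a y' hy'
  have h1 := Set.ncard_le_ncard sub
  rw [Set.ncard_union_eq dj, ← Nat.card_coe_set_eq (Y : Set Γ)] at h1
  have h2 := t10 y hy y1
  have h3 := t10 y' hy' y1'
  have : Nat.card (Y : Set Γ) = 16 := cY
  omega

theorem hx (YK : Y ≤ K) (cY : Nat.card Y = 16) (Y2 : ∀ y ∈ Y, y * y = 1) (cen : ∀ k ∈ K, (∀ y ∈ Y, k * y = y * k) → k ∈ Y) :
    Cfsg.Agent.H06.J.Hx 1 K Y :=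
  ⟨K.one_mem, YK, cY, Y2, nY hα φ sur ker YK, tr hα φ sur ker YK cY Y2 cen, fun _ _ a _ b => s1 hα φ sur ker a b,
    fun _ n a _ b => (s2 hα φ sur ker a b).imp id fun c _ d _ => c ⟨d, n d⟩, fun _ a b => s3 hα φ sur ker a b⟩

end H28.JA
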