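import Mathlib
import Cfsg.Agent.H28.Ctrl
import Cfsg.Agent.H28.Pre
import Cfsg.Agent.H28.Comp
import Cfsg.Agent.H24.PSolv

/-! Fusion systems with a terminating residual series. -/

set_option autoImplicit false
set_option linter.unusedSectionVars false
set_option linter.style.haveILetI false

namespace H28
open Cfsg Cfsg.FusionSystem Equiv
open H26 (IsSyl)

universe u
variable {p : ℕ} [Fact p.Prime]

theorem psol_of_res {G : Type*} [Group G] {A : Subgroup G} [Finite A] (h : IsPSolvable p (pResidualOf p A)) :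
    IsPSolvable p A := by
  haveI := (Subgroup.normal_subgroupOf_iff_le_normalizer (H26.pResidualOf_le (p := p) A)).2 (H26.le_normalizer_pResidualOf A)
  haveI := finite_of_le (H26.pResidualOf_le (p := p) A)
  refine H24.PS.ext ((pResidualOf p A).subgroupOf A) (H24.PS.congr h
    (Subgroup.subgroupOfEquivOfLe (H26.pResidualOf_le A)).symm) (H24.PS.of_pgroup fun x => ?_)
  obtain ⟨x, rfl⟩ := QuotientGroup.mk_surjective x
  obtain ⟨k, hk⟩ := H26.exists_pow_mem_pResidualOf (p := p) x.2
  exact ⟨k, by rw [← QuotientGroup.mk_pow, QuotientGroup.eq_one_iff]; exact hk⟩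

theorem psol_of_res' {G : Type*} [Group G] {A : Subgroup G} [Finite A] (h : IsPSolvable p (pElementClosure p A)) :
    IsPSolvable p A := by
  haveI := (Subgroup.normal_subgroupOf_iff_le_normalizer (H26.pElementClosure_le (p := p) A)).2
    (H26.le_normalizer_pElementClosure A)
  haveI := finite_of_le (H26.pElementClosure_le (p := p) A)
  refine H24.PS.ext ((pElementClosure p A).subgroupOf A) (H24.PS.congr h
    (Subgroup.subgroupOfEquivOfLe (H26.pElementClosure_le A)).symm) (H24.PS.of_coprime ?_)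
  obtain ⟨T⟩ : Nonempty (Sylow p A) := inferInstance
  refine ((Nat.Prime.coprime_iff_not_dvd Fact.out).2 fun a => T.not_dvd_index (a.trans (Subgroup.index_dvd_of_le
    fun x hx => ?_))).symm
  obtain ⟨k, hk⟩ := T.2 ⟨x, hx⟩
  exact H26.mem_pElementClosure x.2 ⟨k, congrArg (fun y => y.1.1) hk⟩

section
variable {Ω : Type*} [Group Ω] {S T : Subgroup Ω} [Finite S] {F : FusionSystem S} {E : FusionSystem T}

/-- all automizers are `p`-solvable -/
def AS (p : ℕ) (F : FusionSystem S) : Prop := ∀ P ≤ S, IsPSolvable p (F.autGroup P)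

theorem AS.sub (h : AS p F) (hE : E.IsSubsystemOf F) : AS p E := fun P hP =>
  haveI := finite_mulAut (hP.trans (le_of_sub hE))
  H24.PS.of_le (h P (hP.trans (le_of_sub hE))) (autGroup_mono hE P)

theorem AS.of_pprime {D : FusionSystem S} (h : AS p D) (hD : D.HasPrimeToPIndexIn F p) : AS p F := fun P hP =>
  haveI := finite_mulAut hP
  psol_of_res' (H24.PS.of_le (h P hP) ((hasPrimeToPIndexIn_iff.1 hD).2 P hP))

theorem AS.of_pidx (hS : IsPGroup p S) (h : AS p E) (hE : E.HasPPowerIndexIn F p) (hT : F.StronglyClosed T) :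
    AS p F := fun P hP => by
  haveI := finite_mulAut hP
  haveI := finite_mulAut (inf_le_left.trans hP : P ⊓ T ≤ S)
  have h1 := H26.pResidualOf_le (p := p) (F.autGroup P)
  have h2 : ∀ α ∈ F.autGroup P, α ∈ stab P (P ⊓ T) := fun α hα => (sc_iso_inf hT (iso_ex hP hα)).hiso
  have h3 := (homOn_rs P (P ⊓ T)).mono fun α hα => h2 α (h1 hα)
  refine psol_of_res (H24.PS.ext h3.toHom.ker (H24.PS.of_pgroup ?_) (H24.PS.congr (H24.PS.of_le (h (P ⊓ T) inf_le_right)
    (K := E.autGroup (P ⊓ T)) ?_) (QuotientGroup.quotientKerEquivRange h3.toHom).symm))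
  · intro ⟨⟨α, hα⟩, a⟩
    have := mem_pCore_of_triv_fix hS hT (iso_ex hP (h1 hα)) (fun x hx hx' => by
      rw [← ex_rs (h2 α (h1 hα)) ⟨hx, hx'⟩, show rs P (P ⊓ T) α = 1 from a]; simp)
      fun x hx => hE.2.1 (mem_hyperfocal hP hα hx)
    rw [res_ex] at this
    obtain ⟨k, hk⟩ := H26.isPGroup_iff_mem.1 (H26.isPGroup_pCoreOf (p := p) (F.autGroup P)) α this
    exact ⟨k, Subtype.ext (Subtype.ext hk)⟩
  · rw [← h3.img_eq_range, img_le_iff]
    refine fun α hα => (H26.pResidualOf_le_iff (N := h3.pre (E.autGroup (P ⊓ T)))).2 (fun β hβ c => ?_) hα |>.2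
    have b1 := H26.mem_pResidualOf hβ c
    have b2 := sc_iso_inf hT (iso_ex hP hβ)
    refine ⟨b1, (mem_autGroup inf_le_right).2 ((pidx_M hE inf_le_right b2 (c.coprime_dvd_left ?_)).congr
      fun x hx => (b2.hiso.ex_res hx).symm)⟩
    exact (Subgroup.orderOf_mk β b1) ▸ orderOf_map_dvd h3.toHom ⟨β, b1⟩

theorem as_iff_model (hS : IsPGroup p S) {G : Type*} [Group G] {ι : S →* G} (h : F.IsModel p G ι) :
    AS p F ↔ IsPSolvable p G := by
  haveI := model_finite h
  have hc := model_constrained h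
  refine ⟨fun a => ?_, fun a P hP => ?_⟩
  · obtain ⟨κ, d⟩ := exists_mdata h (normal_core F) ((constrained_iff hS hc.1).1 hc)
    haveI := finite_mulAut d.le
    exact H24.PS.ext κ.ker (H24.PS.of_pgroup (d.ker_pgroup hS)) (H24.PS.congr (d.range ▸ a _ d.le)
      (QuotientGroup.quotientKerEquivRange κ).symm)
  · obtain ⟨e, -⟩ := (model_isFIso h).autEquiv hP rfl
    haveI := finite_mulAut hP
    refine H24.PS.congr ?_ e.symm
    rw [autGroup_group ((model_isFIso h).img_le hP), autInducedBy_eq_map]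
    exact H24.PS.map (H24.PS.subgroup (H24.PS.subgroup a _) _) _

theorem eq_bot_of_stab (hS : IsPGroup p S) (hF : F.IsConstrained p) (h : AS p F) (hs : Stab p F) : S = ⊥ := by
  have hQ := normal_core F
  have h1 := inner_normalIn hS hF.1 hQ
  haveI := finite_mulAut hQ.1
  have h2 : (innerFusionSystem F.core).autGroup F.core = Inn F.core := by rw [autGroup_inner le_rfl, Inn_eq]
  haveI : (((innerFusionSystem F.core).autGroup F.core).subgroupOf (F.autGroup F.core)).Normal := by
    rw [h2]; exact (Inn_normal _).subgroupOf _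
  obtain ⟨D, a1, -, a2, a3⟩ := exists_reduction hS hF.1 h1 (H24.PS.quotient (h _ hQ.1) _)
  have a4 := sup_eq_left.2 ((constrained_iff hS hF.1).1 hF)
  have a5 : F.core = S := hQ.1.antisymm (a4 ▸ a3 S F hs (IsSubnormalIn.refl _ _))
  rw [h2] at a2
  revert D
  rw [a4]
  revert hQ
  rw [a5]
  intro hQ D a1 a2
  have a6 : F.autGroup S ≤ Inn S := a2 ▸ autGroup_mono (hs.2.2.2 D a1.1.1 (hasPrimeToPIndexIn_iff.2
    ⟨a1.1.2.2.1, fun _ hP => pElementClosure_le_of_inv hS hF.1 a1.1.2.2 hP⟩)) S
  rw [← hs.1, eq_inner_of_isPGroup hS hF.1 fun R hR => ?_, hyperfocal_inner hS]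
  have c := cr_of_alperin hS hF.1 hR
  obtain rfl : R = S := c.1.1.antisymm (normal_le_of_radical hS hQ c.1 c.2.1)
  exact ((Inn_eq R).symm ▸ isPGroup_autInducedBy hS R).to_le a6

end

variable {Ω : Type u} [Group Ω] {S : Subgroup Ω} [Finite S]

theorem term_of (F : FusionSystem S) : IsPGroup p S → F.IsConstrained p → AS p F → F.HasTerminatingResidualSeries p := by
  refine fs_induction (C := fun {_} _ {S} F => IsPGroup p S → F.IsConstrained p → AS p F →
    F.HasTerminatingResidualSeries p) (fun {Ω} _ {S} _ F _ ih hS hF h => ?_) F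
  by_cases h0 : S = ⊥
  · exact .trivial F p h0
  obtain ⟨E, hE, a1⟩ := exists_pprime hS hF.1
  obtain ⟨D, hD⟩ := exists_pres hS hE.1
  have a2 := pres_normal hS hF.1 a1 hD
  refine .step F E p D hE hD (ih D a2.1.2.2.1 (fun a => h0 ?_) (hS.to_le (hyperfocal_le E))
    (subnormal_constrained hS hF (subnormal_of_normal a2)) (h.sub a2.1.2.2.1))
  obtain rfl := eq_of_sub hE.2.1.1 (sub_trans a hD.2.1)
  exact eq_bot_of_stab hS hF h ⟨(hyperfocal_le E).antisymm (le_of_sub a), hE⟩

theorem of_term {F : FusionSystem S} (h : F.HasTerminatingResidualSeries p) (hS : IsPGroup p S) (hF : F.IsSaturated p) :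
    F.IsConstrained p ∧ AS p F := by
  suffices ∀ {V : Subgroup Ω} {D : FusionSystem V} {q : ℕ}, D.HasTerminatingResidualSeries q → q = p → Finite V →
    IsPGroup p V → D.IsSaturated p → D.IsConstrained p ∧ AS p D from this h rfl inferInstance hS hF
  intro V D q h
  induction h with
  | trivial F q h0 =>
    rintro rfl _ hV hF
    subst h0
    refine ⟨(constrained_iff hV hF).2 (centralizerIn_le.trans bot_le), fun P hP => ?_⟩
    haveI := finite_mulAut hP
    refine H24.PS.of_pgroup fun α => ⟨0, Subtype.ext (aut_eq_one fun x hx => ?_)⟩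
    rw [Subgroup.mem_bot.1 (hP hx)]; exact (hiso_ex _).hom.map_one
  | step F E q D h1 h2 _ ih =>
    rintro rfl _ hV hF
    haveI := finite_of_le (hyperfocal_le (p := q) E)
    have a1 := hV.to_le (hyperfocal_le (p := q) E)
    obtain ⟨b1, b2⟩ := ih rfl inferInstance a1 h2.1
    have a2 := pprime_normal' hV hF h1
    have a3 := pres_normal' hV h1.1 h2
    refine ⟨(constrained_iff_no_comp hV hF).2 fun ⟨U, C, hC⟩ => (constrained_iff_no_comp a1 h2.1).1 b1 ⟨U, C, ?_⟩,
      (b2.of_pidx hV h2.2 a3.1.2.2.2.1).of_pprime h1.2.1⟩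
    have c1 := comp_of_le hV hC a2.1 (subnormal_le hC.1)
    haveI := finite_of_le (subnormal_le hC.1)
    exact comp_of_le hV c1 a3.1 ((qs_stab (hV.to_le (subnormal_le hC.1)) hC.2).1.ge.trans
      (hyperfocal_mono (subnormal_sub c1.1)))

end H28
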