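import Cfsg.Agent.L.Jf0
import Cfsg.Agent.H26.JE
import Cfsg.Agent.H20.KW
import Cfsg.Agent.H21.WC2
import Cfsg.Agent.H19.SelfM

/-! Part A of S5572 (`H28.S5A.a : L.Jf.AStmt`). -/

set_option autoImplicit false
set_option linter.unusedSectionVars false
set_option linter.unusedVariables false
open Cfsg BG Subgroup H01.XS H01.XF Cfsg.Agent.H06.J Cfsg.Agent.H23.K
open H01.XT hiding Hy QS

namespace H28.S5A
universe u

theorem nz {X : Type u} [Group X] [Finite X] {a g : X} : g ∈ N_(zpowers a) ↔ g * a * g⁻¹ ∈ zpowers a :=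
  ⟨fun h => (mem_normalizer_iff.1 h a).1 (mem_zpowers a), fun h => mem_normalizer_fintype (by
    rintro _ ⟨k, rfl⟩
    show g * a ^ k * g⁻¹ ∈ zpowers a
    rw [← conj_zpow]; exact zpow_mem h k)⟩

theorem sy {X : Type u} [Group X] [Finite X] (p : ℕ) [Fact p.Prime] (n : ¬ p * p ∣ Nat.card X) (a : X) (e : orderOf a = p) :
    ∃ P : Sylow p X, (P : Subgroup X) = zpowers a :=
  ⟨(show IsPGroup p (zpowers a) from IsPGroup.of_card (n := 1) (by rw [Nat.card_zpowers, e, pow_one])).toSylow fun h =>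
    n (by rw [← (zpowers a).card_mul_index, Nat.card_zpowers, e]; exact mul_dvd_mul_left p h), rfl⟩

theorem cj {X : Type u} [Group X] [Finite X] (p : ℕ) [Fact p.Prime] (n : ¬ p * p ∣ Nat.card X) (a b : X) (e : orderOf a = p)
    (e' : orderOf b = p) : ∃ g : X, g * a * g⁻¹ ∈ zpowers b := by
  obtain ⟨P, eP⟩ := sy p n a e
  obtain ⟨R, eR⟩ := sy p n b e'
  obtain ⟨g, hg⟩ := MulAction.exists_smul_eq X P R
  exact ⟨g, by rw [← eR, ← hg]; exact ⟨a, eP.ge (mem_zpowers a), rfl⟩⟩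

theorem ab {X : Type u} [Group X] [Finite X] (c : Nat.card X = 8192 * 2661120) {σ : X} (o : orderOf σ = 5)
    (c1 : Nat.card C_[σ] ∣ 960) (c2 : 32 ∣ Nat.card C_[σ]) (c3 : 3 ∣ Nat.card C_[σ]) :
    Nat.card C_[σ] = 960 ∧ Nat.card ↥(N_(zpowers σ)) = 3840 := by
  have : Fact (Nat.Prime 5) := ⟨by norm_num⟩
  obtain ⟨P, eP⟩ := sy 5 (by rw [c]; norm_num) σ o
  have h7 := o ▸ orderOf_dvd_natCard _ (mem_cent1_self σ)
  have n1 := (zpowers σ).normalizerMonoidHom.ker.card_mul_index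
  have n2 := card_subgroup_dvd_card (zpowers σ).normalizerMonoidHom.range
  rw [IsCyclic.card_mulAut, Nat.card_zpowers, o, show Nat.totient 5 = 4 by decide, ← index_ker] at n2
  generalize (zpowers σ).normalizerMonoidHom.ker.index = k at n1 n2
  rw [normalizerMonoidHom_ker, Nat.card_congr (subgroupOfEquivOfLe (centralizer_le_normalizer _)).toEquiv,
    show centralizer (zpowers σ : Set X) = C_[σ] by rw [zpowers_eq_closure, centralizer_closure]] at n1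
  have n3 := card_sylow_modEq_one 5 X
  rw [P.card_eq_index_normalizer, show (P : Set X) = zpowers σ from congrArg SetLike.coe eP] at n3
  have n4 := (N_(zpowers σ)).card_mul_index
  rw [c, ← n1] at n4
  rw [← n1]
  have n5 : Nat.card C_[σ] = 480 ∨ Nat.card C_[σ] = 960 := by
    have := Nat.le_of_dvd (by norm_num) c1
    have := Nat.pos_of_dvd_of_pos c1 (by norm_num)
    omega
  have n6 := Nat.le_of_dvd (by norm_num) n2
  unfold Nat.ModEq at n3
  rcases n5 with e | e <;> rw [e] at n4 ⊢ <;> interval_cases k <;> omega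

section
variable {V : Type u} [AddCommGroup V] [Module (ZMod 2) V] [Finite V] {Γ : Type u} [Group Γ] [Finite Γ]
  {T : Γ → V →+ V} {d : Γ} {M K Y : Subgroup Γ} {β : V →+ V →+ ZMod 2} {q : V → ZMod 2} {B : AddSubgroup V}

theorem c16 (g : Gj T d M β q) (pj : Pj T d K Y q B) (fB : ∀ g, (∀ v ∈ B, T g v = v) → g ∈ Y) (Y2 : ∀ y ∈ Y, y * y = 1)
    {a : Γ} (aK : a ∈ K) (o : orderOf a = 5) : Nat.card ((T a).eqLocus (AddMonoidHom.id V)) = 16 := by
  have : Fact (Nat.Prime 5) := ⟨by norm_num⟩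
  have nB : ¬ ∀ v ∈ B, T a v = v := fun h => by
    have := orderOf_dvd_of_pow_eq_one (n := 2) ((pow_two a).trans (Y2 _ (fB a h))); rw [o] at this; omega
  have it : ∀ v, (T a)^[5] v = v := fun v => by rw [H21.WC2.it g, ← o, pow_orderOf_eq_one, g.one]
  set F := (T a).eqLocus (AddMonoidHom.id V)
  have m1 := H21.WC2.md 5 (T a) it (B : Set V) (pj.KB a aK)
  have m2 := H21.WC2.md 5 (T a) it Set.univ fun _ _ => trivial
  rw [show {v | v ∈ (B : Set V) ∧ T a v = v} = ((B ⊓ F : AddSubgroup V) : Set V) from rfl] at m1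
  rw [show {v | v ∈ (Set.univ : Set V) ∧ T a v = v} = (F : Set V) from Set.ext fun v => and_iff_right trivial,
    Nat.card_univ, g.card] at m2
  change Nat.card B ≡ Nat.card (B ⊓ F : AddSubgroup V) [MOD 5] at m1
  change _ ≡ Nat.card F [MOD 5] at m2
  have d1 := AddSubgroup.card_dvd_of_le (inf_le_left : B ⊓ F ≤ B)
  have d2 := AddSubgroup.card_dvd_of_le (inf_le_right : B ⊓ F ≤ F)
  have d3 := AddSubgroup.card_addSubgroup_dvd_card F
  have n1 : Nat.card (B ⊓ F : AddSubgroup V) ≠ 64 := fun e => nB fun v i =>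
    ((AddSubgroup.eq_of_le_of_card_ge (inf_le_left : B ⊓ F ≤ B) (by rw [e, pj.cB])).ge i).2
  rw [pj.cB] at m1 d1
  rw [g.card] at d3
  obtain ⟨i, i6, ei⟩ := (Nat.dvd_prime_pow Nat.prime_two (m := 6)).1 d1
  obtain ⟨j, j6, ej⟩ := (Nat.dvd_prime_pow Nat.prime_two (m := 12)).1 d3
  have e4 : Nat.card (B ⊓ F : AddSubgroup V) = 4 := by
    rw [ei] at m1 n1 ⊢; unfold Nat.ModEq at m1; interval_cases i <;> omega
  have n2 : Nat.card F < 256 := by
    by_contra! k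
    have r1 := (B.addSubgroupOf F).card_mul_index
    rw [← AddSubgroup.inf_addSubgroupOf_right, Nat.card_congr (AddSubgroup.addSubgroupOfEquivOfLe inf_le_right).toEquiv, e4,
      AddSubgroup.inf_addSubgroupOf_right] at r1
    have r2 : B.relIndex (F ⊔ B) = B.relIndex F := AddSubgroup.relIndex_sup_right F B
    have r3 := (B.addSubgroupOf (F ⊔ B)).card_mul_index
    rw [Nat.card_congr (AddSubgroup.addSubgroupOfEquivOfLe le_sup_right).toEquiv, pj.cB] at r3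
    have r4 : F ⊔ B = ⊤ := AddSubgroup.eq_top_of_le_card _ (by
      rw [g.card]; unfold AddSubgroup.relIndex at r2; omega)
    refine nB fun b i => lc (g.toQF.nd (T a b + b) fun v => ?_)
    obtain ⟨u, hu, w, hw, rfl⟩ := AddSubgroup.mem_sup.1 (r4.ge (AddSubgroup.mem_top v))
    have bb : ∀ x ∈ B, ∀ y ∈ B, β x y = 0 := fun x i y j => by
      have := g.pol x y
      rw [pj.qB _ (add_mem i j), pj.qB _ i, pj.qB _ j] at this; simpa using this.symm
    have := g.toQF.inv (g.qT a) b u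
    rw [show T a u = u from hu] at this
    rw [map_add, bb _ (add_mem (pj.KB a aK b i) i) w hw, add_zero, map_add, AddMonoidHom.add_apply, this, CharTwo.add_self_eq_zero]
  rw [e4, ej] at d2
  rw [ej] at m2 n2 ⊢
  unfold Nat.ModEq at m2
  interval_cases j <;> omega
end

theorem a : L.Jf.AStmt.{u} := by
  intro G _ _ z Q V _ _ _ Γ _ _ f π ν T d M β q s K Y B A δ0 cx c2 ρ ρs ρk
  have : Fact (Nat.Prime 5) := ⟨by norm_num⟩
  have : Fact (Nat.Prime 3) := ⟨by norm_num⟩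
  have l := s.md.lx
  have g := s.gm
  have mu := H26.JE.mul s
  have iv := H26.JE.inv s
  have pc : ∀ m ∈ C_[z], ∀ a ∈ C_[z], π (m * a * m⁻¹) = π m * π a * (π m)⁻¹ := fun m i a j => by
    rw [mu _ (mul_mem i j) _ (inv_mem i), mu _ i _ j, iv _ i]
  have p1 : π 1 = 1 := (s.ker 1 (one_mem _)).2 (one_mem _)
  have pp : ∀ x ∈ C_[z], ∀ n : ℕ, π (x ^ n) = π x ^ n := fun x i n =>
    (s.pf (⟨x, i⟩ ^ n)).symm.trans ((map_pow f _ _).trans (by rw [s.pf]))
  have cX : Nat.card C_[z] = 8192 * 2661120 := by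
    have := H26.JE.cnt s (U := C_[z]) le_rfl
    rwa [inf_eq_left.2 l.le, s.card, subgroupOf_self, map_top_of_surjective f (fun k => by
      obtain ⟨x, i, e⟩ := s.sur k; exact ⟨⟨x, i⟩, (s.pf _).trans e⟩), card_top, g.cΓ, eq_comm] at this
  refine ⟨by rw [cX]; norm_num, fun σ σz o => ?_⟩
  have s7 : π σ ^ 5 = 1 := by rw [← pp σ σz, ← o, pow_orderOf_eq_one, p1]
  have s1 : π σ ≠ 1 := fun e => by
    have := orderOf_dvd_natCard Q ((s.ker σ σz).1 e)
    rw [o, s.card] at this; omega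
  have d3 : d ^ 3 = 1 := by rw [pow_three, g.d3]
  have d1 := H20.KW.d1 s
  have sM : π σ ∈ M := by
    rw [show π σ = (π σ ^ 2) ^ 3 by rw [← pow_mul, pow_succ, s7, one_mul]]
    exact pow_mem (sq_mem_of_index_two g.Mi _) 3
  have cs : Commute (π σ) d := g.Md _ sM
  have z2 : orderOf z = 2 := l.aes.ord
  have cF : Nat.card ((T (π σ)).eqLocus (AddMonoidHom.id V)) = 16 := by
    have cM := M.card_mul_index
    rw [g.Mi, g.cΓ] at cM
    have cK := (K.subgroupOf M).card_mul_index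
    rw [show (K.subgroupOf M).index = 77 from cx.hk.iK, Nat.card_congr (subgroupOfEquivOfLe cx.hk.KM).toEquiv] at cK
    obtain ⟨k, ok⟩ := exists_prime_orderOf_dvd_card' (G := K) 5 (by omega)
    obtain ⟨h, hh⟩ := cj 5 (by rw [g.cΓ]; norm_num) (π σ) k.1 (orderOf_eq_prime s7 s1) ((orderOf_coe k).trans ok)
    rw [← c16 g cx.pj c2.fB cx.hk.hx.Y2 (zpowers_le.2 k.2 hh) (((MulAut.conj h).orderOf_eq _).trans (orderOf_eq_prime s7 s1))]
    refine Nat.card_congr ⟨fun v => ⟨T h v, ?_⟩, fun v => ⟨T h⁻¹ v, ?_⟩, fun v => Subtype.ext ?_, fun v => Subtype.ext ?_⟩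
    · show T _ (T h v) = T h v
      rw [← g.mul, inv_mul_cancel_right, g.mul]; exact congrArg _ v.2
    · show T _ (T h⁻¹ v) = T h⁻¹ v
      rw [← g.mul, show π σ * h⁻¹ = h⁻¹ * (h * π σ * h⁻¹) by group, g.mul]; exact congrArg _ v.2
    · show T h⁻¹ (T h v) = v
      rw [← g.mul, inv_mul_cancel, g.one]
    · show T h (T h⁻¹ v) = v
      rw [← g.mul, mul_inv_cancel, g.one]
  have fx : ∀ r ∈ Q, T (π σ) (ν r) = ν r → r ∈ C_[σ] := fun r i e => by
    rcases s.md.eq (l.cE σz i) i ((s.act σ σz r i).symm.trans e) with k | k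
    · exact mem_cent1.2 (mul_inv_eq_iff_eq_mul.1 k).symm
    · exfalso
      have k1 : r⁻¹ * σ * r⁻¹⁻¹ = z * σ := by
        rw [inv_inv, mul_assoc, mul_inv_eq_iff_eq_mul.1 k, mul_assoc, ← mul_assoc r⁻¹, mem_cent1.1 (l.le (inv_mem i))]; group
      have k2 := congrArg (· ^ 5) k1
      simp only [conj_pow, (show Commute z σ from (mem_cent1.1 σz).symm).mul_pow, o ▸ pow_orderOf_eq_one σ, mul_one,
        mul_inv_cancel] at k2
      have := orderOf_dvd_of_pow_eq_one k2.symm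
      rw [z2] at this; omega
  have eQ : Q ⊓ (C_[z] ⊓ C_[σ]) = s.md.pull ((T (π σ)).eqLocus (AddMonoidHom.id V)) := Subgroup.ext fun r =>
    ⟨fun i => ⟨i.1, show T _ _ = ν r by rw [s.act σ σz r i.1, ← mem_cent1.1 i.2.2, mul_inv_cancel_right]⟩,
      fun i => ⟨i.1, l.le i.1, fx r i.1 i.2⟩⟩
  have a1 : Nat.card ↥(Q ⊓ (C_[z] ⊓ C_[σ])) = 32 := by rw [eQ, s.md.card_pull, cF]
  have cE : ∃ E : Subgroup Γ, E = ((C_[z] ⊓ C_[σ]).subgroupOf C_[z]).map f ∧ Nat.card ↥(M ⊓ E) ∣ 15 := by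
    refine ⟨_, rfl, ?_⟩
    generalize hE : ((C_[z] ⊓ C_[σ]).subgroupOf C_[z]).map f = E
    have El : E ≤ C_[π σ] := by
      rw [← hE]; rintro _ ⟨x, i, rfl⟩
      exact mem_cent1.2 (by rw [s.pf, ← mu _ x.2 _ σz, ← mu _ σz _ x.2]; exact congrArg π (mem_cent1.1 i.2))
    have a4 := card_inf_mul_relIndex ρ.ker (E.subgroupOf M)
    rw [relIndex_ker] at a4
    have a5 : Nat.card ↥(ρ.ker ⊓ E.subgroupOf M) ∣ 3 := by
      refine (card_dvd_of_le (K := zpowers (⟨d, g.dM⟩ : M)) fun m i => ?_).trans ?_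
      · obtain ⟨k, e⟩ := (ρk m).1 i.1
        exact ⟨k, Subtype.ext e⟩
      · rw [Nat.card_zpowers]; exact orderOf_dvd_of_pow_eq_one (Subtype.ext d3)
    have a6 : Nat.card ((E.subgroupOf M).map ρ) ∣ 5 := by
      rw [← _root_.H19.selfC_M22 (p := 5) (by simp) (ρ ⟨π σ, sM⟩) (orderOf_eq_prime (by
        rw [← map_pow, show (⟨π σ, sM⟩ : M) ^ 5 = 1 from Subtype.ext s7, map_one]) fun e => by
          obtain ⟨k, e⟩ := (ρk _).1 e
          have e' : d ^ k = π σ := e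
          have : π σ ^ 3 = 1 := by rw [← e', ← zpow_natCast, ← zpow_mul, mul_comm, zpow_mul, zpow_natCast, d3, one_zpow]
          have := orderOf_dvd_of_pow_eq_one this
          rw [orderOf_eq_prime s7 s1] at this; omega)]
      refine card_dvd_of_le ?_
      rintro _ ⟨m, i, rfl⟩
      exact mem_cent1.2 (by rw [← map_mul, ← map_mul]; exact congrArg ρ (Subtype.ext (mem_cent1.1 (El i))))
    rw [← Nat.card_congr (subgroupOfEquivOfLe (inf_le_left : M ⊓ E ≤ M)).toEquiv, inf_subgroupOf_left, ← a4]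
    exact mul_dvd_mul a5 a6
  obtain ⟨E, hE, c15⟩ := cE
  have a0 := H26.JE.cnt s (inf_le_left : C_[z] ⊓ C_[σ] ≤ C_[z])
  rw [← hE, a1] at a0
  have := M.normal_of_index_eq_two g.Mi
  have a2 := card_inf_mul_relIndex M E
  have c84 : Nat.card ↥(C_[z] ⊓ C_[σ]) ∣ 960 := by
    rw [← a0, ← a2]
    exact mul_dvd_mul_left 32 (mul_dvd_mul c15 (g.Mi ▸ relIndex_dvd_index_of_normal M E))
  obtain ⟨δ, δz, δσ, δ3, δd⟩ : ∃ δ ∈ C_[z], δ ∈ C_[σ] ∧ orderOf δ = 3 ∧ π δ = d := by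
    have xz := mul_mem σz cx.δz
    have px : ∀ n, π ((σ * δ0) ^ n) = π σ ^ n * d ^ n := fun n => by rw [pp _ xz, mu _ σz _ cx.δz, cx.δd, cs.mul_pow]
    have x1 : (σ * δ0) ^ (15 * 8192) = 1 := by
      rw [pow_mul, ← orderOf_dvd_iff_pow_eq_one, ← s.card]
      exact orderOf_dvd_natCard Q ((s.ker _ (pow_mem xz 15)).1 (by
        rw [px, pow_eq_pow_mod _ s7, pow_eq_pow_mod _ d3]; simp))
    have x3 := px (5 * 8192)
    have x5 := px (3 * 8192)
    rw [pow_eq_pow_mod _ s7, pow_eq_pow_mod _ d3] at x3 x5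
    norm_num at x3 x5
    obtain ⟨h, k, e⟩ := cj 5 (X := C_[z]) (by rw [cX]; norm_num) ⟨σ, σz⟩ ⟨_, pow_mem xz 24576⟩ ((orderOf_coe _).symm.trans o)
      ((orderOf_coe _).symm.trans (orderOf_eq_prime (by rw [← pow_mul]; exact x1) fun e => s1 (by
        rw [← x5, show (σ * δ0) ^ 24576 = 1 from e, p1])))
    have e' : ((σ * δ0) ^ 24576) ^ k = h * σ * h⁻¹ := congrArg Subtype.val e
    have cm : Commute ((σ * δ0) ^ 40960) (h * σ * h⁻¹) := e' ▸ (Commute.pow_pow_self _ _ _).zpow_right k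
    have o3 : orderOf ((σ * δ0) ^ 40960) = 3 :=
      orderOf_eq_prime (by rw [← pow_mul]; exact x1) fun e => d1 (by rw [← x3, e, p1])
    have m1 := mul_mem (mul_mem (inv_mem h.2) (pow_mem xz 40960)) (inv_mem (inv_mem h.2))
    have m2 : (h : G)⁻¹ * (σ * δ0) ^ 40960 * (h : G)⁻¹⁻¹ ∈ C_[σ] := mem_cent1.2 (by
      generalize (σ * δ0) ^ 40960 = w at cm
      calc _ = (h : G)⁻¹ * (w * (h * σ * (h : G)⁻¹)) * h := by group
        _ = (h : G)⁻¹ * ((h * σ * (h : G)⁻¹) * w) * h := congrArg (fun t => (h : G)⁻¹ * t * h) cm.eq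
        _ = _ := by group)
    have m3 := ((MulAut.conj (h : G)⁻¹).orderOf_eq _).trans o3
    have m4 := pc _ (inv_mem h.2) _ (pow_mem xz 40960)
    rw [x3] at m4
    by_cases o : π (h : G)⁻¹ ∈ M
    · exact ⟨_, m1, m2, m3, by rw [m4, g.Md _ o, mul_inv_cancel_right]⟩
    · exact ⟨_, inv_mem m1, inv_mem m2, (orderOf_inv _).trans m3, by
        rw [iv _ m1, m4, g.nM _ o, mul_inv_cancel_right, inv_eq_iff_mul_eq_one, mul_assoc, g.d3]⟩
  have e1 : (C_[z] ⊓ C_[σ]).subgroupOf C_[z] = C_[(⟨σ, σz⟩ : C_[z])] := by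
    rw [inf_subgroupOf_left]; ext x; rw [mem_subgroupOf, mem_cent1, mem_cent1, Subtype.ext_iff]; rfl
  have e2 : (C_[z] ⊓ N_(zpowers σ)).subgroupOf C_[z] = N_(zpowers (⟨σ, σz⟩ : C_[z])) := by
    rw [inf_subgroupOf_left]; ext x; rw [mem_subgroupOf, nz, nz]
    exact ⟨fun ⟨k, e⟩ => ⟨k, Subtype.ext e⟩, fun ⟨k, e⟩ => ⟨k, congrArg Subtype.val e⟩⟩
  have e3 := Nat.card_congr (subgroupOfEquivOfLe (inf_le_left : C_[z] ⊓ C_[σ] ≤ C_[z])).toEquiv
  rw [e1] at e3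
  obtain ⟨b1, b2⟩ := ab cX ((orderOf_coe _).symm.trans o) (e3 ▸ c84) (e3 ▸ ⟨_, a0.symm⟩)
    (e3 ▸ δ3 ▸ orderOf_dvd_natCard (C_[z] ⊓ C_[σ]) ⟨δz, δσ⟩)
  rw [e3] at b1
  have zσ : z ∈ C_[σ] := mem_cent1.2 (mem_cent1.1 σz).symm
  have zQ : z ∈ Q ⊓ (C_[z] ⊓ C_[σ]) := ⟨l.aes.mem, mem_cent1_self z, zσ⟩
  have ce : Q ⊓ (C_[z] ⊓ C_[σ]) ⊓ C_(Q ⊓ (C_[z] ⊓ C_[σ])) ≤ zpowers z := fun r i => by
    have i1 : T (π σ) (ν r) = ν r := (eQ.le i.1).2
    have : ν r = 0 := g.toQF.nd _ fun v => by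
      have iv' : ∀ w, β (ν r) (T (π σ) w) = β (ν r) w := fun w => by
        have := g.toQF.inv (g.qT (π σ)) (ν r) w; rwa [i1] at this
      obtain ⟨w, wQ, ew⟩ := s.md.sur (v + T (π σ) v + T (π σ) (T (π σ) v) + T (π σ) (T (π σ) (T (π σ) v)) +
        T (π σ) (T (π σ) (T (π σ) (T (π σ) v))))
      have v5 : T (π σ) (T (π σ) (T (π σ) (T (π σ) (T (π σ) v)))) = v := by
        have := H21.WC2.it g (π σ) 5 v
        rw [s7, g.one] at this; exact this
      have := (s.b r i.1.1 w wQ).2 (mem_centralizer_iff.1 i.2 w (eQ.ge ⟨wQ, show T _ _ = ν w by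
        rw [ew]; simp only [map_add, v5]; abel⟩)).symm
      rw [ew] at this
      simp only [map_add, iv'] at this
      rwa [CharTwo.add_self_eq_zero, zero_add, CharTwo.add_self_eq_zero, zero_add] at this
    rcases (s.md.ker r i.1.1).1 this with e | e <;> rw [e]
    exacts [one_mem _, mem_zpowers z]
  refine ⟨b1, by rw [← Nat.card_congr (subgroupOfEquivOfLe (inf_le_left : C_[z] ⊓ N_(zpowers σ) ≤ C_[z])).toEquiv, e2, b2],
    Q ⊓ (C_[z] ⊓ C_[σ]), δ, inf_le_right, fun m i => mem_normalizer_fintype fun r j =>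
      ⟨l.cE i.1 j.1, (C_[z] ⊓ C_[σ]).mul_mem ((C_[z] ⊓ C_[σ]).mul_mem i j.2) ((C_[z] ⊓ C_[σ]).inv_mem i)⟩,
    H04.isExtraspecial_of_aes (z := z) ⟨z2, zQ, mem_centralizer_iff.2 fun r i => mem_cent1.1 i.2.1,
      fun x i y j => l.aes.comm x i.1 y j.1, fun x i => l.aes.pow x i.1⟩ ce fun cm => ?_, a1, zQ, ⟨δz, δσ⟩, δ3,
    fun r i j => H26.JE.cq s δz δd i.1 j, ?_⟩
  · have := card_le_of_le (K := zpowers z) (H := Q ⊓ (C_[z] ⊓ C_[σ])) fun r i => ce ⟨i, mem_centralizer_iff.2 fun w j =>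
      congrArg Subtype.val (cm.is_comm.comm (⟨w, j⟩ : ↥(Q ⊓ (C_[z] ⊓ C_[σ]))) ⟨r, i⟩)⟩
    rw [a1, Nat.card_zpowers, z2] at this; omega
  · obtain ⟨c, ci, cM⟩ : ∃ c ∈ C_[z] ⊓ C_[σ], π c ∉ M := by
      by_contra! k
      rw [inf_eq_right.2 (show E ≤ M by rw [hE]; rintro _ ⟨x, i, rfl⟩; rw [s.pf]; exact k _ i)] at c15
      have := Nat.le_of_dvd (by norm_num) c15
      omega
    let L0 : Subgroup G := C_[σ] ⊓ (M.comap f).map C_[z].subtype
    have mL : ∀ x ∈ C_[z], x ∈ C_[σ] → π x ∈ M → x ∈ L0 := fun x i j k => ⟨j, ⟨x, i⟩, show f _ ∈ M by rw [s.pf]; exact k, rfl⟩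
    have cδ : π (c * δ * c⁻¹) = d * d := by rw [pc _ ci.1 _ δz, δd, g.nM _ cM, mul_inv_cancel_right]
    have l0 : L0 ≤ C_[z] ⊓ C_[σ] := le_inf (inf_le_right.trans (map_subtype_le _)) inf_le_left
    obtain ⟨h, k, e⟩ := cj 3 (X := L0) (fun o => by have := o.trans (card_dvd_of_le l0); rw [b1] at this; omega)
      ⟨c * δ * c⁻¹, mL _ (mul_mem (mul_mem ci.1 δz) (inv_mem ci.1)) (mul_mem (mul_mem ci.2 δσ) (inv_mem ci.2))
        (cδ ▸ mul_mem g.dM g.dM)⟩ ⟨δ, mL _ δz δσ (δd ▸ g.dM)⟩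
      ((orderOf_coe _).symm.trans (((MulAut.conj c).orderOf_eq δ).trans δ3)) ((orderOf_coe _).symm.trans δ3)
    have e' : δ ^ k = h * (c * δ * c⁻¹) * (h : G)⁻¹ := congrArg Subtype.val e
    have hM : π h ∈ M := by
      obtain ⟨y, i, e⟩ := h.2.2
      rw [← e]; exact s.pf y ▸ i
    refine ⟨h * c, mul_mem (l0 h.2) ci, ?_⟩
    rw [show h * c * δ * (h * c)⁻¹ = h * (c * δ * c⁻¹) * (h : G)⁻¹ by group, ← e', eq_inv_iff_mul_eq_one, ← zpow_add_one]
    have e4 : π (δ ^ (k + 1)) = 1 := by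
      rw [zpow_add_one, mu _ (zpow_mem δz k) _ δz, e', pc _ (l0 h.2).1 _ (mul_mem (mul_mem ci.1 δz) (inv_mem ci.1)), cδ, δd,
        ← mul_assoc, g.Md _ hM, mul_assoc d (π h), g.Md _ hM, ← mul_assoc, mul_inv_cancel_right, mul_assoc, g.d3]
    have h1 := orderOf_dvd_natCard Q ((s.ker _ (zpow_mem δz _)).1 e4)
    have h2 := orderOf_dvd_natCard _ (zpow_mem (mem_zpowers δ) (k + 1))
    rw [Nat.card_zpowers, δ3] at h2
    rw [s.card] at h1
    exact orderOf_eq_one_iff.1 (Nat.eq_one_of_dvd_coprimes (by norm_num) h1 h2)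

end H28.S5A
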