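import Cfsg.Agent.L.Jt0
import Cfsg.Agent.H20.KW
import Cfsg.Agent.H20.FtB
import Cfsg.Agent.H26.JE

/-! Part W2 of S5563–S5565 (`H28.TW2.w2 : L.Jt.W2Stmt`). -/

set_option autoImplicit false
set_option linter.unusedSectionVars false
set_option linter.unusedVariables false
open Cfsg BG Subgroup H01.XS Cfsg.Agent.H06.J Cfsg.Agent.H23.K

namespace H28.TW2
universe u

theorem cc {G : Type u} [Group G] {a m : G} : m ∈ C_[a] ↔ m * a * m⁻¹ = a := by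
  rw [mem_cent1, mul_inv_eq_iff_eq_mul]

theorem w2 : L.Jt.W2Stmt.{u} := by
  intro G _ _ z Q V _ _ _ Γ _ _ f π ν T d M β q s K Y B A δ x c2 lc h c cδ cz
  have l := s.md.lx
  have g := s.gm
  have mu := H26.JE.mul s
  have iv := H26.JE.inv s
  have pc : ∀ m ∈ C_[z], ∀ a ∈ C_[z], π (m * a * m⁻¹) = π m * π a * (π m)⁻¹ := fun m i a j => by
    rw [mu _ (mul_mem i j) _ (inv_mem i), mu _ i _ j, iv _ i]
  have p1 : π 1 = 1 := (s.ker 1 (one_mem _)).2 (one_mem _)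
  have zδ : z ∈ C_[δ] := mem_cent1.2 (mem_cent1.1 x.δz).symm
  have zA : z ∈ A := (show s.md.pull B ≤ A from c2.e3 ▸ inf_le_left)
    (show z ∈ Q ∧ ν z ∈ B from ⟨l.aes.mem, s.md.zz ▸ zero_mem B⟩)
  have wδ : c * z * c⁻¹ ∈ C_[δ] := mul_mem (mul_mem cδ zδ) (inv_mem cδ)
  have ww : c * z * c⁻¹ * (c * z * c⁻¹) = 1 := by
    rw [show c * z * c⁻¹ * (c * z * c⁻¹) = c * (z * z) * c⁻¹ by group, l.zz]; group
  obtain ⟨m, mM, mY⟩ := x.hk.oc _ (lc.inM _ cz wδ) (by rw [← mu _ cz _ cz, ww, p1])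
  obtain ⟨c0, az, aδ, rfl⟩ := lc.lift m mM
  rw [← pc _ az _ cz] at mY
  obtain ⟨a, aA, bδ, ea⟩ := c2.YA _ mY
  have tz : c0 * (c * z * c⁻¹) * c0⁻¹ ∈ C_[z] := mul_mem (mul_mem az cz) (inv_mem az)
  have tδ : c0 * (c * z * c⁻¹) * c0⁻¹ ∈ C_[δ] := mul_mem (mul_mem aδ wδ) (inv_mem aδ)
  have tA : c0 * (c * z * c⁻¹) * c0⁻¹ ∈ A := by
    have := lc.qz (a⁻¹ * (c0 * (c * z * c⁻¹) * c0⁻¹)) ((s.ker _ (mul_mem (inv_mem (x.Az aA)) tz)).1 (by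
      rw [mu _ (inv_mem (x.Az aA)) _ tz, iv _ (x.Az aA), ea, inv_mul_cancel])) (mul_mem (inv_mem bδ) tδ)
    refine (mul_mem_cancel_left (inv_mem aA)).1 ?_
    rcases this with e | e <;> rw [e]
    exacts [one_mem _, zA]
  have e : H20.FtW.EA A := x.A2
  obtain ⟨k, kz, kN⟩ := H20.FtB.fc (g := (c0 * c)⁻¹) x.u e x.cA x.Az (fun y i => by
    have := e.comm (mem_cj_inv.1 i) tA
    refine mem_cent1.2 (mul_left_cancel (a := c0 * c) (mul_right_cancel (b := (c0 * c)⁻¹) ?_))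
    calc _ = c0 * c * y * (c0 * c)⁻¹ * (c0 * (c * z * c⁻¹) * c0⁻¹) := by group
      _ = _ := by rw [this]; group)
  have eδ : (c0 * c)⁻¹ * δ * (c0 * c)⁻¹⁻¹ = δ := cc.1 (inv_mem (mul_mem aδ cδ))
  have kδ : k * δ * k⁻¹ ∈ C_[z] := mul_mem (mul_mem kz x.δz) (inv_mem kz)
  have k3 : (k * δ * k⁻¹) ^ 3 = 1 := by rw [conj_pow, x.δ3]; group
  have di : d⁻¹ = d * d := inv_eq_of_mul_eq_one_right g.d3
  obtain ⟨r, rQ, er⟩ : ∃ r ∈ Q, r * (k * δ * k⁻¹) * r⁻¹ ∈ zpowers δ := by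
    by_cases o : π k ∈ M
    · obtain ⟨r, rQ, er⟩ := H20.KW.cj3 s kδ (by rw [pc _ kz _ x.δz, x.δd, g.Md _ o, mul_inv_cancel_right]) k3 x.δz x.δd x.δ3
      exact ⟨r, rQ, by rw [er]; exact mem_zpowers δ⟩
    · obtain ⟨r, rQ, er⟩ := H20.KW.cj3 s (inv_mem kδ) (by
        rw [iv _ kδ, pc _ kz _ x.δz, x.δd, g.nM _ o, mul_inv_cancel_right, ← di, inv_inv]) (by rw [inv_pow, k3, inv_one])
        x.δz x.δd x.δ3
      refine ⟨r, rQ, inv_mem_iff.1 ?_⟩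
      rw [show (r * (k * δ * k⁻¹) * r⁻¹)⁻¹ = r * (k * δ * k⁻¹)⁻¹ * r⁻¹ by group, er]
      exact mem_zpowers δ
  have n := h _ (mul_mem (lc.QN rQ) kN) (by
    rw [show r * (k * (c0 * c)⁻¹) * δ * (r * (k * (c0 * c)⁻¹))⁻¹ =
      r * (k * ((c0 * c)⁻¹ * δ * (c0 * c)⁻¹⁻¹) * k⁻¹) * r⁻¹ by group, eδ]; exact er)
  have n1 : c⁻¹ ∈ C_[z] := by
    have := mul_mem (mul_mem (inv_mem (mul_mem (l.le rQ) kz)) (cc.2 n)) az
    rwa [show (r * k)⁻¹ * (r * (k * (c0 * c)⁻¹)) * c0 = c⁻¹ by group] at this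
  exact cc.1 (inv_mem_iff.1 n1)

end H28.TW2
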